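/-
Automorphisms of `PSU_n(q)`: root groups and the Sylow argument.
-/
import Cfsg.Agent.Lib.ClassGeo.USimple
import Cfsg.Agent.Lib.ClassGeo.UCenter
import Cfsg.Agent.Lib.ClassGeo.SUOver2
import Cfsg.Agent.Lib.ClassGeo.SULag
import Cfsg.Agent.Lib.ClassGeo.USplit

set_option autoImplicit false
set_option linter.unusedSimpArgs false
set_option linter.unusedVariables false
set_option linter.unusedSectionVars false
set_option maxHeartbeats 1000000

namespace CfsgLib.PUA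

open Module CfsgLib.ClassGeo

variable {F V : Type*} [Field F] [AddCommGroup V] [Module F V] {σ : F →+* F} {B : V →ₛₗ[σ] V →ₗ[F] F}

/-- The projective group. -/
abbrev PG (B : V →ₛₗ[σ] V →ₗ[F] F) := ↥(HGrp B) ⧸ Subgroup.center ↥(HGrp B)

/-- The projection. -/
noncomputable def Pr : ↥(HGrp B) →* PG B := QuotientGroup.mk' _

lemma Pr_surj : Function.Surjective (Pr : ↥(HGrp B) →* PG B) := QuotientGroup.mk'_surjective _

lemma Pr_eq_iff {x y : ↥(HGrp B)} : Pr x = Pr y ↔ x⁻¹ * y ∈ Subgroup.center ↥(HGrp B) := QuotientGroup.eq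

/-- Being a transvection. -/
def IsT (B : V →ₛₗ[σ] V →ₗ[F] F) (v : V) (a : F) (p : V ≃ₗ[F] V) : Prop :=
  ∀ x, p x = x + (a * B v x) • v

section Basic

lemma gm_mul (g h : ↥(HGrp B)) (x : V) : ((g * h : ↥(HGrp B)) : V ≃ₗ[F] V) x = (g : V ≃ₗ[F] V) ((h : V ≃ₗ[F] V) x) := rfl

lemma gm_one (x : V) : ((1 : ↥(HGrp B)) : V ≃ₗ[F] V) x = x := rfl

lemma gm_inv_l (g : ↥(HGrp B)) (x : V) : (g : V ≃ₗ[F] V) (((g⁻¹ : ↥(HGrp B)) : V ≃ₗ[F] V) x) = x :=
  (g : V ≃ₗ[F] V).apply_symm_apply x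

lemma gm_inv_r (g : ↥(HGrp B)) (x : V) : ((g⁻¹ : ↥(HGrp B)) : V ≃ₗ[F] V) ((g : V ≃ₗ[F] V) x) = x :=
  (g : V ≃ₗ[F] V).symm_apply_apply x

lemma gm_iso (g : ↥(HGrp B)) (x y : V) : B ((g : V ≃ₗ[F] V) x) ((g : V ≃ₗ[F] V) y) = B x y := g.2.1 x y

lemma gm_ne (g : ↥(HGrp B)) {x : V} (hx : x ≠ 0) : (g : V ≃ₗ[F] V) x ≠ 0 := by
  simpa using hx

lemma gm_ext {g h : ↥(HGrp B)} (e : ∀ x, (g : V ≃ₗ[F] V) x = (h : V ≃ₗ[F] V) x) : g = h :=
  Subtype.ext (LinearEquiv.ext e)

lemma IsT.unique {v : V} {a : F} {p q : ↥(HGrp B)} (hp : IsT B v a (p : V ≃ₗ[F] V)) (hq : IsT B v a (q : V ≃ₗ[F] V)) : p = q :=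
  gm_ext fun x => by rw [hp, hq]

lemma conj_T (g p : ↥(HGrp B)) {v : V} {a : F} (hp : IsT B v a (p : V ≃ₗ[F] V)) :
    IsT B ((g : V ≃ₗ[F] V) v) a ((g * p * g⁻¹ : ↥(HGrp B)) : V ≃ₗ[F] V) := by
  intro x
  rw [gm_mul, gm_mul, hp, map_add, map_smul, gm_inv_l]
  congr 3
  rw [← gm_iso g, gm_inv_l]

lemma conj_E (g p : ↥(HGrp B)) {u z : V} {k : F} (hp : IsE B u z k (p : V ≃ₗ[F] V)) :
    IsE B ((g : V ≃ₗ[F] V) u) ((g : V ≃ₗ[F] V) z) k ((g * p * g⁻¹ : ↥(HGrp B)) : V ≃ₗ[F] V) := by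
  intro x
  rw [gm_mul, gm_mul, hp, map_add, map_sub, map_add, map_smul, map_smul, map_smul, gm_inv_l]
  have e1 : B z (((g⁻¹ : ↥(HGrp B)) : V ≃ₗ[F] V) x) = B ((g : V ≃ₗ[F] V) z) x := by
    rw [← gm_iso g, gm_inv_l]
  have e2 : B u (((g⁻¹ : ↥(HGrp B)) : V ≃ₗ[F] V) x) = B ((g : V ≃ₗ[F] V) u) x := by
    rw [← gm_iso g, gm_inv_l]
  rw [e1, e2]

variable [FiniteDimensional F V]

lemma T_mem (hf : FForm σ B) {v : V} {a : F} (hv : B v v = 0) (ha : a + σ a = 0) : uT v a hv ∈ HGrp B :=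
  UT_isom_det hf _ (uT_mem hf v a hv ha)

/-- The transvection as a group element. -/
lemma exists_T (hf : FForm σ B) {v : V} {a : F} (hv : B v v = 0) (ha : a + σ a = 0) :
    ∃ p : ↥(HGrp B), IsT B v a (p : V ≃ₗ[F] V) :=
  ⟨⟨uT v a hv, T_mem hf hv ha⟩, fun x => uT_apply hf v a hv x⟩

lemma exists_E (hf : FForm σ B) {u z : V} {k : F} (huu : B u u = 0) (hzu : B z u = 0) (hk : k + σ k + B z z = 0) :
    ∃ p : ↥(HGrp B), IsE B u z k (p : V ≃ₗ[F] V) := by
  have hd : (-k) + σ (-k) = B z z := by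
    rw [map_neg]
    linear_combination -hk
  refine ⟨⟨eich hf u z (-k) huu hzu, eich_mem_suG hf u z (-k) huu hzu hd⟩, ?_⟩
  have := eich_isE hf u z (-k) huu hzu
  have e : σ (-k) - B z z = k := by
    rw [map_neg]
    linear_combination -hk
  rw [e] at this
  exact this

lemma exists_E' (hf : FForm σ B) {u z : V} (huu : B u u = 0) (hzu : B z u = 0) :
    ∃ (k : F) (p : ↥(HGrp B)), k + σ k + B z z = 0 ∧ IsE B u z k (p : V ≃ₗ[F] V) := by
  obtain ⟨c, hc⟩ := hf.trace_surj (B z z) (hf.self_fixed z)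
  have hk : (-c) + σ (-c) + B z z = 0 := by
    rw [map_neg, ← hc]
    ring
  obtain ⟨p, hp⟩ := exists_E hf huu hzu hk
  exact ⟨_, p, hk, hp⟩

end Basic

section Center

variable [FiniteDimensional F V] [Finite F]

lemma T_eq_imp {v w : V} {a : F} (hv : v ≠ 0) (ha : a ≠ 0) (hf : FForm σ B) {p : V ≃ₗ[F] V} (h1 : IsT B v a p) (h2 : IsT B w a p) :
    w ∈ Submodule.span F {v} ∧ w ≠ 0 := by
  classical
  obtain ⟨x, hx⟩ : ∃ x, B v x = 1 := by
    by_contra hno
    push Not at hno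
    have : ∀ x, B v x = 0 := by
      intro x
      by_contra hx
      apply hno ((B v x)⁻¹ • x)
      rw [map_smul, smul_eq_mul, inv_mul_cancel₀ hx]
    exact hv (hf.sep v this)
  have e := (h1 x).symm.trans (h2 x)
  rw [add_right_inj, hx, mul_one] at e
  have h3 : a • (B w x • w) = a • v := by
    rw [smul_smul, ← e]
  have h4 : B w x • w = v := smul_right_injective V ha h3
  have hb : B w x ≠ 0 := by
    intro h0
    rw [h0, zero_smul] at h4
    exact hv h4.symm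
  constructor
  · rw [Submodule.mem_span_singleton]
    refine ⟨(B w x)⁻¹, ?_⟩
    rw [← h4, smul_smul, inv_mul_cancel₀ hb, one_smul]
  · intro h0
    rw [h0, smul_zero] at h4
    exact hv h4.symm

/-- Central elements are scalars. -/
lemma center_scalar (h : HForm σ B) (hdim : 2 ≤ finrank F V) {n : ↥(HGrp B)} (hn : n ∈ Subgroup.center ↥(HGrp B)) :
    ∃ α : F, ∀ x, (n : V ≃ₗ[F] V) x = α • x := by
  have hf := h.toF
  apply scalar_of_iso_lines h hdim ((n : V ≃ₗ[F] V) : V →ₗ[F] V)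
  intro v hv
  by_cases hv0 : v = 0
  · exact ⟨0, by simp [hv0]⟩
  obtain ⟨a, ha0, ha⟩ := h.exists_anti
  obtain ⟨p, hp⟩ := exists_T hf hv ha
  have h1 := conj_T n p hp
  have e : n * p * n⁻¹ = p := by
    rw [Subgroup.mem_center_iff] at hn
    rw [← hn p, mul_inv_cancel_right]
  rw [e] at h1
  obtain ⟨h2, -⟩ := T_eq_imp hv0 ha0 hf hp h1
  obtain ⟨c, hc⟩ := Submodule.mem_span_singleton.mp h2
  exact ⟨c, hc.symm⟩

end Center


section PEl

variable [FiniteDimensional F V] [Finite F] {p : ℕ} [hp : Fact p.Prime] [CharP F p]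

include hp in
lemma scalar_p_one {α : F} {k : ℕ} (h : α ^ (p ^ k) = 1) : α = 1 := by
  have e : (α - 1) ^ (p ^ k) = 0 := by
    rw [sub_pow_char_pow, h, one_pow, sub_self]
  exact sub_eq_zero.mp (eq_zero_of_pow_eq_zero e)

omit [FiniteDimensional F V] [Finite F] [CharP F p] hp in
lemma central_smul {n g : ↥(HGrp B)} {α : F} (hn : ∀ x, n.1 x = α • x) : n * g = g * n :=
  gm_ext fun x => by
    rw [gm_mul, gm_mul, hn, hn, map_smul]

omit [FiniteDimensional F V] [Finite F] [CharP F p] hp in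
/-- Commutators of central scalars. -/
lemma mem_center_of_scalar {n : ↥(HGrp B)} {α : F} (hn : ∀ x, n.1 x = α • x) : n ∈ Subgroup.center ↥(HGrp B) := by
  rw [Subgroup.mem_center_iff]
  intro g
  exact (central_smul hn).symm

omit [FiniteDimensional F V] [Finite F] [CharP F p] hp in
lemma Pr_one_iff {x : ↥(HGrp B)} : Pr x = 1 ↔ x ∈ Subgroup.center ↥(HGrp B) := by
  exact QuotientGroup.eq_one_iff x

omit [FiniteDimensional F V] [Finite F] [CharP F p] hp in
lemma scal_pow {n : ↥(HGrp B)} {α : F} (hn : ∀ x, n.1 x = α • x) (j : ℕ) (x : V) : (n ^ j).1 x = α ^ j • x := by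
  induction j generalizing x with
  | zero => simp [gm_one]
  | succ j ih =>
    rw [pow_succ, gm_mul, ih, hn, smul_smul, pow_succ, mul_comm]

include hp in
lemma scal_eq_one (hdim : 2 ≤ Module.finrank F V) {n : ↥(HGrp B)} {α : F} (hn : ∀ x, n.1 x = α • x) {k : ℕ} (h1 : n ^ (p ^ k) = 1) : n = 1 := by
  haveI : Nontrivial V := Module.nontrivial_of_finrank_pos (R := F) (by omega)
  obtain ⟨x, hx⟩ := exists_ne (0 : V)
  have e := scal_pow hn (p ^ k) x
  rw [h1, gm_one] at e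
  have e2 : (α ^ (p ^ k) - 1) • x = 0 := by
    rw [sub_smul, ← e, one_smul, sub_self]
  have e3 : α ^ (p ^ k) = 1 := by
    rcases smul_eq_zero.mp e2 with h2 | h2
    · exact sub_eq_zero.mp h2
    · exact absurd h2 hx
  have e4 := scalar_p_one (p := p) e3
  apply gm_ext
  intro y
  rw [hn, e4, one_smul, gm_one]

include hp in
/-- Two lifts of commuting elements, one of `p`-power order, commute. -/
lemma comm_lift (h : HForm σ B) (hdim : 2 ≤ Module.finrank F V) {z r : ↥(HGrp B)} {k : ℕ} (hr : r ^ (p ^ k) = 1)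
    (hc : Commute (Pr z) (Pr r)) : Commute z r := by
  have e1 : Pr (r * z) = Pr (z * r) := by
    rw [map_mul, map_mul]
    exact hc.eq.symm
  have hn := Pr_eq_iff.mp e1
  obtain ⟨n, hndef⟩ : ∃ n, n = (r * z)⁻¹ * (z * r) := ⟨_, rfl⟩
  rw [← hndef] at hn
  have hzr : z * r = r * z * n := by
    rw [hndef]
    group
  obtain ⟨α, hα⟩ := center_scalar h hdim hn
  have hcomm : ∀ g, n * g = g * n := fun g => central_smul hα
  have e2 : z * r * z⁻¹ = r * n := by
    have e3 : z * n = n * z := (hcomm z).symm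
    calc z * r * z⁻¹ = r * (z * n) * z⁻¹ := by rw [hzr]; group
      _ = r * (n * z) * z⁻¹ := by rw [e3]
      _ = r * n := by group
  have e4 : (z * r * z⁻¹) ^ (p ^ k) = 1 := by
    rw [conj_pow, hr, mul_one, mul_inv_cancel]
  rw [e2] at e4
  have hcn : Commute r n := (hcomm r).symm
  rw [hcn.mul_pow, hr, one_mul] at e4
  have hn1 := scal_eq_one hdim hα e4
  rw [hn1, mul_one] at hzr
  exact hzr

include hp in
/-- A lift of `p`-power order. -/
lemma lift_p (h : HForm σ B) (hdim : 2 ≤ Module.finrank F V) {x : PG B} {k : ℕ} (hx : x ^ (p ^ k) = 1) :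
    ∃ (q : ↥(HGrp B)) (m : ℕ), Pr q = x ∧ q ^ (p ^ m) = 1 := by
  classical
  haveI := Fintype.ofFinite F
  obtain ⟨g, rfl⟩ := Pr_surj x
  obtain ⟨r, hpr, hr⟩ := FiniteField.card F p
  have hcard : 1 < Fintype.card F := Fintype.one_lt_card
  have hr0 : (r : ℕ) ≠ 0 := r.ne_zero
  have hcop : Nat.Coprime (Fintype.card F - 1) (p ^ (k + 1)) := by
    apply Nat.Coprime.pow_right
    rw [Nat.coprime_comm, Nat.Prime.coprime_iff_not_dvd hp.out]
    intro hd
    have h1 : p ∣ Fintype.card F := by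
      rw [hr]
      exact dvd_pow_self p hr0
    have h2 := (Nat.dvd_sub h1 hd)
    have e : Fintype.card F - (Fintype.card F - 1) = 1 := by omega
    rw [e] at h2
    exact hp.out.one_lt.ne' (Nat.dvd_one.mp h2)
  have hpk : 1 < p ^ (k + 1) := Nat.one_lt_pow (by omega) hp.out.one_lt
  obtain ⟨c, -, hc⟩ := Nat.exists_mul_mod_eq_one_of_coprime hcop hpk
  have hdec := Nat.div_add_mod ((Fintype.card F - 1) * c) (p ^ (k + 1))
  rw [hc] at hdec
  obtain ⟨d, hd⟩ : ∃ d, d = (Fintype.card F - 1) * c / p ^ (k + 1) := ⟨_, rfl⟩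
  rw [← hd] at hdec
  have hx' : Pr g ^ (p ^ (k + 1)) = 1 := by
    rw [pow_succ, pow_mul, hx, one_pow]
  have hn : g ^ (p ^ (k + 1)) ∈ Subgroup.center ↥(HGrp B) := by
    rw [← Pr_one_iff, map_pow, hx']
  obtain ⟨α, hα⟩ := center_scalar h hdim hn
  haveI : Nontrivial V := Module.nontrivial_of_finrank_pos (R := F) (by omega)
  have hα0 : α ≠ 0 := by
    rintro rfl
    obtain ⟨y, hy⟩ := exists_ne (0 : V)
    have := hα y
    rw [zero_smul] at this
    exact gm_ne _ hy this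
  refine ⟨g ^ ((Fintype.card F - 1) * c), k + 1, ?_, ?_⟩
  · rw [map_pow, ← hdec, pow_add, pow_mul, hx', one_pow, one_mul, pow_one]
  · rw [← pow_mul, mul_comm, pow_mul, pow_mul]
    have e5 : (g ^ p ^ (k + 1)) ^ (Fintype.card F - 1) = 1 := by
      apply gm_ext
      intro y
      rw [scal_pow hα, FiniteField.pow_card_sub_one_eq_one α hα0, one_smul, gm_one]
    rw [e5, one_pow]

include hp in
/-- Uniqueness of lifts of `p`-power order. -/
lemma plift_unique (h : HForm σ B) (hdim : 2 ≤ Module.finrank F V) {q q' : ↥(HGrp B)} {m m' : ℕ} (h1 : q ^ (p ^ m) = 1) (h2 : q' ^ (p ^ m') = 1)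
    (he : Pr q = Pr q') : q = q' := by
  have hn := Pr_eq_iff.mp he
  obtain ⟨n, hndef⟩ : ∃ n, n = q⁻¹ * q' := ⟨_, rfl⟩
  rw [← hndef] at hn
  have e : q' = q * n := by
    rw [hndef]
    group
  obtain ⟨α, hα⟩ := center_scalar h hdim hn
  have hc : Commute q n := (central_smul hα).symm
  have e1 : q' ^ (p ^ (m + m')) = 1 := by
    rw [pow_add, mul_comm, pow_mul, h2, one_pow]
  have e2 : q ^ (p ^ (m + m')) = 1 := by
    rw [pow_add, pow_mul, h1, one_pow]
  rw [e, hc.mul_pow, e2, one_mul] at e1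
  have hn1 := scal_eq_one hdim hα e1
  rw [e, hn1, mul_one]

include hp in
/-- Eigenvalues of `p`-elements. -/
lemma eig_p {q : ↥(HGrp B)} {m : ℕ} (h1 : q ^ (p ^ m) = 1) {v : V} {α : F} (hv : v ≠ 0) (hq : q.1 v = α • v) : α = 1 := by
  have e : ∀ j : ℕ, (q ^ j).1 v = α ^ j • v := by
    intro j
    induction j with
    | zero => simp [gm_one]
    | succ j ih =>
      rw [pow_succ, gm_mul, hq, map_smul, ih, smul_smul, pow_succ, mul_comm]
  have e1 := e (p ^ m)
  rw [h1, gm_one] at e1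
  have e2 : (α ^ (p ^ m) - 1) • v = 0 := by
    rw [sub_smul, ← e1, one_smul, sub_self]
  have e3 : α ^ (p ^ m) = 1 := by
    rcases smul_eq_zero.mp e2 with h2 | h2
    · exact sub_eq_zero.mp h2
    · exact absurd h2 hv
  exact scalar_p_one e3

include hp in
/-- Triangular `p`-elements. -/
lemma tri_p {q : ↥(HGrp B)} {m : ℕ} (h1 : q ^ (p ^ m) = 1) {u w : V} {α c : F} (hw : ∀ β : F, β • w ∈ Submodule.span F {u} → β = 0) (hu : q.1 u = u)
    (hq : q.1 w = α • w + c • u) : α = 1 := by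
  have e : ∀ j : ℕ, ∃ d : F, (q ^ j).1 w = α ^ j • w + d • u := by
    intro j
    induction j with
    | zero => exact ⟨0, by simp [gm_one]⟩
    | succ j ih =>
      obtain ⟨d, hd⟩ := ih
      refine ⟨d + α ^ j * c, ?_⟩
      rw [pow_succ', gm_mul, hd, map_add, map_smul, map_smul, hq, hu, pow_succ]
      module
  obtain ⟨d, hd⟩ := e (p ^ m)
  rw [h1, gm_one] at hd
  have e2 : (α ^ (p ^ m) - 1) • w = (-d) • u := by
    have : (α ^ (p ^ m) - 1) • w = α ^ (p ^ m) • w - w := by rw [sub_smul, one_smul]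
    rw [this]
    nth_rewrite 2 [hd]
    module
  have e3 := hw (α ^ (p ^ m) - 1) (by
    rw [e2]
    exact Submodule.smul_mem _ _ (Submodule.mem_span_singleton_self u))
  exact scalar_p_one (sub_eq_zero.mp e3)

omit [CharP F p] hp [FiniteDimensional F V] [Finite F] in
lemma HGrp_inv_B (r : ↥(HGrp B)) (x y : V) : B ((r⁻¹).1 x) y = B x (r.1 y) := by
  rw [← gm_iso r, gm_inv_l]

/-- The unipotent radical of the stabiliser of `u`. -/
def RR (B : V →ₛₗ[σ] V →ₗ[F] F) (u : V) : Subgroup ↥(HGrp B) where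
  carrier := {r | r.1 u = u ∧ ∀ z, B z u = 0 → ∃ c : F, r.1 z = z + c • u}
  one_mem' := ⟨rfl, fun z _ => ⟨0, by simp [gm_one]⟩⟩
  mul_mem' := by
    rintro a b ⟨ha, ha'⟩ ⟨hb, hb'⟩
    refine ⟨by rw [gm_mul, hb, ha], fun z hz => ?_⟩
    obtain ⟨c, hc⟩ := hb' z hz
    obtain ⟨d, hd⟩ := ha' z hz
    exact ⟨d + c, by rw [gm_mul, hc, map_add, map_smul, ha, hd]; module⟩
  inv_mem' := by
    rintro a ⟨ha, ha'⟩
    have h1 : (a⁻¹).1 u = u := by
      conv_lhs => rw [← ha]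
      exact gm_inv_r a u
    refine ⟨h1, fun z hz => ?_⟩
    have h2 : B ((a⁻¹).1 z) u = 0 := by
      rw [HGrp_inv_B, ha, hz]
    obtain ⟨c, hc⟩ := ha' _ h2
    rw [gm_inv_l] at hc
    refine ⟨-c, ?_⟩
    nth_rewrite 2 [hc]
    module

omit hp [CharP F p] [FiniteDimensional F V] [Finite F] in
lemma mem_RR {u : V} {r : ↥(HGrp B)} : r ∈ RR B u ↔ r.1 u = u ∧ ∀ z, B z u = 0 → ∃ c : F, r.1 z = z + c • u := Iff.rfl

include hp in
/-- The radical has exponent dividing `p²`. -/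
lemma RR_pow (hf : FForm σ B) (hdim : 2 ≤ Module.finrank F V) {u : V} {r : ↥(HGrp B)} (hr : r ∈ RR B u) : r ^ (p ^ 2) = 1 := by
  obtain ⟨h1, h2⟩ := hr
  haveI : Nontrivial V := Module.nontrivial_of_finrank_pos (R := F) (by omega)
  haveI : CharP (Module.End F V) p := charP_of_injective_algebraMap (algebraMap F (Module.End F V)).injective p
  let e : Module.End F V := (r.1 : V →ₗ[F] V)
  have he : ∀ x, e x = r.1 x := fun x => rfl
  have hN : (e - 1) ^ 3 = 0 := by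
    apply LinearMap.ext
    intro x
    have e1 : ((e - 1 : Module.End F V) ^ 3 : Module.End F V) x = (e - 1) ((e - 1) ((e - 1) x)) := rfl
    rw [e1]
    have e2 : ∀ y, (e - 1) y = r.1 y - y := fun y => rfl
    rw [e2 x]
    have h3 : B (r.1 x - x) u = 0 := by
      have : B (r.1 x) u = B x u := by
        conv_lhs => rw [← h1]
        exact gm_iso r x u
      simp only [map_sub, LinearMap.sub_apply, this, sub_self]
    obtain ⟨c, hc⟩ := h2 _ h3
    have e4 : (e - 1) (r.1 x - x) = c • u := by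
      rw [e2, hc]
      abel
    rw [e4, e2, map_smul, h1, sub_self]
    rfl
  have hpow : e ^ (p ^ 2) = 1 := by
    have e1 : (e - 1) ^ (p ^ 2) = e ^ (p ^ 2) - 1 := by
      rw [sub_pow_char_pow_of_commute (p := p) (n := 2) (Commute.one_right e), one_pow]
    have e2 : (e - 1) ^ (p ^ 2) = 0 := by
      have h3 : 3 ≤ p ^ 2 := by
        have := hp.out.two_le
        nlinarith
      obtain ⟨d, hd⟩ := Nat.exists_eq_add_of_le h3
      rw [hd, pow_add, hN, zero_mul]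
    rw [e2] at e1
    exact (sub_eq_zero.mp e1.symm)
  have hact : ∀ (j : ℕ) (x : V), (r ^ j).1 x = (e ^ j) x := by
    intro j
    induction j with
    | zero => intro x; simp [gm_one]
    | succ j ih =>
      intro x
      rw [pow_succ, gm_mul, ih, pow_succ]
      rfl
  apply gm_ext
  intro x
  rw [hact, hpow, gm_one]
  rfl

end PEl

end CfsgLib.PUA
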