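/-
Automorphisms of `PSU_n(q)`: automorphisms permute the root groups.
-/
import Cfsg.Agent.Lib.PSUAut.Core

set_option autoImplicit false
set_option linter.unusedSimpArgs false
set_option linter.unusedVariables false
set_option linter.unusedSectionVars false
set_option maxHeartbeats 1000000

namespace CfsgLib.PUA

open Module CfsgLib.ClassGeo

variable {F V : Type*} [Field F] [AddCommGroup V] [Module F V] {σ : F →+* F} {B : V →ₛₗ[σ] V →ₗ[F] F}

/-- A hyperbolic pair. -/
structure HP (B : V →ₛₗ[σ] V →ₗ[F] F) (u f : V) : Prop where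
  uu : B u u = 0
  ff : B f f = 0
  uf : B u f = 1

lemma HP.fu (hf : FForm σ B) {u f : V} (H : HP B u f) : B f u = 1 := by
  rw [← hf.symm, H.uf, map_one]

lemma HP.u_ne {u f : V} (H : HP B u f) : u ≠ 0 := by
  rintro rfl
  have := H.uf
  simp at this

lemma HP.f_ne {u f : V} (H : HP B u f) : f ≠ 0 := by
  rintro rfl
  have := H.uf
  simp at this

/-- The part in the orthogonal complement. -/
def wp (B : V →ₛₗ[σ] V →ₗ[F] F) (u f x : V) : V := x - B f x • u - B u x • f

lemma wp_u (hf : FForm σ B) {u f : V} (H : HP B u f) (x : V) : B (wp B u f x) u = 0 := by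
  simp only [wp, map_sub, LinearMap.sub_apply, LinearMap.map_smulₛₗ₂, smul_eq_mul, H.uu, H.fu hf, mul_zero, mul_one, sub_zero]
  rw [hf.symm]
  exact sub_self _

lemma wp_f (hf : FForm σ B) {u f : V} (H : HP B u f) (x : V) : B (wp B u f x) f = 0 := by
  simp only [wp, map_sub, LinearMap.sub_apply, LinearMap.map_smulₛₗ₂, smul_eq_mul, H.ff, H.uf, mul_zero, mul_one, sub_zero]
  rw [hf.symm]
  exact sub_self _

lemma wp_dec {u f : V} (x : V) : x = wp B u f x + B f x • u + B u x • f := by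
  simp only [wp]
  abel

lemma B_wp {u f y : V} (hyu : B y u = 0) (hyf : B y f = 0) (x : V) : B y (wp B u f x) = B y x := by
  simp only [wp, map_sub, map_smul, smul_eq_mul, hyu, hyf, mul_zero, sub_zero]

lemma eq_zero_of_W (hf : FForm σ B) {u f y : V} (H : HP B u f) (hyu : B y u = 0) (hyf : B y f = 0)
    (hW : ∀ w, B w u = 0 → B w f = 0 → B y w = 0) : y = 0 := by
  apply hf.sep
  intro x
  rw [← B_wp hyu hyf x]
  exact hW _ (wp_u hf H x) (wp_f hf H x)

section

variable [FiniteDimensional F V] [Finite F]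

lemma exists_one (h : HForm σ B) {v : V} (hv0 : v ≠ 0) : ∃ y, B v y = 1 := by
  by_contra hno
  push Not at hno
  have : ∀ x, B v x = 0 := by
    intro x
    by_contra hx
    apply hno ((B v x)⁻¹ • x)
    rw [map_smul, smul_eq_mul, inv_mul_cancel₀ hx]
  exact hv0 (h.sep v this)

lemma exists_partner (h : HForm σ B) {v : V} (hv0 : v ≠ 0) (hvv : B v v = 0) : ∃ f, HP B v f := by
  have hf := h.toF
  obtain ⟨y, hy⟩ := exists_one h hv0
  have hyv : B y v = 1 := by rw [← hf.symm, hy, map_one]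
  obtain ⟨c, hc⟩ := hf.trace_surj (-B y y) (by rw [map_neg, hf.self_fixed])
  refine ⟨y + c • v, hvv, ?_, ?_⟩
  · simp only [map_add, LinearMap.add_apply, LinearMap.map_smulₛₗ₂, map_smul, smul_eq_mul, hvv, hyv, hy, mul_zero, add_zero, mul_one]
    linear_combination hc
  · simp only [map_add, map_smul, smul_eq_mul, hvv, hy, mul_zero, add_zero]

lemma exists_W (h : HForm σ B) (hdim : 3 ≤ finrank F V) {u f : V} (H : HP B u f) : ∃ w, w ≠ 0 ∧ B w u = 0 ∧ B w f = 0 := by
  classical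
  have hf := h.toF
  by_contra hno
  push Not at hno
  have hall : ∀ x, x ∈ Submodule.span F (({u, f} : Finset V) : Set V) := by
    intro x
    have h0 : wp B u f x = 0 := by
      by_contra hne
      exact hne (by
        by_contra h1
        exact absurd (wp_f hf H x) (hno _ h1 (wp_u hf H x)))
    rw [wp_dec (B := B) (u := u) (f := f) x, h0, zero_add]
    refine Submodule.add_mem _ (Submodule.smul_mem _ _ (Submodule.subset_span ?_)) (Submodule.smul_mem _ _ (Submodule.subset_span ?_)) <;> simp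
  have e : Submodule.span F (({u, f} : Finset V) : Set V) = ⊤ := by
    rw [eq_top_iff]
    exact fun x _ => hall x
  have h1 := finrank_span_finset_le_card (R := F) ({u, f} : Finset V)
  rw [Set.finrank, e, finrank_top] at h1
  have h2 : ({u, f} : Finset V).card ≤ 2 := Finset.card_le_two
  omega

lemma IsT.trace (hf : FForm σ B) {v : V} (hvv : B v v = 0) {a : F} {p : V ≃ₗ[F] V} (hp : IsT B v a p)
    (hi : ∀ x y, B (p x) (p y) = B x y) {y : V} (hy : B v y = 1) : a + σ a = 0 := by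
  have hyv : B y v = 1 := by rw [← hf.symm, hy, map_one]
  have e := hi y y
  rw [hp] at e
  simp only [hy, mul_one, map_add, LinearMap.add_apply, LinearMap.map_smulₛₗ₂, map_smul, smul_eq_mul, hyv, hvv, mul_zero, add_zero] at e
  linear_combination e

lemma T_mem_RR (hf : FForm σ B) {v : V} (hvv : B v v = 0) {a : F} {p : ↥(HGrp B)} (hp : IsT B v a p.1) : p ∈ RR B v := by
  refine ⟨by rw [hp, hvv]; simp, fun z hz => ⟨0, ?_⟩⟩
  rw [hp, hf.zero_symm hz]
  simp

lemma E_mem_RR (hf : FForm σ B) {u z : V} {k : F} (huu : B u u = 0) (hzu : B z u = 0) {p : ↥(HGrp B)} (hp : IsE B u z k p.1) : p ∈ RR B u := by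
  refine ⟨by rw [hp, hzu, huu]; simp, fun y hy => ⟨B z y, ?_⟩⟩
  rw [hp, hf.zero_symm hy]
  simp

/-- Normal form of elements of the radical. -/
lemma E_normal (hf : FForm σ B) {u f : V} (H : HP B u f) (r : V →ₗ[F] V) (hr : ∀ x y, B (r x) (r y) = B x y) (hru : r u = u)
    (hz : ∀ z, B z u = 0 → ∃ c : F, r z = z + c • u) :
    ∃ (z : V) (k : F), B z u = 0 ∧ B z f = 0 ∧ k + σ k + B z z = 0 ∧ ∀ x, r x = x + B z x • u - B u x • z + (k * B u x) • u := by
  have hfu := H.fu hf
  obtain ⟨k, hk⟩ : ∃ k, k = B f (r f) := ⟨_, rfl⟩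
  obtain ⟨z, hzd⟩ : ∃ z, z = f + k • u - r f := ⟨_, rfl⟩
  have hrfu : B (r f) u = 1 := by
    have := hr f u
    rw [hru, hfu] at this
    exact this
  have hrff : B (r f) f = σ k := by
    rw [hk, hf.symm]
  have hzu : B z u = 0 := by
    rw [hzd]
    simp only [map_sub, map_add, LinearMap.sub_apply, LinearMap.add_apply, LinearMap.map_smulₛₗ₂, smul_eq_mul, hfu, H.uu, hrfu, mul_zero, add_zero, sub_self]
  have hzf : B z f = 0 := by
    rw [hzd]
    simp only [map_sub, map_add, LinearMap.sub_apply, LinearMap.add_apply, LinearMap.map_smulₛₗ₂, smul_eq_mul, H.ff, H.uf, hrff, mul_one, zero_add, sub_self]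
  have huz : B u z = 0 := hf.zero_symm hzu
  have hfz : B f z = 0 := hf.zero_symm hzf
  have hrf : r f = f - z + k • u := by
    rw [hzd]
    abel
  have hvalid : k + σ k + B z z = 0 := by
    have := hr f f
    rw [hrf, H.ff] at this
    simp only [map_sub, map_add, map_smul, LinearMap.sub_apply, LinearMap.add_apply, LinearMap.map_smulₛₗ₂, smul_eq_mul, H.ff, H.uf, H.uu, hfu, hfz, hzf, huz, hzu, mul_zero, mul_one, sub_zero, add_zero, zero_add, zero_sub, sub_neg_eq_add] at this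
    linear_combination this
  refine ⟨z, k, hzu, hzf, hvalid, fun x => ?_⟩
  obtain ⟨x₀, hx₀⟩ : ∃ x₀, x₀ = x - B u x • f := ⟨_, rfl⟩
  have hx₀u : B u x₀ = 0 := by
    rw [hx₀]
    simp only [map_sub, map_smul, smul_eq_mul, H.uf, mul_one, sub_self]
  have hx₀u' : B x₀ u = 0 := hf.zero_symm hx₀u
  obtain ⟨c, hc⟩ := hz x₀ hx₀u'
  have hsc : σ c = B x₀ z := by
    have := hr x₀ f
    rw [hc, hrf] at this
    simp only [map_sub, map_add, map_smul, LinearMap.add_apply, LinearMap.map_smulₛₗ₂, smul_eq_mul, H.uf, H.uu, huz, hx₀u', mul_zero, mul_one, sub_zero, add_zero] at this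
    linear_combination this
  have hc2 : c = B z x₀ := by
    rw [← hf.symm x₀ z, ← hsc, hf.σσ]
  have e1 : B z x₀ = B z x := by
    rw [hx₀]
    simp only [map_sub, map_smul, smul_eq_mul, hzf, mul_zero, sub_zero]
  have e2 : x = x₀ + B u x • f := by
    rw [hx₀]
    abel
  have e3 : r x = r x₀ + B u x • r f := by
    conv_lhs => rw [e2]
    rw [map_add, map_smul]
  rw [e3, hc, hc2, e1, hrf, hx₀]
  simp only [smul_sub, smul_add, smul_smul]
  rw [mul_comm k]
  abel

/-- Elements commuting with the radical are, up to scalars, transvections along `v`. -/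
theorem central_form {p : ℕ} [hp : Fact p.Prime] [CharP F p] (h : HForm σ B) {v : V} (hv0 : v ≠ 0) (hvv : B v v = 0)
    (z : ↥(HGrp B)) (hz : ∀ r ∈ RR B v, Commute z r) :
    ∃ (c : F) (p₁ : ↥(HGrp B)), IsT B v c p₁.1 ∧ Pr z = Pr p₁ := by
  have hf := h.toF
  obtain ⟨f, H⟩ := exists_partner h hv0 hvv
  have hfu := H.fu hf
  obtain ⟨a, ha0, ha⟩ := h.exists_anti
  obtain ⟨t, ht⟩ := exists_T hf hvv ha
  have hcomm1 : z * t * z⁻¹ = t := by
    rw [(hz t (T_mem_RR hf hvv ht)).eq, mul_inv_cancel_right]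
  have h1 := conj_T z t ht
  rw [hcomm1] at h1
  obtain ⟨h2, -⟩ := T_eq_imp hv0 ha0 hf ht h1
  obtain ⟨α, hα⟩ := Submodule.mem_span_singleton.mp h2
  have hα' : z.1 v = α • v := hα.symm
  have hα0 : α ≠ 0 := by
    rintro rfl
    rw [zero_smul] at hα'
    exact gm_ne z hv0 hα'
  have hN : σ α * α = 1 := by
    have e1 := ht f
    have e2 := h1 f
    rw [hα'] at e2
    have e3 : (a - a * (σ α * α)) • v = 0 := by
      have := e1.symm.trans e2
      simp only [LinearMap.map_smulₛₗ₂, H.uf, smul_eq_mul, mul_one, add_right_inj, smul_smul] at this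
      rw [sub_smul, this, mul_assoc, sub_self]
    have e4 := (smul_eq_zero.mp e3).resolve_right hv0
    apply mul_left_cancel₀ ha0
    rw [mul_one]
    exact (sub_eq_zero.mp e4).symm
  have hN' : α * σ α = 1 := by rw [mul_comm, hN]
  have hy : ∀ y, B y v = 0 → ∃ c : F, z.1 y = α • y + c • v := by
    intro y hyv
    obtain ⟨k, q, hk, hq⟩ := exists_E' hf hvv hyv
    have hc : z * q * z⁻¹ = q := by
      rw [(hz q (E_mem_RR hf hvv hyv hq)).eq, mul_inv_cancel_right]
    have h3 := conj_E z q hq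
    rw [hc, hα'] at h3
    have e1 := hq f
    have e2 := h3 f
    have E := e1.symm.trans e2
    simp only [LinearMap.map_smulₛₗ₂, H.uf, smul_eq_mul, mul_one] at E
    have e5 : σ α • z.1 y = y + (B (z.1 y) f * α + k * σ α * α - B y f - k) • v := by
      linear_combination (norm := module) E
    refine ⟨α * (B (z.1 y) f * α + k * σ α * α - B y f - k), ?_⟩
    have e6 : z.1 y = α • (σ α • z.1 y) := by
      rw [smul_smul, hN', one_smul]
    have e7 : z.1 y = α • (y + (B (z.1 y) f * α + k * σ α * α - B y f - k) • v) := by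
      rw [← e5]
      exact e6
    refine e7.trans ?_
    module
  let P : V →ₗ[F] V := α⁻¹ • ((z.1 : V ≃ₗ[F] V) : V →ₗ[F] V)
  have hP : ∀ x, P x = α⁻¹ • z.1 x := fun x => rfl
  have hPv : P v = v := by
    rw [hP, hα', smul_smul, inv_mul_cancel₀ hα0, one_smul]
  have hPi : ∀ x y, B (P x) (P y) = B x y := by
    intro x y
    rw [hP, hP]
    simp only [map_smul, LinearMap.map_smulₛₗ₂, smul_eq_mul, gm_iso, map_inv₀]
    have : α⁻¹ * ((σ α)⁻¹ * B x y) = (σ α * α)⁻¹ * B x y := by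
      rw [mul_inv]
      ring
    rw [this, hN, inv_one, one_mul]
  have hPy : ∀ y, B y v = 0 → ∃ c : F, P y = y + c • v := by
    intro y hyv
    obtain ⟨c, hc⟩ := hy y hyv
    refine ⟨α⁻¹ * c, ?_⟩
    rw [hP, hc, smul_add, smul_smul, inv_mul_cancel₀ hα0, one_smul, smul_smul]
  obtain ⟨z', k, hz'u, hz'f, hval, hform⟩ := E_normal hf H P hPi hPv hPy
  have huz' : B v z' = 0 := hf.zero_symm hz'u
  have hfz' : B f z' = 0 := hf.zero_symm hz'f
  have hclaim : ∀ y, B y v = 0 → B y f = 0 → B z' y = B y z' := by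
    intro y hyv hyf
    have hvy : B v y = 0 := hf.zero_symm hyv
    obtain ⟨k', q, hk', hq⟩ := exists_E' hf hvv hyv
    have hq1 : ∀ x, q.1 x = x + B y x • v - B v x • y + (k' * B v x) • v := hq
    have hc : ∀ x, P (q.1 x) = q.1 (P x) := by
      intro x
      rw [hP, hP, map_smul]
      have := (hz q (E_mem_RR hf hvv hyv hq)).eq
      have e := congrArg (fun g : ↥(HGrp B) => g.1 x) this
      simp only [gm_mul] at e
      rw [e]
    have e := hc f
    have e1 : q.1 f = f - y + k' • v := by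
      rw [hq1, hyf, H.uf]
      module
    have e2 : P f = f - z' + k • v := by
      rw [hform, hz'f, H.uf]
      module
    have e3 : P y = y + B z' y • v := by
      rw [hform, hvy]
      module
    have e4 : q.1 z' = z' + B y z' • v := by
      rw [hq1, huz']
      module
    have e5 : q.1 v = v := by
      rw [hq1, hyv, hvv]
      module
    rw [e1, e2, map_add, map_sub, map_add, map_sub, map_smul, map_smul, e1, e2, e3, e4, e5, hPv] at e
    have e6 : (B z' y - B y z') • v = 0 := by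
      linear_combination (norm := module) -e
    exact sub_eq_zero.mp ((smul_eq_zero.mp e6).resolve_right hv0)
  have hz0 : z' = 0 := by
    apply eq_zero_of_W hf H hz'u hz'f
    intro w hwu hwf
    obtain ⟨e, he⟩ := h.exists_moved
    have h1' := hclaim w hwu hwf
    have h2' := hclaim (e • w) (by simp [hwu]) (by simp [hwf])
    rw [← hf.symm z' w] at h1'
    rw [← hf.symm z' (e • w), map_smul, smul_eq_mul, map_mul, ← h1'] at h2'
    have h3' : (e - σ e) * B z' w = 0 := by
      linear_combination h2'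
    have h4' : e - σ e ≠ 0 := sub_ne_zero.mpr (Ne.symm he)
    exact (mul_eq_zero.mp h3').resolve_left h4'
  have hk0 : k + σ k = 0 := by
    rw [hz0] at hval
    simpa using hval
  obtain ⟨t₁, ht₁⟩ := exists_T hf hvv hk0
  refine ⟨k, t₁, ht₁, ?_⟩
  rw [Pr_eq_iff]
  apply mem_center_of_scalar (α := α⁻¹)
  intro x
  rw [gm_mul, ht₁]
  have e : x + (k * B v x) • v = P x := by
    rw [hform, hz0]
    simp
  rw [e, hP, map_smul, gm_inv_r]

/-- The fixed vectors of the radical. -/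
lemma RR_fixed (h : HForm σ B) (hdim : 3 ≤ finrank F V) {v f : V} (H : HP B v f) (v₀ : V) (hfix : ∀ r ∈ RR B v, r.1 v₀ = v₀) :
    ∃ c : F, v₀ = c • v := by
  have hf := h.toF
  have hfu := H.fu hf
  have hvv := H.uu
  have hform : ∀ y, B y v = 0 → ∃ k : F, B y v₀ • v - B v v₀ • y + (k * B v v₀) • v = 0 := by
    intro y hyv
    obtain ⟨k, q, hk, hq⟩ := exists_E' hf hvv hyv
    have e := hfix q (E_mem_RR hf hvv hyv hq)
    rw [hq] at e
    refine ⟨k, ?_⟩
    linear_combination (norm := module) e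
  have h1 : B v v₀ = 0 := by
    obtain ⟨w, hw0, hwu, hwf⟩ := exists_W h hdim H
    obtain ⟨k, hk⟩ := hform w hwu
    have e0 : B v v₀ • w = (B w v₀ + k * B v v₀) • v := by
      linear_combination (norm := module) -hk
    have e1 := congrArg (fun x => B x f) e0
    simp only [LinearMap.map_smulₛₗ₂, smul_eq_mul, hwf, H.uf, mul_zero, mul_one] at e1
    have e2 : B w v₀ + k * B v v₀ = 0 := by
      by_contra hne
      exact (map_ne_zero σ).mpr hne e1.symm
    rw [e2, zero_smul] at e0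
    exact (smul_eq_zero.mp e0).resolve_right hw0
  have h2 : ∀ y, B y v = 0 → B y v₀ = 0 := by
    intro y hyv
    obtain ⟨k, hk⟩ := hform y hyv
    rw [h1] at hk
    simp only [mul_zero, zero_smul, sub_zero, add_zero] at hk
    exact (smul_eq_zero.mp hk).resolve_right H.u_ne
  refine ⟨B f v₀, ?_⟩
  have hd : v₀ - B f v₀ • v = 0 := by
    have e1 : B v (v₀ - B f v₀ • v) = 0 := by
      simp only [map_sub, map_smul, smul_eq_mul, h1, hvv, mul_zero, sub_zero]
    have e2 : B f (v₀ - B f v₀ • v) = 0 := by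
      simp only [map_sub, map_smul, smul_eq_mul, hfu, mul_one, sub_self]
    apply eq_zero_of_W hf H (hf.zero_symm e1) (hf.zero_symm e2)
    intro w hwu hwf
    apply hf.zero_symm
    simp only [map_sub, map_smul, smul_eq_mul, hwu, h2 w hwu, mul_zero, sub_zero]
  exact sub_eq_zero.mp hd

lemma finite_HGrp : Finite ↥(HGrp B) := by
  haveI : Finite V := Module.finite_of_finite F
  haveI : Finite (V ≃ₗ[F] V) := Finite.of_injective (fun e => (e : V → V)) DFunLike.coe_injective
  exact inferInstance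

/-- The Sylow step: the image of a root group centralises a conjugate of the radical. -/
theorem exists_conj_central {p : ℕ} [hp : Fact p.Prime] [CharP F p] (h : HForm σ B) (hdim : 3 ≤ finrank F V)
    (ψ : PG B ≃* PG B) {v f : V} (H : HP B v f) :
    ∃ h₀ : ↥(HGrp B), ∀ (a : F) (t : ↥(HGrp B)), IsT B v a t.1 → ∀ r ∈ RR B v, Commute ((Pr h₀)⁻¹ * ψ (Pr t) * Pr h₀) (Pr r) := by
  classical
  have hf := h.toF
  haveI : Finite V := Module.finite_of_finite F
  haveI : Finite ↥(HGrp B) := finite_HGrp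
  have hRp : IsPGroup p ↥(RR B v) := fun r => ⟨2, Subtype.ext (RR_pow hf (by omega) r.2)⟩
  obtain ⟨Q, hQ⟩ := hRp.exists_le_sylow
  have hpdvd : p ∣ Nat.card V := by
    haveI := Fintype.ofFinite F
    obtain ⟨n, hp', hn⟩ := FiniteField.card F p
    rw [Module.natCard_eq_pow_finrank (K := F), Nat.card_eq_fintype_card, hn]
    exact dvd_pow (dvd_pow_self p n.ne_zero) (by omega)
  have hfix0 : (0 : V) ∈ MulAction.fixedPoints Q V := by
    intro q
    exact smul_zero q
  obtain ⟨v₀, hv₀, hne⟩ := (Q.isPGroup').exists_fixed_point_of_prime_dvd_card_of_fixed_point V hpdvd hfix0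
  have hv₀' : ∀ q ∈ (Q : Subgroup ↥(HGrp B)), q.1 v₀ = v₀ := fun q hq => hv₀ ⟨q, hq⟩
  have hv₀0 : v₀ ≠ 0 := fun e => hne e.symm
  obtain ⟨c, hc⟩ := RR_fixed h hdim H v₀ (fun r hr => hv₀' r (hQ hr))
  have hc0 : c ≠ 0 := by
    rintro rfl
    rw [zero_smul] at hc
    exact hv₀0 hc
  have hQv : ∀ q ∈ (Q : Subgroup ↥(HGrp B)), q.1 v = v := by
    intro q hq
    have e := hv₀' q hq
    rw [hc, map_smul] at e
    exact smul_right_injective V hc0 e
  let S : Sylow p (PG B) := Q.mapSurjective Pr_surj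
  have hcomm0 : ∀ (a : F) (t : ↥(HGrp B)), IsT B v a t.1 → ∀ w ∈ (S : Subgroup (PG B)), Commute (Pr t) w := by
    intro a t ht w hw
    have hw' : w ∈ (Q : Subgroup ↥(HGrp B)).map Pr := by
      rwa [Sylow.coe_mapSurjective] at hw
    obtain ⟨q, hq, rfl⟩ := hw'
    have h3 := conj_T q t ht
    rw [hQv q hq] at h3
    have h4 := IsT.unique h3 ht
    rw [mul_inv_eq_iff_eq_mul] at h4
    rw [Commute, SemiconjBy, ← map_mul, ← map_mul, ← h4]
  obtain ⟨X, hX⟩ := MulAction.exists_smul_eq (PG B) S ((ψ : MulAut (PG B)) • S)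
  obtain ⟨h₀, rfl⟩ := Pr_surj X
  refine ⟨h₀, fun a t ht r hr => ?_⟩
  have hu1 : Pr r ∈ (S : Subgroup (PG B)) := by
    rw [Sylow.coe_mapSurjective]
    exact ⟨r, hQ hr, rfl⟩
  have hu2 : Pr h₀ * Pr r * (Pr h₀)⁻¹ ∈ (((ψ : MulAut (PG B)) • S : Sylow p (PG B)) : Subgroup (PG B)) := by
    rw [← hX, Sylow.smul_def, Sylow.pointwise_smul_def]
    exact Subgroup.smul_mem_pointwise_smul _ (MulAut.conj (Pr h₀)) _ hu1
  rw [Sylow.pointwise_smul_def, Subgroup.mem_pointwise_smul_iff_inv_smul_mem] at hu2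
  have h5 := hcomm0 a t ht _ hu2
  have h6 : Commute (ψ (Pr t)) (ψ ((ψ : MulAut (PG B))⁻¹ • (Pr h₀ * Pr r * (Pr h₀)⁻¹))) := h5.map ψ
  have h7 : ψ ((ψ : MulAut (PG B))⁻¹ • (Pr h₀ * Pr r * (Pr h₀)⁻¹)) = Pr h₀ * Pr r * (Pr h₀)⁻¹ := by
    rw [MulAut.smul_def, MulAut.inv_apply, MulEquiv.apply_symm_apply]
  rw [h7] at h6
  have h8 := h6.eq
  rw [Commute, SemiconjBy]
  calc (Pr h₀)⁻¹ * ψ (Pr t) * Pr h₀ * Pr r
      = (Pr h₀)⁻¹ * (ψ (Pr t) * (Pr h₀ * Pr r * (Pr h₀)⁻¹)) * Pr h₀ := by group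
    _ = (Pr h₀)⁻¹ * ((Pr h₀ * Pr r * (Pr h₀)⁻¹) * ψ (Pr t)) * Pr h₀ := by rw [h8]
    _ = Pr r * ((Pr h₀)⁻¹ * ψ (Pr t) * Pr h₀) := by group

/-- Automorphisms permute the root groups. -/
theorem keyU {p : ℕ} [hp : Fact p.Prime] [CharP F p] (h : HForm σ B) (hdim : 3 ≤ finrank F V)
    (ψ : PG B ≃* PG B) {v : V} (hv0 : v ≠ 0) (hvv : B v v = 0) :
    ∃ v', v' ≠ 0 ∧ B v' v' = 0 ∧ ∀ (a : F) (t : ↥(HGrp B)), IsT B v a t.1 →
      ∃ (a' : F) (t' : ↥(HGrp B)), IsT B v' a' t'.1 ∧ ψ (Pr t) = Pr t' := by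
  have hf := h.toF
  obtain ⟨f, H⟩ := exists_partner h hv0 hvv
  obtain ⟨h₀, hh⟩ := exists_conj_central (p := p) h hdim ψ H
  refine ⟨h₀.1 v, gm_ne h₀ hv0, by rw [gm_iso, hvv], fun a t ht => ?_⟩
  obtain ⟨z, hz⟩ := Pr_surj ((Pr h₀)⁻¹ * ψ (Pr t) * Pr h₀)
  have hzc : ∀ r ∈ RR B v, Commute z r := by
    intro r hr
    apply comm_lift (p := p) h (by omega) (k := 2) (RR_pow hf (by omega) hr)
    rw [hz]
    exact hh a t ht r hr
  obtain ⟨c, p₁, hp₁, hzp⟩ := central_form (p := p) h hv0 hvv z hzc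
  refine ⟨c, h₀ * p₁ * h₀⁻¹, conj_T h₀ p₁ hp₁, ?_⟩
  rw [map_mul, map_mul, map_inv, ← hzp, hz]
  group

end

end CfsgLib.PUA
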