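/-
Automorphisms of `PSU_n(q)`: root maps, normalisation and the radical.
-/
import Cfsg.Agent.Lib.PSUAut.Key

set_option autoImplicit false
set_option linter.unusedSimpArgs false
set_option linter.unusedVariables false
set_option linter.unusedSectionVars false
set_option maxHeartbeats 1000000

namespace CfsgLib.PUA

open Module CfsgLib.ClassGeo

variable {F V : Type*} [Field F] [AddCommGroup V] [Module F V] {σ : F →+* F} {B : V →ₛₗ[σ] V →ₗ[F] F}

/-- The root map relation. -/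
def RM (ψ : PG B ≃* PG B) (v v' : V) : Prop :=
  ∀ (a : F) (t : ↥(HGrp B)), IsT B v a t.1 → ∃ (a' : F) (t' : ↥(HGrp B)), IsT B v' a' t'.1 ∧ ψ (Pr t) = Pr t'

lemma IsT_smul {v : V} {a : F} {p : V ≃ₗ[F] V} {c : F} (hc : c ≠ 0) (hσ : σ c ≠ 0) (h : IsT B v a p) :
    IsT B (c • v) (a / (σ c * c)) p := by
  intro x
  rw [h]
  simp only [LinearMap.map_smulₛₗ₂, smul_eq_mul, smul_smul]
  congr 2
  field_simp

lemma RM.smul {ψ : PG B ≃* PG B} {v v' : V} (h : RM ψ v v') {c : F} (hc : c ≠ 0) : RM ψ v (c • v') := by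
  intro a t ht
  obtain ⟨a', t', h1, h2⟩ := h a t ht
  exact ⟨_, t', IsT_smul hc ((map_ne_zero σ).mpr hc) h1, h2⟩

lemma RM.conj {ψ : PG B ≃* PG B} {v v' : V} (h : RM ψ v v') (r q : ↥(HGrp B)) (hq : ψ (Pr r) = Pr q) : RM ψ (r.1 v) (q.1 v') := by
  intro a t ht
  have e1 : IsT B v a ((r⁻¹ * t * r⁻¹⁻¹ : ↥(HGrp B)) : V ≃ₗ[F] V) := by
    have := conj_T r⁻¹ t ht
    rwa [gm_inv_r] at this
  obtain ⟨y, hy⟩ : ∃ y, y = r⁻¹ * t * r⁻¹⁻¹ := ⟨_, rfl⟩
  rw [← hy] at e1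
  obtain ⟨a', t', h1, h2⟩ := h a _ e1
  refine ⟨a', q * t' * q⁻¹, conj_T q t' h1, ?_⟩
  have e2 : t = r * y * r⁻¹ := by rw [hy]; group
  have e3 : Pr t = Pr r * Pr y * (Pr r)⁻¹ := by
    rw [e2]
    simp only [map_mul, map_inv]
  rw [e3, map_mul, map_mul, map_inv, hq, h2]
  simp only [map_mul, map_inv]

/-- Composition with inner automorphisms. -/
noncomputable def cj (g : ↥(HGrp B)) : PG B ≃* PG B := MulAut.conj (Pr g)

lemma cj_apply (g : ↥(HGrp B)) (x : PG B) : cj g x = Pr g * x * (Pr g)⁻¹ := rfl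

lemma RM.trans {ψ : PG B ≃* PG B} {v v' : V} (h : RM ψ v v') (g : ↥(HGrp B)) : RM (ψ.trans (cj g)) v (g.1 v') := by
  intro a t ht
  obtain ⟨a', t', h1, h2⟩ := h a t ht
  refine ⟨a', g * t' * g⁻¹, conj_T g t' h1, ?_⟩
  change cj g (ψ (Pr t)) = _
  rw [h2, cj_apply, map_mul, map_mul, map_inv]

section

variable [FiniteDimensional F V] [Finite F] {p : ℕ} [hp : Fact p.Prime] [CharP F p]

include hp in
lemma T_pow (hf : FForm σ B) (hdim : 2 ≤ finrank F V) {v : V} (hvv : B v v = 0) {a : F} {t : ↥(HGrp B)} (ht : IsT B v a t.1) : t ^ (p ^ 2) = 1 :=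
  RR_pow hf hdim (T_mem_RR hf hvv ht)

include hp in
lemma E_pow (hf : FForm σ B) (hdim : 2 ≤ finrank F V) {u z : V} {k : F} (huu : B u u = 0) (hzu : B z u = 0) {t : ↥(HGrp B)} (ht : IsE B u z k t.1) : t ^ (p ^ 2) = 1 :=
  RR_pow hf hdim (E_mem_RR hf huu hzu ht)

lemma T_eq_imp' (h : HForm σ B) {v w : V} {a b : F} (hv : v ≠ 0) (ha : a ≠ 0) {t : V ≃ₗ[F] V} (h1 : IsT B v a t) (h2 : IsT B w b t) :
    ∃ c : F, c ≠ 0 ∧ v = c • w := by
  obtain ⟨x, hx⟩ := exists_one h hv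
  have e := (h1 x).symm.trans (h2 x)
  rw [add_right_inj, hx, mul_one] at e
  have e2 : v = (a⁻¹ * (b * B w x)) • w := by
    rw [← smul_smul, ← e, smul_smul, inv_mul_cancel₀ ha, one_smul]
  refine ⟨_, ?_, e2⟩
  intro h0
  rw [h0, zero_smul] at e2
  exact hv e2

lemma T_ne_one (h : HForm σ B) {v : V} {a : F} (hv : v ≠ 0) (ha : a ≠ 0) {t : ↥(HGrp B)} (ht : IsT B v a t.1) : t ≠ 1 := by
  rintro rfl
  obtain ⟨x, hx⟩ := exists_one h hv
  have e := ht x
  rw [gm_one, hx, mul_one] at e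
  have e2 : a • v = 0 := by
    have : x + a • v = x + 0 := by rw [← e, add_zero]
    exact add_left_cancel this
  exact (smul_eq_zero.mp e2).elim ha hv

include hp in
lemma Pr_T_ne_one (h : HForm σ B) (hdim : 2 ≤ finrank F V) {v : V} {a : F} (hv : v ≠ 0) (hvv : B v v = 0) (ha : a ≠ 0) {t : ↥(HGrp B)} (ht : IsT B v a t.1) : Pr t ≠ 1 := by
  intro e
  have hn := Pr_one_iff.mp e
  obtain ⟨α, hα⟩ := center_scalar h hdim hn
  exact T_ne_one h hv ha ht (scal_eq_one (p := p) hdim hα (T_pow h.toF hdim hvv ht))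

lemma T_zero_one {v : V} {t : ↥(HGrp B)} (ht : IsT B v 0 t.1) : t = 1 :=
  gm_ext fun x => by rw [ht, gm_one]; simp

include hp in
lemma RM_ne (h : HForm σ B) (hdim : 2 ≤ finrank F V) {ψ : PG B ≃* PG B} {v : V} {a a' : F} {t t' : ↥(HGrp B)} (hv : v ≠ 0) (hvv : B v v = 0) (ha : a ≠ 0)
    (ht : IsT B v a t.1) (v' : V) (ht' : IsT B v' a' t'.1) (he : ψ (Pr t) = Pr t') : a' ≠ 0 := by
  rintro rfl
  have h1 := T_zero_one ht'
  rw [h1, map_one] at he
  exact Pr_T_ne_one (p := p) h hdim hv hvv ha ht ((map_eq_one_iff ψ ψ.injective).mp he)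

omit hp [CharP F p] in
lemma T_comm_of_perp (hf : FForm σ B) {v w : V} {a b : F} {t s : ↥(HGrp B)} (ht : IsT B v a t.1) (hs : IsT B w b s.1) (hvw : B v w = 0) : Commute t s := by
  have hwv : B w v = 0 := hf.zero_symm hvw
  apply gm_ext
  intro x
  rw [gm_mul, gm_mul, hs, ht, hs, ht]
  simp only [map_add, map_smul, smul_eq_mul, hvw, hwv, mul_zero, zero_smul, add_zero]
  abel

include hp in
lemma T_perp_of_comm (h : HForm σ B) (hdim : 2 ≤ finrank F V) {v w : V} {a b : F} {t s : ↥(HGrp B)} (hv : v ≠ 0) (hw : w ≠ 0) (hvv : B v v = 0) (hww : B w w = 0)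
    (ha : a ≠ 0) (hb : b ≠ 0) (ht : IsT B v a t.1) (hs : IsT B w b s.1) (hc : Commute (Pr t) (Pr s)) : B v w = 0 := by
  have hf := h.toF
  have h1 : Commute t s := comm_lift (p := p) h hdim (k := 2) (T_pow hf hdim hww hs) hc
  have h2 := conj_T t s hs
  rw [h1.eq, mul_inv_cancel_right] at h2
  obtain ⟨d, hd, e⟩ := T_eq_imp' h (by simpa using hw : t.1 w ≠ 0) hb h2 hs
  rw [ht] at e
  by_contra hne
  have e2 : (a * B v w) • v = (d - 1) • w := by
    rw [sub_smul, one_smul, ← e]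
    abel
  have e3 := congrArg (fun x => B x w) e2
  simp only [LinearMap.map_smulₛₗ₂, hww, smul_eq_mul, mul_zero] at e3
  have e4 : σ (a * B v w) ≠ 0 := (map_ne_zero σ).mpr (mul_ne_zero ha hne)
  exact (mul_eq_zero.mp e3).elim (fun h5 => e4 h5) hne

include hp in
/-- Perpendicularity is preserved by root maps. -/
lemma RM_perp (h : HForm σ B) (hdim : 2 ≤ finrank F V) {ψ : PG B ≃* PG B} {v v' w w' : V} (h1 : RM ψ v v') (h2 : RM ψ w w')
    (hv : v ≠ 0) (hvv : B v v = 0) (hw : w ≠ 0) (hww : B w w = 0) (hv' : v' ≠ 0) (hvv' : B v' v' = 0) (hw' : w' ≠ 0) (hww' : B w' w' = 0) :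
    B v w = 0 ↔ B v' w' = 0 := by
  have hf := h.toF
  obtain ⟨a, ha0, ha⟩ := h.exists_anti
  obtain ⟨t, ht⟩ := exists_T hf hvv ha
  obtain ⟨s, hs⟩ := exists_T hf hww ha
  obtain ⟨a', t', ht', e1⟩ := h1 a t ht
  obtain ⟨b', s', hs', e2⟩ := h2 a s hs
  have ha' := RM_ne (p := p) h hdim hv hvv ha0 ht v' ht' e1
  have hb' := RM_ne (p := p) h hdim hw hww ha0 hs w' hs' e2
  constructor
  · intro hp0
    apply T_perp_of_comm (p := p) h hdim hv' hw' hvv' hww' ha' hb' ht' hs'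
    have := (T_comm_of_perp hf ht hs hp0).map (Pr : ↥(HGrp B) →* PG B)
    have h3 := this.map (ψ : PG B →* PG B)
    rw [← e1, ← e2]
    exact h3
  · intro hp0
    apply T_perp_of_comm (p := p) h hdim hv hw hvv hww ha0 ha0 ht hs
    have := (T_comm_of_perp hf ht' hs' hp0).map (Pr : ↥(HGrp B) →* PG B)
    rw [← e1, ← e2] at this
    have h3 : ψ (Pr t * Pr s) = ψ (Pr s * Pr t) := by
      rw [map_mul, map_mul]
      exact this.eq
    exact ψ.injective h3

include hp in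
/-- Inverse root maps. -/
lemma RM_symm (h : HForm σ B) (hdim : 3 ≤ finrank F V) {ψ : PG B ≃* PG B} {v v' : V} (h1 : RM ψ v v')
    (hv : v ≠ 0) (hvv : B v v = 0) (hv' : v' ≠ 0) (hvv' : B v' v' = 0) : RM ψ.symm v' v := by
  have hf := h.toF
  obtain ⟨w, hw, hww, h2⟩ := keyU (p := p) h hdim ψ.symm hv' hvv'
  have h2' : RM ψ.symm v' w := h2
  obtain ⟨a, ha0, ha⟩ := h.exists_anti
  obtain ⟨t, ht⟩ := exists_T hf hvv ha
  obtain ⟨a', t', ht', e1⟩ := h1 a t ht
  have ha' := RM_ne (p := p) h (by omega) hv hvv ha0 ht v' ht' e1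
  obtain ⟨a'', t'', ht'', e2⟩ := h2' a' t' ht'
  have ha'' := RM_ne (p := p) h (by omega) (ψ := ψ.symm) hv' hvv' ha' ht' w ht'' e2
  rw [← e1, MulEquiv.symm_apply_apply] at e2
  have e3 : t = t'' := plift_unique (p := p) h (by omega) (T_pow hf (by omega) hvv ht) (T_pow hf (by omega) hww ht'') e2
  rw [← e3] at ht''
  obtain ⟨c, hc, e⟩ := T_eq_imp' h hv ha0 ht ht''
  rw [e]
  exact h2'.smul hc

include hp in
/-- Existence of root maps. -/
lemma exists_RM (h : HForm σ B) (hdim : 3 ≤ finrank F V) (ψ : PG B ≃* PG B) {v : V} (hv : v ≠ 0) (hvv : B v v = 0) :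
    ∃ v', v' ≠ 0 ∧ B v' v' = 0 ∧ RM ψ v v' := by
  obtain ⟨v', h1, h2, h3⟩ := keyU (p := p) h hdim ψ hv hvv
  exact ⟨v', h1, h2, h3⟩

/-- Moving one isotropic line to another. -/
lemma exists_move_pt (h : HForm σ B) (hZ : ∀ u z : V, B u u = 0 → B z u = 0 → ZE B u z) {a b : V} (ha : a ≠ 0) (haa : B a a = 0) (hb : b ≠ 0) (hbb : B b b = 0) :
    ∃ (g : ↥(HGrp B)) (c : F), c ≠ 0 ∧ g.1 a = c • b := by
  haveI := HGrp_pretransitive h hZ
  obtain ⟨g, hg⟩ := MulAction.exists_smul_eq (HGrp B) (isoPt a ha haa) (isoPt b hb hbb)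
  have h1 : g.1 a ≠ 0 := gm_ne g ha
  have h2 : B (g.1 a) (g.1 a) = 0 := by rw [gm_iso, haa]
  rw [HGrp_smul_isoPt g a ha haa h1 h2] at hg
  have h3 : g.1 a ∈ Submodule.span F {b} := by
    have e := congrArg Subtype.val hg
    have e2 : Submodule.span F {g.1 a} = Submodule.span F {b} := e
    rw [← e2]
    exact Submodule.mem_span_singleton_self _
  obtain ⟨c, hc⟩ := Submodule.mem_span_singleton.mp h3
  refine ⟨g, c, ?_, hc.symm⟩
  rintro rfl
  rw [zero_smul] at hc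
  exact h1 hc.symm

include hp in
/-- Normalisation by an inner automorphism. -/
theorem exists_normalised (h : HForm σ B) (hdim : 3 ≤ finrank F V) (hZ : ∀ u z : V, B u u = 0 → B z u = 0 → ZE B u z)
    (ψ : PG B ≃* PG B) {u f : V} (H : HP B u f) :
    ∃ g₀ : ↥(HGrp B), RM (ψ.trans (cj g₀)) u u ∧ RM (ψ.trans (cj g₀)) f f := by
  have hf := h.toF
  have hu := H.u_ne
  have hf0 := H.f_ne
  obtain ⟨v₁, hv₁, hv₁₁, h1⟩ := exists_RM (p := p) h hdim ψ hu H.uu
  obtain ⟨v₂, hv₂, hv₂₂, h2⟩ := exists_RM (p := p) h hdim ψ hf0 H.ff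
  obtain ⟨g₁, c₁, hc₁, e₁⟩ := exists_move_pt h hZ hv₁ hv₁₁ hu H.uu
  have hperp : B v₁ v₂ ≠ 0 := by
    intro e
    have := (RM_perp (p := p) h (by omega) h1 h2 hu H.uu hf0 H.ff hv₁ hv₁₁ hv₂ hv₂₂).mpr e
    rw [H.uf] at this
    exact one_ne_zero this
  have hperp2 : B u (g₁.1 v₂) ≠ 0 := by
    intro e
    apply hperp
    rw [← gm_iso g₁, e₁]
    simp [e]
  have hf'ff : B (g₁.1 v₂) (g₁.1 v₂) = 0 := by rw [gm_iso, hv₂₂]
  obtain ⟨g₂, c₂, hc₂, e₂, e₃⟩ := exists_move_np h hZ u (g₁.1 v₂) f H.uu hf'ff H.ff hperp2 (by rw [H.uf]; exact one_ne_zero)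
  refine ⟨g₂ * g₁, ?_, ?_⟩
  · have := (h1.trans (g₂ * g₁)).smul (inv_ne_zero hc₁)
    have e : c₁⁻¹ • (g₂ * g₁).1 v₁ = u := by
      rw [gm_mul, e₁, map_smul, e₂, smul_smul, inv_mul_cancel₀ hc₁, one_smul]
    rwa [e] at this
  · have := (h2.trans (g₂ * g₁)).smul (inv_ne_zero hc₂)
    have e : c₂⁻¹ • (g₂ * g₁).1 v₂ = f := by
      rw [gm_mul, e₃, smul_smul, inv_mul_cancel₀ hc₂, one_smul]
    rwa [e] at this

/-- The orthogonal complement of a hyperbolic pair. -/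
def WW (hf : FForm σ B) (u f : V) : Submodule F V where
  carrier := {y | B y u = 0 ∧ B y f = 0}
  add_mem' := by
    rintro a b ⟨h1, h2⟩ ⟨h3, h4⟩
    exact ⟨by simp [h1, h3], by simp [h2, h4]⟩
  zero_mem' := by simp
  smul_mem' := by
    rintro c x ⟨h1, h2⟩
    exact ⟨by simp [h1], by simp [h2]⟩

lemma mem_WW {hf : FForm σ B} {u f y : V} : y ∈ WW hf u f ↔ B y u = 0 ∧ B y f = 0 := Iff.rfl

lemma WW_nondeg (hf : FForm σ B) {u f : V} (H : HP B u f) : NondegOn B (WW hf u f) := by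
  intro y hy hW
  exact eq_zero_of_W hf H hy.1 hy.2 (fun w h1 h2 => hW w ⟨h1, h2⟩)

lemma WW_finrank (hf : FForm σ B) {u f : V} (H : HP B u f) : finrank F V ≤ finrank F ↥(WW hf u f) + 2 := by
  classical
  have hall : (⊤ : Submodule F V) ≤ WW hf u f ⊔ Submodule.span F (({u, f} : Finset V) : Set V) := by
    intro x _
    rw [wp_dec (B := B) (u := u) (f := f) x, add_assoc]
    refine Submodule.add_mem_sup ⟨wp_u hf H x, wp_f hf H x⟩ ?_
    refine Submodule.add_mem _ (Submodule.smul_mem _ _ (Submodule.subset_span ?_)) (Submodule.smul_mem _ _ (Submodule.subset_span ?_)) <;> simp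
  have h1 := Submodule.finrank_mono hall
  rw [finrank_top] at h1
  have h2 := Submodule.finrank_add_le_finrank_add_finrank (WW hf u f) (Submodule.span F (({u, f} : Finset V) : Set V))
  have h3 := finrank_span_finset_le_card (R := F) ({u, f} : Finset V)
  have h4 : ({u, f} : Finset V).card ≤ 2 := Finset.card_le_two
  rw [Set.finrank] at h3
  omega

/-- The double perp lemma for totally isotropic lines. -/
lemma double_perp (h : HForm σ B) {u f t x : V} (H : HP B u f) (ht0 : t ≠ 0) (htt : B t t = 0) (htu : B t u = 0) (htf : B t f = 0) (hxx : B x x = 0)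
    (hx : ∀ s, B s s = 0 → B s u = 0 → B s t = 0 → B s x = 0) : ∃ a b : F, x = a • t + b • u := by
  have hf := h.toF
  have hfu := H.fu hf
  have hut : B u t = 0 := hf.zero_symm htu
  have hft : B f t = 0 := hf.zero_symm htf
  -- a partner of `t` in the complement
  obtain ⟨y₀, hy₀⟩ := exists_one h ht0
  obtain ⟨g₀, hg₀⟩ : ∃ g₀, g₀ = wp B u f y₀ := ⟨_, rfl⟩
  have hg₀u : B g₀ u = 0 := by rw [hg₀]; exact wp_u hf H y₀
  have hg₀f : B g₀ f = 0 := by rw [hg₀]; exact wp_f hf H y₀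
  have htg₀ : B t g₀ = 1 := by rw [hg₀, B_wp htu htf, hy₀]
  have hg₀t : B g₀ t = 1 := by rw [← hf.symm, htg₀, map_one]
  obtain ⟨c, hc⟩ := hf.trace_surj (-B g₀ g₀) (by rw [map_neg, hf.self_fixed])
  obtain ⟨g, hg⟩ : ∃ g, g = g₀ + c • t := ⟨_, rfl⟩
  have hgu : B g u = 0 := by
    rw [hg]
    simp only [map_add, LinearMap.add_apply, LinearMap.map_smulₛₗ₂, hg₀u, htu, smul_eq_mul, mul_zero, add_zero]
  have hgf : B g f = 0 := by
    rw [hg]
    simp only [map_add, LinearMap.add_apply, LinearMap.map_smulₛₗ₂, hg₀f, htf, smul_eq_mul, mul_zero, add_zero]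
  have htg : B t g = 1 := by
    rw [hg]
    simp only [map_add, map_smul, htg₀, htt, smul_eq_mul, mul_zero, add_zero]
  have hgt : B g t = 1 := by rw [← hf.symm, htg, map_one]
  have hgg : B g g = 0 := by
    rw [hg]
    simp only [map_add, LinearMap.add_apply, map_smul, LinearMap.map_smulₛₗ₂, smul_eq_mul, hg₀t, htg₀, htt, mul_zero, add_zero, mul_one]
    linear_combination hc
  have hug : B u g = 0 := hf.zero_symm hgu
  have hfg : B f g = 0 := hf.zero_symm hgf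
  have H2 : HP B t g := ⟨htt, hgg, htg⟩
  have hxu : B u x = 0 := hx u H.uu H.uu hut
  have hxt : B t x = 0 := hx t htt htu htt
  have hxu' : B x u = 0 := hf.zero_symm hxu
  have hxt' : B x t = 0 := hf.zero_symm hxt
  obtain ⟨w, hw⟩ : ∃ w, w = x - B f x • u - B g x • t := ⟨_, rfl⟩
  have hwu : B w u = 0 := by
    rw [hw]
    simp only [map_sub, LinearMap.sub_apply, LinearMap.map_smulₛₗ₂, smul_eq_mul, hxu', H.uu, htu, mul_zero, sub_zero]
  have hwt : B w t = 0 := by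
    rw [hw]
    simp only [map_sub, LinearMap.sub_apply, LinearMap.map_smulₛₗ₂, smul_eq_mul, hxt', hut, htt, mul_zero, sub_zero]
  have hwf : B w f = 0 := by
    rw [hw]
    simp only [map_sub, LinearMap.sub_apply, LinearMap.map_smulₛₗ₂, smul_eq_mul, H.uf, htf, mul_zero, mul_one, sub_zero]
    rw [hf.symm]
    exact sub_self _
  have hwg : B w g = 0 := by
    rw [hw]
    simp only [map_sub, LinearMap.sub_apply, LinearMap.map_smulₛₗ₂, smul_eq_mul, hug, htg, mul_zero, mul_one, sub_zero]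
    rw [hf.symm]
    exact sub_self _
  have hwx : B w x = 0 := by
    rw [hw]
    simp only [map_sub, LinearMap.sub_apply, LinearMap.map_smulₛₗ₂, smul_eq_mul, hxu, hxt, hxx, mul_zero, sub_zero]
  have hww : B w w = 0 := by
    nth_rewrite 2 [hw]
    simp only [map_sub, map_smul, smul_eq_mul, hwx, hwu, hwt, mul_zero, sub_zero]
  have hw0 : w = 0 := by
    by_contra hne
    obtain ⟨y₁, hy₁⟩ := exists_one h hne
    obtain ⟨y₂, hy₂⟩ : ∃ y₂, y₂ = wp B u f y₁ := ⟨_, rfl⟩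
    obtain ⟨y₃, hy₃⟩ : ∃ y₃, y₃ = wp B t g y₂ := ⟨_, rfl⟩
    have hy₂u : B y₂ u = 0 := by rw [hy₂]; exact wp_u hf H y₁
    have hy₂f : B y₂ f = 0 := by rw [hy₂]; exact wp_f hf H y₁
    have hy₃t : B y₃ t = 0 := by rw [hy₃]; exact wp_u hf H2 y₂
    have hy₃g : B y₃ g = 0 := by rw [hy₃]; exact wp_f hf H2 y₂
    have hy₃u : B y₃ u = 0 := by
      rw [hy₃, wp]
      simp only [map_sub, LinearMap.sub_apply, LinearMap.map_smulₛₗ₂, smul_eq_mul, hy₂u, htu, hgu, mul_zero, sub_zero]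
    have hwy₃ : B w y₃ = 1 := by
      rw [hy₃, B_wp hwt hwg, hy₂, B_wp hwu hwf, hy₁]
    have hy₃w : B y₃ w = 1 := by rw [← hf.symm, hwy₃, map_one]
    obtain ⟨d, hd⟩ := hf.trace_surj (-B y₃ y₃) (by rw [map_neg, hf.self_fixed])
    have hs := hx (y₃ + d • w)
      (by
        simp only [map_add, LinearMap.add_apply, map_smul, LinearMap.map_smulₛₗ₂, smul_eq_mul, hy₃w, hwy₃, hww, mul_zero, add_zero, mul_one]
        linear_combination hd)
      (by simp only [map_add, LinearMap.add_apply, LinearMap.map_smulₛₗ₂, smul_eq_mul, hy₃u, hwu, mul_zero, add_zero])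
      (by simp only [map_add, LinearMap.add_apply, LinearMap.map_smulₛₗ₂, smul_eq_mul, hy₃t, hwt, mul_zero, add_zero])
    simp only [map_add, LinearMap.add_apply, LinearMap.map_smulₛₗ₂, smul_eq_mul, hwx, mul_zero, add_zero] at hs
    have e : B y₃ x = 1 := by
      have e1 : x = w + B f x • u + B g x • t := by
        rw [hw]
        abel
      rw [e1]
      simp only [map_add, map_smul, smul_eq_mul, hy₃w, hy₃u, hy₃t, mul_zero, add_zero]
    rw [e] at hs
    exact one_ne_zero hs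
  refine ⟨B g x, B f x, ?_⟩
  rw [hw0] at hw
  have e : x - B f x • u - B g x • t = 0 := hw.symm
  linear_combination (norm := module) e

end

end CfsgLib.PUA
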