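/-
Automorphisms of `PSU_n(q)`: the action on the radical of a point stabiliser.
-/
import Cfsg.Agent.Lib.PSUAut.Chart

set_option autoImplicit false
set_option linter.unusedSimpArgs false
set_option linter.unusedVariables false
set_option linter.unusedSectionVars false
set_option maxHeartbeats 1000000

namespace CfsgLib.PUA

open Module CfsgLib.ClassGeo

variable {F V : Type*} [Field F] [AddCommGroup V] [Module F V] {σ : F →+* F} {B : V →ₛₗ[σ] V →ₗ[F] F}

/-- Valid parameters. -/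
def Val (B : V →ₛₗ[σ] V →ₗ[F] F) (u f y : V) (k : F) : Prop := B y u = 0 ∧ B y f = 0 ∧ k + σ k + B y y = 0

/-- The map on parameters. -/
def EMap (ψ : PG B ≃* PG B) (u y : V) (k : F) (y' : V) (k' : F) : Prop :=
  ∀ t t' : ↥(HGrp B), IsE B u y k t.1 → IsE B u y' k' t'.1 → ψ (Pr t) = Pr t'

lemma IsE.unique' {u y : V} {k : F} {t t' : ↥(HGrp B)} (h1 : IsE B u y k t.1) (h2 : IsE B u y k t'.1) : t = t' :=
  gm_ext fun x => by rw [h1, h2]

lemma IsE_app_f (hf : FForm σ B) {u f y : V} {k : F} (H : HP B u f) (hV : Val B u f y k) {t : V ≃ₗ[F] V} (ht : IsE B u y k t) :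
    t f = f - y + k • u := by
  rw [ht, hV.2.1, H.uf]
  module

lemma E_inj (hf : FForm σ B) {u f y y' : V} {k k' : F} (H : HP B u f) (h1 : Val B u f y k) (h2 : Val B u f y' k') {t : V ≃ₗ[F] V}
    (ht : IsE B u y k t) (ht' : IsE B u y' k' t) : y = y' ∧ k = k' := by
  have e := (IsE_app_f hf H h1 ht).symm.trans (IsE_app_f hf H h2 ht')
  have e1 := congrArg (fun x => B f x) e
  simp only [map_add, map_sub, map_smul, smul_eq_mul, H.ff, H.fu hf, hf.zero_symm h1.2.1, hf.zero_symm h2.2.1, mul_one, sub_zero, zero_add] at e1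
  refine ⟨?_, e1⟩
  rw [e1] at e
  have e2 : y' - y = 0 := by
    linear_combination (norm := module) e
  exact (sub_eq_zero.mp e2).symm

lemma Val_zero (a : F) (ha : a + σ a = 0) (u f : V) : Val B u f 0 a := by
  refine ⟨by simp, by simp, by simpa using ha⟩

lemma Val_add (hf : FForm σ B) {u f y₁ y₂ : V} {k₁ k₂ : F} (h1 : Val B u f y₁ k₁) (h2 : Val B u f y₂ k₂) :
    Val B u f (y₁ + y₂) (k₁ + k₂ - B y₁ y₂) := by
  refine ⟨by simp [h1.1, h2.1], by simp [h1.2.1, h2.2.1], ?_⟩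
  simp only [map_add, map_sub, LinearMap.add_apply, hf.symm y₁ y₂]
  linear_combination h1.2.2 + h2.2.2

lemma IsE_zero_iff {u : V} {a : F} {t : V ≃ₗ[F] V} : IsE B u 0 a t ↔ IsT B u a t := by
  constructor
  · intro h x
    rw [h]
    simp
  · intro h x
    rw [h]
    simp

section

variable [FiniteDimensional F V] [Finite F] {p : ℕ} [hp : Fact p.Prime] [CharP F p]

omit hp [CharP F p] [Finite F] in
lemma li_three (hf : FForm σ B) {u f w : V} (H : HP B u f) (hw0 : w ≠ 0) (hwu : B w u = 0) (hwf : B w f = 0) :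
    LinearIndependent F ![u, f, w] := by
  have hfu := H.fu hf
  have huw := hf.zero_symm hwu
  have hfw := hf.zero_symm hwf
  rw [Fintype.linearIndependent_iff]
  intro g hg
  rw [Fin.sum_univ_three] at hg
  simp only [Matrix.cons_val_zero, Matrix.cons_val_one, Matrix.cons_val_two, Matrix.head_cons, Matrix.tail_cons] at hg
  have e1 := congrArg (fun x => B f x) hg
  have e2 := congrArg (fun x => B u x) hg
  simp only [map_add, map_smul, smul_eq_mul, H.ff, hfu, hfw, H.uu, H.uf, huw, map_zero, mul_zero, mul_one, add_zero, zero_add] at e1 e2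
  rw [e1, e2] at hg
  simp only [zero_smul, zero_add] at hg
  have e3 := (smul_eq_zero.mp hg).resolve_right hw0
  intro i
  fin_cases i
  · exact e1
  · exact e2
  · exact e3

omit hp [CharP F p] [Finite F] in
lemma span_three (hf : FForm σ B) (hd3 : finrank F V = 3) {u f w : V} (H : HP B u f) (hw0 : w ≠ 0) (hwu : B w u = 0) (hwf : B w f = 0) (x : V) :
    ∃ a b c : F, x = a • u + b • f + c • w := by
  have hli := li_three hf H hw0 hwu hwf
  have htop := hli.span_eq_top_of_card_eq_finrank (by simp [hd3])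
  have hx : x ∈ Submodule.span F (Set.range ![u, f, w]) := by
    rw [htop]
    trivial
  rw [Submodule.mem_span_range_iff_exists_fun] at hx
  obtain ⟨c, hc⟩ := hx
  rw [Fin.sum_univ_three] at hc
  exact ⟨c 0, c 1, c 2, by simpa using hc.symm⟩

omit hp [CharP F p] [Finite F] in
lemma W_line (hf : FForm σ B) (hd3 : finrank F V = 3) {u f w y : V} (H : HP B u f) (hw0 : w ≠ 0) (hwu : B w u = 0) (hwf : B w f = 0)
    (hyu : B y u = 0) (hyf : B y f = 0) : ∃ c : F, y = c • w := by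
  obtain ⟨a, b, c, e⟩ := span_three hf hd3 H hw0 hwu hwf y
  have hfu := H.fu hf
  have e1 := congrArg (fun x => B x u) e
  have e2 := congrArg (fun x => B x f) e
  simp only [map_add, LinearMap.add_apply, LinearMap.map_smulₛₗ₂, smul_eq_mul, H.uu, H.ff, H.uf, hfu, hwu, hwf, hyu, hyf, mul_zero, mul_one, add_zero, zero_add] at e1 e2
  have hb : b = 0 := by
    by_contra hne
    exact (map_ne_zero σ).mpr hne e1.symm
  have ha : a = 0 := by
    by_contra hne
    exact (map_ne_zero σ).mpr hne e2.symm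
  exact ⟨c, by rw [e, ha, hb]; simp⟩

include hp in
/-- The image of the radical lies in the radical. -/
theorem R_image (h : HForm σ B) (hdim : 3 ≤ finrank F V) {ψ : PG B ≃* PG B} {u f : V} (H : HP B u f) (hN : RM ψ u u)
    {r : ↥(HGrp B)} (hr : r ∈ RR B u) : ∃ r' ∈ RR B u, ψ (Pr r) = Pr r' := by
  have hf := h.toF
  have hu := H.u_ne
  have hfu := H.fu hf
  have hdim2 : 2 ≤ finrank F V := by omega
  have hx : (ψ (Pr r)) ^ (p ^ 2) = 1 := by
    rw [← map_pow, ← map_pow, RR_pow hf hdim2 hr, map_one, map_one]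
  obtain ⟨q, m, hq, hqm⟩ := lift_p (p := p) h hdim2 hx
  have hqu : q.1 u = u := by
    obtain ⟨a, ha0, ha⟩ := h.exists_anti
    obtain ⟨t, ht⟩ := exists_T hf H.uu ha
    obtain ⟨a', t', ht', e1⟩ := hN a t ht
    have ha' := RM_ne (p := p) h hdim2 hu H.uu ha0 ht u ht' e1
    have h1 : r * t * r⁻¹ = t := by
      have := conj_T r t ht
      rw [hr.1] at this
      exact IsT.unique this ht
    have h2 : Commute (Pr q) (Pr t') := by
      rw [hq, ← e1]
      have h3 : Commute r t := by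
        rw [Commute, SemiconjBy, ← mul_inv_eq_iff_eq_mul]
        exact h1
      exact (h3.map (Pr : ↥(HGrp B) →* PG B)).map (ψ : PG B →* PG B)
    have h3 : Commute q t' := comm_lift (p := p) h hdim2 (k := 2) (T_pow hf hdim2 H.uu ht') h2
    have h4 := conj_T q t' ht'
    rw [h3.eq, mul_inv_cancel_right] at h4
    obtain ⟨c, hc, e⟩ := T_eq_imp' h (gm_ne q hu) ha' h4 ht'
    rw [e, eig_p (p := p) hqm hu e, one_smul]
  have hindep : ∀ t : V, B t f = 0 → ∀ β : F, t ≠ 0 → β • t ∈ Submodule.span F {u} → β = 0 := by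
    intro t htf β ht0 hmem
    obtain ⟨d, hd⟩ := Submodule.mem_span_singleton.mp hmem
    have e := congrArg (fun x => B x f) hd
    simp only [LinearMap.map_smulₛₗ₂, smul_eq_mul, H.uf, htf, mul_zero, mul_one] at e
    have hd0 : d = 0 := by
      by_contra hne
      exact (map_ne_zero σ).mpr hne e
    rw [hd0, zero_smul] at hd
    exact (smul_eq_zero.mp hd.symm).resolve_right ht0
  -- the subspace of vectors moved by multiples of `u`
  let Y : Submodule F V :=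
    { carrier := {z | ∃ c : F, q.1 z = z + c • u}
      add_mem' := by
        rintro a b ⟨c, hc⟩ ⟨d, hd⟩
        exact ⟨c + d, by rw [map_add, hc, hd]; module⟩
      zero_mem' := ⟨0, by simp⟩
      smul_mem' := by
        rintro e a ⟨c, hc⟩
        exact ⟨e * c, by rw [map_smul, hc]; module⟩ }
  have hWY : ∀ y, B y u = 0 → B y f = 0 → y ∈ Y := by
    by_cases hd3 : finrank F V = 3
    · -- a line
      obtain ⟨w, hw0, hwu, hwf⟩ := exists_W h hdim H
      have hwY : w ∈ Y := by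
        have huz : B u (q.1 w) = 0 := by
          have e : B u (q.1 w) = B (q.1 u) (q.1 w) := by rw [hqu]
          rw [e, gm_iso]
          exact hf.zero_symm hwu
        obtain ⟨α, hα⟩ := W_line hf hd3 H hw0 hwu hwf (wp_u hf H (q.1 w)) (wp_f hf H (q.1 w))
        have e := wp_dec (B := B) (u := u) (f := f) (q.1 w)
        rw [huz, hα, zero_smul, add_zero] at e
        have hα1 := tri_p (p := p) hqm (hindep w hwf · hw0) hqu e
        refine ⟨B f (q.1 w), ?_⟩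
        rw [hα1, one_smul] at e
        exact e
      intro y hyu hyf
      obtain ⟨c, hc⟩ := W_line hf hd3 H hw0 hwu hwf hyu hyf
      rw [hc]
      exact Y.smul_mem _ hwY
    · have hd4 : 4 ≤ finrank F V := by omega
      intro y hyu hyf
      have hk : 2 ≤ finrank F ↥(WW hf u f) := by
        have := WW_finrank hf H
        omega
      refine NondegOn.iso_span h (WW_nondeg hf H) hk Y ?_ (⟨hyu, hyf⟩ : y ∈ WW hf u f)
      rintro t ⟨htu, htf⟩ htt
      by_cases ht0 : t = 0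
      · rw [ht0]
        exact Y.zero_mem
      have hroot : ∀ s, s ≠ 0 → B s s = 0 → ∃ s₀, s₀ ≠ 0 ∧ B s₀ s₀ = 0 ∧ RM ψ s₀ s := by
        intro s hs hss
        obtain ⟨s₀, h1, h2, h3⟩ := exists_RM (p := p) h hdim ψ.symm hs hss
        exact ⟨s₀, h1, h2, RM_symm (p := p) h hdim h3 hs hss h1 h2⟩
      obtain ⟨t₀, ht₀, ht₀₀, hRt⟩ := hroot t ht0 htt
      have ht₀u : B t₀ u = 0 := (RM_perp (p := p) h hdim2 hRt hN ht₀ ht₀₀ hu H.uu ht0 htt hu H.uu).mpr htu
      obtain ⟨c, hc⟩ := hr.2 t₀ ht₀u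
      have hRq := hRt.conj r q hq.symm
      have hrt₀ : r.1 t₀ ≠ 0 := gm_ne r ht₀
      have hrt₀₀ : B (r.1 t₀) (r.1 t₀) = 0 := by rw [gm_iso, ht₀₀]
      have hqt : q.1 t ≠ 0 := gm_ne q ht0
      have hqtt : B (q.1 t) (q.1 t) = 0 := by rw [gm_iso, htt]
      obtain ⟨a, b, hab⟩ := double_perp h H ht0 htt htu htf hqtt (by
        intro s hss hsu hst
        by_cases hs0 : s = 0
        · rw [hs0]
          simp
        obtain ⟨s₀, hs₀, hs₀₀, hRs⟩ := hroot s hs0 hss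
        have hs₀u : B s₀ u = 0 := (RM_perp (p := p) h hdim2 hRs hN hs₀ hs₀₀ hu H.uu hs0 hss hu H.uu).mpr hsu
        have hs₀t : B s₀ t₀ = 0 := (RM_perp (p := p) h hdim2 hRs hRt hs₀ hs₀₀ ht₀ ht₀₀ hs0 hss ht0 htt).mpr hst
        apply (RM_perp (p := p) h hdim2 hRs hRq hs₀ hs₀₀ hrt₀ hrt₀₀ hs0 hss hqt hqtt).mp
        rw [hc]
        simp [hs₀u, hs₀t])
      have ha1 := tri_p (p := p) hqm (hindep t htf · ht0) hqu hab
      refine ⟨b, ?_⟩
      rw [hab, ha1, one_smul]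
  refine ⟨q, ⟨hqu, fun z hz => ?_⟩, hq.symm⟩
  obtain ⟨w₀, hw₀⟩ : ∃ w₀, w₀ = wp B u f z := ⟨_, rfl⟩
  obtain ⟨c, hc⟩ : ∃ c : F, q.1 w₀ = w₀ + c • u := by
    rw [hw₀]
    exact hWY (wp B u f z) (wp_u hf H z) (wp_f hf H z)
  have huz : B u z = 0 := hf.zero_symm hz
  have e : z = w₀ + B f z • u := by
    have := wp_dec (B := B) (u := u) (f := f) z
    rw [huz, zero_smul, add_zero, ← hw₀] at this
    exact this
  refine ⟨c, ?_⟩
  calc q.1 z = q.1 (w₀ + B f z • u) := by rw [← e]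
    _ = w₀ + c • u + B f z • u := by rw [map_add, map_smul, hc, hqu]
    _ = (w₀ + B f z • u) + c • u := by module
    _ = z + c • u := by rw [← e]

include hp in
/-- The step of the chart. -/
lemma chart_step (h : HForm σ B) (hdim : 3 ≤ finrank F V) {ψ : PG B ≃* PG B} {u f : V} (H : HP B u f) (hN : RM ψ u u)
    {y : V} {k : F} (hV : Val B u f y k) : ∃ (y' : V) (k' : F), Val B u f y' k' ∧ EMap ψ u y k y' k' := by
  have hf := h.toF
  obtain ⟨t, ht⟩ := exists_E hf H.uu hV.1 hV.2.2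
  obtain ⟨r', hr', e⟩ := R_image (p := p) h hdim H hN (E_mem_RR hf H.uu hV.1 ht)
  obtain ⟨z, k', h1, h2, h3, h4⟩ := E_normal hf H ((r'.1 : V ≃ₗ[F] V) : V →ₗ[F] V) (fun x y => gm_iso r' x y) hr'.1 hr'.2
  refine ⟨z, k', ⟨h1, h2, h3⟩, fun t₁ t₁' ht₁ ht₁' => ?_⟩
  have e1 : t₁ = t := IsE.unique' ht₁ ht
  have e2 : t₁' = r' := IsE.unique' ht₁' (fun x => h4 x)
  rw [e1, e2, e]

include hp in
lemma EMap_unique (h : HForm σ B) (hdim : 3 ≤ finrank F V) {ψ : PG B ≃* PG B} {u f y y₁ y₂ : V} {k k₁ k₂ : F} (H : HP B u f)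
    (hV : Val B u f y k) (h1 : Val B u f y₁ k₁) (h2 : Val B u f y₂ k₂) (e1 : EMap ψ u y k y₁ k₁) (e2 : EMap ψ u y k y₂ k₂) : y₁ = y₂ ∧ k₁ = k₂ := by
  have hf := h.toF
  obtain ⟨t, ht⟩ := exists_E hf H.uu hV.1 hV.2.2
  obtain ⟨t₁, ht₁⟩ := exists_E hf H.uu h1.1 h1.2.2
  obtain ⟨t₂, ht₂⟩ := exists_E hf H.uu h2.1 h2.2.2
  have e : Pr t₁ = Pr t₂ := by rw [← e1 t t₁ ht ht₁, ← e2 t t₂ ht ht₂]
  have e3 : t₁ = t₂ := plift_unique (p := p) h (by omega) (E_pow hf (by omega) H.uu h1.1 ht₁) (E_pow hf (by omega) H.uu h2.1 ht₂) e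
  rw [← e3] at ht₂
  exact E_inj hf H h1 h2 ht₁ ht₂

lemma EMap_add (hf : FForm σ B) {ψ : PG B ≃* PG B} {u f y₁ y₂ y₁' y₂' : V} {k₁ k₂ k₁' k₂' : F} (H : HP B u f)
    (h1 : Val B u f y₁ k₁) (h2 : Val B u f y₂ k₂) (h1' : Val B u f y₁' k₁') (h2' : Val B u f y₂' k₂')
    (e1 : EMap ψ u y₁ k₁ y₁' k₁') (e2 : EMap ψ u y₂ k₂ y₂' k₂') :
    EMap ψ u (y₁ + y₂) (k₁ + k₂ - B y₁ y₂) (y₁' + y₂') (k₁' + k₂' - B y₁' y₂') := by
  intro t t' ht ht'
  obtain ⟨t₁, ht₁⟩ := exists_E hf H.uu h1.1 h1.2.2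
  obtain ⟨t₂, ht₂⟩ := exists_E hf H.uu h2.1 h2.2.2
  obtain ⟨t₁', ht₁'⟩ := exists_E hf H.uu h1'.1 h1'.2.2
  obtain ⟨t₂', ht₂'⟩ := exists_E hf H.uu h2'.1 h2'.2.2
  have e3 : t = t₁ * t₂ := IsE.unique' ht (IsE.mul ht₁ ht₂ H.uu h1.1 (hf.zero_symm h2.1))
  have e4 : t' = t₁' * t₂' := IsE.unique' ht' (IsE.mul ht₁' ht₂' H.uu h1'.1 (hf.zero_symm h2'.1))
  rw [e3, e4, map_mul, map_mul, map_mul, e1 _ _ ht₁ ht₁', e2 _ _ ht₂ ht₂']

/-- The chart of the normalised automorphism. -/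
structure Chart (ψ : PG B ≃* PG B) (u f : V) (τ : V → V) (K : V → F → F) : Prop where
  val : ∀ y k, Val B u f y k → Val B u f (τ y) (K y k)
  emap : ∀ y k, Val B u f y k → EMap ψ u y k (τ y) (K y k)

include hp in
theorem exists_chart (h : HForm σ B) (hdim : 3 ≤ finrank F V) {ψ : PG B ≃* PG B} {u f : V} (H : HP B u f) (hN : RM ψ u u) :
    ∃ (τ : V → V) (K : V → F → F), Chart ψ u f τ K := by
  classical
  have hf := h.toF
  have hstep : ∀ y k, Val B u f y k → ∃ (y' : V) (k' : F), Val B u f y' k' ∧ EMap ψ u y k y' k' :=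
    fun y k hV => chart_step (p := p) h hdim H hN hV
  choose! T K hTK using hstep
  have hzero : ∀ a : F, a + σ a = 0 → T 0 a = 0 := by
    intro a ha
    have hV0 := Val_zero (B := B) a ha u f
    obtain ⟨t, ht⟩ := exists_T hf H.uu ha
    obtain ⟨a', t', ht', e⟩ := hN a t ht
    have ha' : a' + σ a' = 0 := IsT.trace hf H.uu ht' (fun x y => gm_iso t' x y) H.uf
    have hE : EMap ψ u 0 a 0 a' := by
      intro t₁ t₁' h1 h2
      rw [IsE.unique' h1 (IsE_zero_iff.mpr ht), IsE.unique' h2 (IsE_zero_iff.mpr ht'), e]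
    exact (EMap_unique (p := p) h hdim H hV0 (hTK 0 a hV0).1 (Val_zero a' ha' u f) (hTK 0 a hV0).2 hE).1
  have hindep : ∀ y k k', Val B u f y k → Val B u f y k' → T y k' = T y k := by
    intro y k k' hV hV'
    have ha : (k' - k) + σ (k' - k) = 0 := by
      rw [map_sub]
      linear_combination hV'.2.2 - hV.2.2
    have hV0 := Val_zero (B := B) (k' - k) ha u f
    have e := EMap_add hf H hV hV0 (hTK y k hV).1 (hTK 0 _ hV0).1 (hTK y k hV).2 (hTK 0 _ hV0).2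
    have e1 : k + (k' - k) - B y 0 = k' := by simp
    rw [add_zero, e1, hzero _ ha, add_zero] at e
    have hV2 : Val B u f (T y k) (K y k + K 0 (k' - k) - B (T y k) 0) := by
      have := Val_add hf (hTK y k hV).1 (hTK 0 _ hV0).1
      rwa [hzero _ ha, add_zero] at this
    exact (EMap_unique (p := p) h hdim H hV' (hTK y k' hV').1 hV2 (hTK y k' hV').2 e).1
  refine ⟨fun y => if hh : ∃ k, Val B u f y k then T y hh.choose else 0, K, ?_⟩
  have hτ : ∀ y k, Val B u f y k → (if hh : ∃ k, Val B u f y k then T y hh.choose else 0) = T y k := by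
    intro y k hV
    have hh : ∃ k, Val B u f y k := ⟨k, hV⟩
    rw [dif_pos hh]
    exact hindep y k _ hV hh.choose_spec
  constructor
  · intro y k hV
    beta_reduce
    rw [hτ y k hV]
    exact (hTK y k hV).1
  · intro y k hV
    beta_reduce
    rw [hτ y k hV]
    exact (hTK y k hV).2

lemma exists_k (hf : FForm σ B) {u f y : V} (hyu : B y u = 0) (hyf : B y f = 0) : ∃ k, Val B u f y k := by
  obtain ⟨c, hc⟩ := hf.trace_surj (-B y y) (by rw [map_neg, hf.self_fixed])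
  exact ⟨c, hyu, hyf, by linear_combination hc⟩

lemma RM.smul_left {ψ : PG B ≃* PG B} {v v' : V} (h : RM ψ v v') (c : F) : RM ψ (c • v) v' := by
  intro a t ht
  refine h (a * σ c * c) t ?_
  intro x
  rw [ht]
  simp only [LinearMap.map_smulₛₗ₂, smul_eq_mul, smul_smul]
  congr 2
  ring

include hp in
lemma RM_unique (h : HForm σ B) (hdim : 3 ≤ finrank F V) {ψ : PG B ≃* PG B} {v w₁ w₂ : V} (hv : v ≠ 0) (hvv : B v v = 0)
    (h₁ : RM ψ v w₁) (h₂ : RM ψ v w₂) (hw₁ : w₁ ≠ 0) (hw₁₁ : B w₁ w₁ = 0) (hw₂₂ : B w₂ w₂ = 0) : ∃ c : F, c ≠ 0 ∧ w₁ = c • w₂ := by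
  have hf := h.toF
  obtain ⟨a, ha0, ha⟩ := h.exists_anti
  obtain ⟨t, ht⟩ := exists_T hf hvv ha
  obtain ⟨a₁, t₁, ht₁, e₁⟩ := h₁ a t ht
  obtain ⟨a₂, t₂, ht₂, e₂⟩ := h₂ a t ht
  have ha₁ := RM_ne (p := p) h (by omega) hv hvv ha0 ht w₁ ht₁ e₁
  have e : t₁ = t₂ := plift_unique (p := p) h (by omega) (T_pow hf (by omega) hw₁₁ ht₁) (T_pow hf (by omega) hw₂₂ ht₂) (by rw [← e₁, e₂])
  rw [← e] at ht₂
  exact T_eq_imp' h hw₁ ha₁ ht₁ ht₂

include hp in
/-- Lifts of elements normalising a root group. -/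
lemma levi_lift (h : HForm σ B) (hdim : 3 ≤ finrank F V) {ψ : PG B ≃* PG B} {v v' : V} (hv : v ≠ 0) (hvv : B v v = 0) (hv' : v' ≠ 0) (hvv' : B v' v' = 0)
    (hR : RM ψ v v') {g g' : ↥(HGrp B)} (hg : ψ (Pr g) = Pr g') {l : F} (hl : g.1 v = l • v) : ∃ c : F, c ≠ 0 ∧ g'.1 v' = c • v' := by
  have hl0 : l ≠ 0 := by
    rintro rfl
    rw [zero_smul] at hl
    exact gm_ne g hv hl
  have h1 := hR.conj g g' hg
  rw [hl] at h1
  have h2 := hR.smul_left l
  refine RM_unique (p := p) h hdim (smul_ne_zero hl0 hv) ?_ h1 h2 (gm_ne g' hv') (by rw [gm_iso, hvv']) hvv'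
  simp [hvv]

lemma Val_levi (h : HForm σ B) {u f y : V} {k : F} (H : HP B u f) (hV : Val B u f y k) {g : ↥(HGrp B)} {l d : F} (hl : l ≠ 0) (hd0 : d ≠ 0)
    (hgu : g.1 u = l • u) (hgf : g.1 f = d • f) : Val B u f (σ l • g.1 y) (σ l * l * k) := by
  have hf := h.toF
  have h1 : B (g.1 y) u = 0 := by
    have e := gm_iso g y u
    rw [hgu, hV.1, map_smul, smul_eq_mul] at e
    exact (mul_eq_zero.mp e).resolve_left hl
  have h2 : B (g.1 y) f = 0 := by
    have e := gm_iso g y f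
    rw [hgf, hV.2.1, map_smul, smul_eq_mul] at e
    exact (mul_eq_zero.mp e).resolve_left hd0
  refine ⟨by simp [h1], by simp [h2], ?_⟩
  simp only [map_smul, LinearMap.map_smulₛₗ₂, smul_eq_mul, gm_iso, map_mul, hf.σσ]
  linear_combination (σ l * l) * hV.2.2

lemma IsE_rescale (hf : FForm σ B) {u z : V} {k l : F} {t : V ≃ₗ[F] V} (ht : IsE B (l • u) z k t) : IsE B u (σ l • z) (σ l * l * k) t := by
  intro x
  rw [ht]
  simp only [LinearMap.map_smulₛₗ₂, smul_eq_mul, hf.σσ, smul_smul]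
  module

namespace Chart

variable {ψ : PG B ≃* PG B} {u f : V} {τ : V → V} {K : V → F → F}

include hp in
lemma eq_of_emap (C : Chart ψ u f τ K) (h : HForm σ B) (hdim : 3 ≤ finrank F V) (H : HP B u f) {y y' : V} {k k' : F} (hV : Val B u f y k) (hV' : Val B u f y' k')
    (e : EMap ψ u y k y' k') : τ y = y' ∧ K y k = k' :=
  EMap_unique (p := p) h hdim H hV (C.val _ _ hV) hV' (C.emap _ _ hV) e

include hp in
lemma add (C : Chart ψ u f τ K) (h : HForm σ B) (hdim : 3 ≤ finrank F V) (H : HP B u f) {y₁ y₂ : V} {k₁ k₂ : F} (h1 : Val B u f y₁ k₁) (h2 : Val B u f y₂ k₂) :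
    τ (y₁ + y₂) = τ y₁ + τ y₂ ∧ K (y₁ + y₂) (k₁ + k₂ - B y₁ y₂) = K y₁ k₁ + K y₂ k₂ - B (τ y₁) (τ y₂) := by
  have hf := h.toF
  exact C.eq_of_emap (p := p) h hdim H (Val_add hf h1 h2) (Val_add hf (C.val _ _ h1) (C.val _ _ h2))
    (EMap_add hf H h1 h2 (C.val _ _ h1) (C.val _ _ h2) (C.emap _ _ h1) (C.emap _ _ h2))

include hp in
lemma tau_zero (C : Chart ψ u f τ K) (h : HForm σ B) (hdim : 3 ≤ finrank F V) (H : HP B u f) : τ 0 = 0 := by
  have hV := Val_zero (B := B) (0 : F) (by simp) u f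
  have e := (C.add (p := p) h hdim H hV hV).1
  rw [add_zero] at e
  exact left_eq_add.mp e

include hp in
lemma add' (C : Chart ψ u f τ K) (h : HForm σ B) (hdim : 3 ≤ finrank F V) (H : HP B u f) {y₁ y₂ : V} (h1 : y₁ ∈ WW h.toF u f) (h2 : y₂ ∈ WW h.toF u f) :
    τ (y₁ + y₂) = τ y₁ + τ y₂ := by
  obtain ⟨k₁, hk₁⟩ := exists_k h.toF h1.1 h1.2
  obtain ⟨k₂, hk₂⟩ := exists_k h.toF h2.1 h2.2
  exact (C.add (p := p) h hdim H hk₁ hk₂).1

lemma mem_W (C : Chart ψ u f τ K) (h : HForm σ B) {y : V} (hy : y ∈ WW h.toF u f) : τ y ∈ WW h.toF u f := by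
  obtain ⟨k, hk⟩ := exists_k h.toF hy.1 hy.2
  have := C.val _ _ hk
  exact ⟨this.1, this.2.1⟩

include hp in
lemma K_shift (C : Chart ψ u f τ K) (h : HForm σ B) (hdim : 3 ≤ finrank F V) (H : HP B u f) {y : V} {k a : F} (hV : Val B u f y k) (ha : a + σ a = 0) :
    K y (k + a) = K y k + K 0 a := by
  have hV0 := Val_zero (B := B) a ha u f
  have e := (C.add (p := p) h hdim H hV hV0).2
  rw [add_zero, C.tau_zero (p := p) h hdim H] at e
  simpa using e

include hp in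
lemma kappa_tr (C : Chart ψ u f τ K) (h : HForm σ B) (hdim : 3 ≤ finrank F V) (H : HP B u f) {a : F} (ha : a + σ a = 0) : K 0 a + σ (K 0 a) = 0 := by
  have e := (C.val _ _ (Val_zero (B := B) a ha u f)).2.2
  rw [C.tau_zero (p := p) h hdim H] at e
  simpa using e

include hp in
lemma kappa_comm (C : Chart ψ u f τ K) (h : HForm σ B) (hdim : 3 ≤ finrank F V) (H : HP B u f) {y₁ y₂ : V} (h1 : y₁ ∈ WW h.toF u f) (h2 : y₂ ∈ WW h.toF u f) :
    K 0 (B y₁ y₂ - B y₂ y₁) = B (τ y₁) (τ y₂) - B (τ y₂) (τ y₁) := by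
  have hf := h.toF
  obtain ⟨k₁, hk₁⟩ := exists_k hf h1.1 h1.2
  obtain ⟨k₂, hk₂⟩ := exists_k hf h2.1 h2.2
  have e1 := (C.add (p := p) h hdim H hk₁ hk₂).2
  have e2 := (C.add (p := p) h hdim H hk₂ hk₁).2
  have ha : (B y₁ y₂ - B y₂ y₁) + σ (B y₁ y₂ - B y₂ y₁) = 0 := by
    rw [map_sub, hf.symm, hf.symm]
    ring
  have e3 := C.K_shift (p := p) h hdim H (Val_add hf hk₁ hk₂) ha
  have e4 : k₁ + k₂ - B y₁ y₂ + (B y₁ y₂ - B y₂ y₁) = k₂ + k₁ - B y₂ y₁ := by ring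
  rw [e4, add_comm y₁ y₂, e2, add_comm y₂ y₁, e1] at e3
  linear_combination -e3

include hp in
lemma inj (C : Chart ψ u f τ K) (h : HForm σ B) (hdim : 3 ≤ finrank F V) (H : HP B u f) (hN : RM ψ u u) {y : V} (hy : y ∈ WW h.toF u f) (h0 : τ y = 0) : y = 0 := by
  have hf := h.toF
  obtain ⟨k, hk⟩ := exists_k hf hy.1 hy.2
  obtain ⟨t, ht⟩ := exists_E hf H.uu hk.1 hk.2.2
  have hV' := C.val _ _ hk
  obtain ⟨t', ht'⟩ := exists_E hf H.uu hV'.1 hV'.2.2
  have e := C.emap _ _ hk t t' ht ht'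
  rw [h0] at ht'
  have ht'' : IsT B u (K y k) t'.1 := IsE_zero_iff.mp ht'
  have hS := RM_symm (p := p) h hdim hN H.u_ne H.uu H.u_ne H.uu
  obtain ⟨a, t₂, ht₂, e₂⟩ := hS _ t' ht''
  rw [← e, MulEquiv.symm_apply_apply] at e₂
  have e₃ : t = t₂ := plift_unique (p := p) h (by omega) (E_pow hf (by omega) H.uu hk.1 ht) (T_pow hf (by omega) H.uu ht₂) e₂
  rw [← e₃] at ht₂
  have ha : a + σ a = 0 := IsT.trace hf H.uu ht₂ (fun x y => gm_iso t x y) H.uf
  exact (E_inj hf H hk (Val_zero a ha u f) ht (IsE_zero_iff.mpr ht₂)).1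

include hp in
lemma kappa_ne (C : Chart ψ u f τ K) (h : HForm σ B) (hdim : 3 ≤ finrank F V) (H : HP B u f) {a : F} (ha : a + σ a = 0) (ha0 : a ≠ 0) : K 0 a ≠ 0 := by
  have hf := h.toF
  intro e0
  obtain ⟨t, ht⟩ := exists_T hf H.uu ha
  have hV0 := Val_zero (B := B) a ha u f
  have hV' := C.val _ _ hV0
  obtain ⟨t', ht'⟩ := exists_E hf H.uu hV'.1 hV'.2.2
  have e := C.emap _ _ hV0 t t' (IsE_zero_iff.mpr ht) ht'
  rw [C.tau_zero (p := p) h hdim H, e0] at ht'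
  have h1 : t' = 1 := T_zero_one (IsE_zero_iff.mp ht')
  rw [h1, map_one] at e
  exact Pr_T_ne_one (p := p) h (by omega) H.u_ne H.uu ha0 ht ((map_eq_one_iff ψ ψ.injective).mp e)

include hp in
/-- The action of the Levi complement. -/
lemma levi (C : Chart ψ u f τ K) (h : HForm σ B) (hdim : 3 ≤ finrank F V) (H : HP B u f) {g g' : ↥(HGrp B)} (hg : ψ (Pr g) = Pr g') {l l' d d' : F}
    (hl : l ≠ 0) (hl' : l' ≠ 0) (hd : d ≠ 0) (hd' : d' ≠ 0) (h1 : g.1 u = l • u) (h2 : g.1 f = d • f) (h3 : g'.1 u = l' • u) (h4 : g'.1 f = d' • f)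
    {y : V} {k : F} (hV : Val B u f y k) :
    τ (σ l • g.1 y) = σ l' • g'.1 (τ y) ∧ K (σ l • g.1 y) (σ l * l * k) = σ l' * l' * K y k := by
  have hf := h.toF
  have hV₁ := Val_levi h H hV hl hd h1 h2
  have hV₂ := C.val _ _ hV
  have hV₃ := Val_levi h H hV₂ hl' hd' h3 h4
  refine C.eq_of_emap (p := p) h hdim H hV₁ hV₃ ?_
  intro t t' ht ht'
  obtain ⟨t₀, ht₀⟩ := exists_E hf H.uu hV.1 hV.2.2
  obtain ⟨t₀', ht₀'⟩ := exists_E hf H.uu hV₂.1 hV₂.2.2
  have e1 := conj_E g t₀ ht₀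
  rw [h1] at e1
  have e2 := conj_E g' t₀' ht₀'
  rw [h3] at e2
  have e3 : t = g * t₀ * g⁻¹ := IsE.unique' ht (IsE_rescale hf e1)
  have e4 : t' = g' * t₀' * g'⁻¹ := IsE.unique' ht' (IsE_rescale hf e2)
  have e5 := C.emap _ _ hV t₀ t₀' ht₀ ht₀'
  rw [e3, e4]
  simp only [map_mul, map_inv, hg, e5]

end Chart

end

end CfsgLib.PUA
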