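/-
Automorphisms of `PSU_n(q)`: field lemmas.
-/
import Cfsg.Agent.Lib.PSUAut.Rad

set_option autoImplicit false
set_option linter.unusedSimpArgs false
set_option linter.unusedVariables false
set_option linter.unusedSectionVars false
set_option maxHeartbeats 1000000

namespace CfsgLib.PUA

open Module

variable {F : Type*} [Field F] [Finite F]

/-- An additive map with a large set of multiplicative elements is multiplicative. -/
theorem mult_of_elem {q : ℕ} (hF : Nat.card F = q ^ 2) (ρ : F → F) (hadd : ∀ x y, ρ (x + y) = ρ x + ρ y) (h1 : ρ 1 = 1)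
    {x₀ : F} (hx₀ : x₀ ≠ 0) (hx : ∀ y, ρ (x₀ * y) = ρ x₀ * ρ y) (hb : ∀ n : ℕ, 0 < n → x₀ ^ n = 1 → q ≤ n) :
    ∀ x y, ρ (x * y) = ρ x * ρ y := by
  classical
  have h0 : ρ 0 = 0 := by
    have := hadd 0 0
    rw [add_zero] at this
    exact left_eq_add.mp this
  have hneg : ∀ x, ρ (-x) = - ρ x := by
    intro x
    have := hadd x (-x)
    rw [add_neg_cancel, h0] at this
    linear_combination -this
  let T : Subfield F :=
    { carrier := {x | ∀ y, ρ (x * y) = ρ x * ρ y}
      mul_mem' := by
        intro a b ha hb y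
        rw [mul_assoc, ha, hb, ha b]
        ring
      one_mem' := by
        intro y
        rw [one_mul, h1, one_mul]
      add_mem' := by
        intro a b ha hb y
        rw [add_mul, hadd, ha, hb, hadd]
        ring
      zero_mem' := by
        intro y
        rw [zero_mul, h0, zero_mul]
      neg_mem' := by
        intro a ha y
        rw [neg_mul, hneg, ha, hneg]
        ring
      inv_mem' := by
        intro a ha y
        by_cases ha0 : a = 0
        · rw [ha0, inv_zero, zero_mul, h0, zero_mul]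
        have e1 := ha (a⁻¹ * y)
        have e2 := ha a⁻¹
        rw [← mul_assoc, mul_inv_cancel₀ ha0, one_mul] at e1
        rw [mul_inv_cancel₀ ha0, h1] at e2
        have e3 : ρ a ≠ 0 := left_ne_zero_of_mul_eq_one e2.symm
        apply mul_left_cancel₀ e3
        rw [← e1, ← mul_assoc, ← e2, one_mul] }
  have hT : T = ⊤ := by
    by_contra hne
    haveI : Finite T := inferInstance
    haveI : Fintype T := Fintype.ofFinite T
    have hcard := Module.natCard_eq_pow_finrank (K := T) (V := F)
    obtain ⟨z, hz⟩ : ∃ z, z ∉ T := by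
      by_contra hno
      push Not at hno
      exact hne (by
        rw [eq_top_iff]
        exact fun x _ => hno x)
    have hlt : Nat.card T < Nat.card F := by
      have := Finite.card_subtype_lt (p := fun x => x ∈ T) (x := z) hz
      exact this
    have ht2 : 2 ≤ Nat.card T := by
      rw [Nat.card_eq_fintype_card]
      exact Fintype.one_lt_card
    have hr : 2 ≤ finrank T F := by
      by_contra hr
      have h3 : finrank T F = 0 ∨ finrank T F = 1 := by omega
      rcases h3 with h3 | h3
      · rw [h3, pow_zero] at hcard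
        have := Finite.one_lt_card (α := F)
        omega
      · rw [h3, pow_one] at hcard
        omega
    have hle : Nat.card T ≤ q := by
      have h3 : Nat.card T ^ 2 ≤ Nat.card T ^ finrank T F := Nat.pow_le_pow_right (by omega) hr
      rw [← hcard, hF] at h3
      exact (Nat.pow_le_pow_iff_left (by norm_num)).mp h3
    have hmem : x₀ ∈ T := hx
    let X : T := ⟨x₀, hmem⟩
    have hX0 : X ≠ 0 := fun e => hx₀ (congrArg Subtype.val e)
    have hpow := FiniteField.pow_card_sub_one_eq_one X hX0
    have hpow' : x₀ ^ (Fintype.card T - 1) = 1 := by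
      have := congrArg Subtype.val hpow
      simpa [X] using this
    have := hb _ (by rw [← Nat.card_eq_fintype_card]; omega) hpow'
    rw [← Nat.card_eq_fintype_card] at this
    omega
  intro x y
  have : x ∈ T := by
    rw [hT]
    trivial
  exact this y

/-- The element used for the case of dimension at least four. -/
theorem exists_elem4 {q : ℕ} (hF : Nat.card F = q ^ 2) (hq2 : 2 ≤ q) : ∃ l : F, l ≠ 0 ∧ ∀ n : ℕ, 0 < n → (l ^ q / l) ^ n = 1 → q ≤ n := by
  classical
  haveI := Fintype.ofFinite F
  obtain ⟨g, hg⟩ := IsCyclic.exists_generator (α := Fˣ)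
  have hord : orderOf g = q ^ 2 - 1 := by
    rw [orderOf_eq_card_of_forall_mem_zpowers hg, Nat.card_eq_fintype_card, Fintype.card_units, ← Nat.card_eq_fintype_card, hF]
  refine ⟨(g : F), Units.ne_zero _, fun n hn h => ?_⟩
  have e1 : (g : F) ^ q / (g : F) = ((g ^ (q - 1) : Fˣ) : F) := by
    have : q = (q - 1) + 1 := by omega
    conv_lhs => rw [this, pow_succ]
    rw [Units.val_pow_eq_pow_val]
    field_simp
  rw [e1] at h
  have h2 : g ^ ((q - 1) * n) = 1 := by
    rw [pow_mul]
    apply Units.ext
    simpa using h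
  have h3 := orderOf_dvd_of_pow_eq_one h2
  rw [hord] at h3
  have h4 : q ^ 2 - 1 = (q - 1) * (q + 1) := by
    obtain ⟨k, rfl⟩ : ∃ k, q = k + 1 := ⟨q - 1, by omega⟩
    simp only [Nat.add_sub_cancel]
    have : (k + 1) ^ 2 = k * (k + 1 + 1) + 1 := by ring
    omega
  rw [h4] at h3
  have h5 := Nat.dvd_of_mul_dvd_mul_left (by omega) h3
  have := Nat.le_of_dvd hn h5
  omega

/-- The element used for the case of dimension three. -/
theorem exists_elem3 {q : ℕ} (hF : Nat.card F = q ^ 2) (hq3 : 3 ≤ q) : ∃ l : F, l ≠ 0 ∧ ∀ n : ℕ, 0 < n → ((l ^ q) ^ 2 / l) ^ n = 1 → q ≤ n := by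
  classical
  haveI := Fintype.ofFinite F
  obtain ⟨g, hg⟩ := IsCyclic.exists_generator (α := Fˣ)
  have hord : orderOf g = q ^ 2 - 1 := by
    rw [orderOf_eq_card_of_forall_mem_zpowers hg, Nat.card_eq_fintype_card, Fintype.card_units, ← Nat.card_eq_fintype_card, hF]
  refine ⟨(g : F), Units.ne_zero _, fun n hn h => ?_⟩
  have e1 : ((g : F) ^ q) ^ 2 / (g : F) = ((g ^ (2 * q - 1) : Fˣ) : F) := by
    have : 2 * q = (2 * q - 1) + 1 := by omega
    rw [← pow_mul, mul_comm q 2]
    conv_lhs => rw [this, pow_succ]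
    rw [Units.val_pow_eq_pow_val]
    field_simp
  rw [e1] at h
  have h2 : g ^ ((2 * q - 1) * n) = 1 := by
    rw [pow_mul]
    apply Units.ext
    simpa using h
  have h3 := orderOf_dvd_of_pow_eq_one h2
  rw [hord] at h3
  have h5 : (q ^ 2 - 1) ∣ 3 * n := by
    have h6 : (4 * q ^ 2 - 1) * n = (2 * q - 1) * n * (2 * q + 1) := by
      have : 4 * q ^ 2 - 1 = (2 * q - 1) * (2 * q + 1) := by
        obtain ⟨k, rfl⟩ : ∃ k, q = k + 1 := ⟨q - 1, by omega⟩
        have e : 2 * (k + 1) - 1 = 2 * k + 1 := by omega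
        rw [e]
        have : 4 * (k + 1) ^ 2 = (2 * k + 1) * (2 * (k + 1) + 1) + 1 := by ring
        omega
      rw [this]
      ring
    have h7 : (4 * q ^ 2 - 1) * n = 4 * (q ^ 2 - 1) * n + 3 * n := by
      have : 4 * q ^ 2 - 1 = 4 * (q ^ 2 - 1) + 3 := by
        have : 1 ≤ q ^ 2 := Nat.one_le_pow _ _ (by omega)
        omega
      rw [this]
      ring
    have h8 : (q ^ 2 - 1) ∣ (4 * q ^ 2 - 1) * n := by
      rw [h6]
      exact Dvd.dvd.mul_right h3 _
    rw [h7] at h8
    exact (Nat.dvd_add_right (Dvd.intro_left 4 rfl |>.mul_right n)).mp h8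
  have h9 := Nat.le_of_dvd (by omega) h5
  by_contra hlt
  have h10 : n + 1 ≤ q := by omega
  have h11 : q ^ 2 ≤ 3 * n + 1 := by omega
  nlinarith

end CfsgLib.PUA
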