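/-
Automorphisms of `PSU_n(q)`: semilinearity on the complement, the case of dimension at least four.
-/
import Cfsg.Agent.Lib.PSUAut.Fld

set_option autoImplicit false
set_option linter.unusedSimpArgs false
set_option linter.unusedVariables false
set_option linter.unusedSectionVars false
set_option maxHeartbeats 1000000

namespace CfsgLib.PUA

open Module CfsgLib.ClassGeo

variable {F V : Type*} [Field F] [AddCommGroup V] [Module F V] {σ : F →+* F} {B : V →ₛₗ[σ] V →ₗ[F] F}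
variable [FiniteDimensional F V] [Finite F] {p : ℕ} [hp : Fact p.Prime] [CharP F p]

/-- The scaled map of a hyperbolic pair. -/
noncomputable def dlF (B : V →ₛₗ[σ] V →ₗ[F] F) (u f : V) (l : F) : V →ₗ[F] V where
  toFun x := wp B u f x + (l * B f x) • u + ((σ l)⁻¹ * B u x) • f
  map_add' := by
    intro x y
    simp only [wp, map_add, map_sub, add_smul, mul_add]
    abel
  map_smul' := by
    intro c x
    simp only [wp, map_smul, smul_eq_mul, RingHom.id_apply, smul_add, smul_sub, smul_smul, mul_left_comm]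

lemma dlF_apply {u f : V} (l : F) (x : V) : dlF B u f l x = wp B u f x + (l * B f x) • u + ((σ l)⁻¹ * B u x) • f := rfl

lemma dlF_u (hf : FForm σ B) {u f : V} (H : HP B u f) (l : F) : dlF B u f l u = l • u := by
  rw [dlF_apply, wp, H.fu hf, H.uu]
  simp

lemma dlF_f (hf : FForm σ B) {u f : V} (H : HP B u f) (l : F) : dlF B u f l f = (σ l)⁻¹ • f := by
  rw [dlF_apply, wp, H.ff, H.uf]
  simp

lemma dlF_W {u f y : V} (hf : FForm σ B) (l : F) (hyu : B y u = 0) (hyf : B y f = 0) : dlF B u f l y = y := by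
  have e1 := hf.zero_symm hyu
  have e2 := hf.zero_symm hyf
  rw [dlF_apply, wp, e1, e2]
  simp

lemma dlF_iso (hf : FForm σ B) {u f : V} (H : HP B u f) {l : F} (hl : l ≠ 0) (x y : V) :
    B (dlF B u f l x) (dlF B u f l y) = B x y := by
  have hfu := H.fu hf
  have hσl : σ l ≠ 0 := (map_ne_zero σ).mpr hl
  have ex := wp_dec (B := B) (u := u) (f := f) x
  have ey := wp_dec (B := B) (u := u) (f := f) y
  obtain ⟨wx, hwx⟩ : ∃ wx, wx = wp B u f x := ⟨_, rfl⟩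
  obtain ⟨wy, hwy⟩ : ∃ wy, wy = wp B u f y := ⟨_, rfl⟩
  have h1 : B wx u = 0 := by rw [hwx]; exact wp_u hf H x
  have h2 : B wx f = 0 := by rw [hwx]; exact wp_f hf H x
  have h3 : B wy u = 0 := by rw [hwy]; exact wp_u hf H y
  have h4 : B wy f = 0 := by rw [hwy]; exact wp_f hf H y
  have h5 : B u wy = 0 := hf.zero_symm h3
  have h6 : B f wy = 0 := hf.zero_symm h4
  rw [dlF_apply, dlF_apply, ← hwx, ← hwy]
  rw [← hwx] at ex
  rw [← hwy] at ey
  obtain ⟨a, ha⟩ : ∃ a, a = B f x := ⟨_, rfl⟩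
  obtain ⟨b, hb⟩ : ∃ b, b = B u x := ⟨_, rfl⟩
  obtain ⟨a', ha'⟩ : ∃ a', a' = B f y := ⟨_, rfl⟩
  obtain ⟨b', hb'⟩ : ∃ b', b' = B u y := ⟨_, rfl⟩
  rw [← ha, ← hb] at ex ⊢
  rw [← ha', ← hb'] at ey ⊢
  rw [ex, ey]
  simp only [map_add, LinearMap.add_apply, map_smul, LinearMap.map_smulₛₗ₂, smul_eq_mul, h1, h2, h5, h6, H.uu, H.ff, H.uf, hfu, mul_zero, add_zero, zero_add, mul_one, map_mul, map_inv₀, hf.σσ]
  field_simp

/-- The scaled equivalence of a hyperbolic pair. -/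
noncomputable def dlE (hf : FForm σ B) {u f : V} (H : HP B u f) {l : F} (hl : l ≠ 0) : V ≃ₗ[F] V :=
  LinearEquiv.ofInjectiveEndo (dlF B u f l) (by
    rw [← LinearMap.ker_eq_bot, LinearMap.ker_eq_bot']
    intro x hx
    apply hf.sep
    intro y
    rw [← dlF_iso hf H hl x y, hx]
    simp)

lemma dlE_apply (hf : FForm σ B) {u f : V} (H : HP B u f) {l : F} (hl : l ≠ 0) (x : V) : dlE hf H hl x = dlF B u f l x := rfl

include hp in
/-- The torus element on two orthogonal hyperbolic pairs. -/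
theorem exists_levi4 (h : HForm σ B) (hZ : ∀ u z : V, B u u = 0 → B z u = 0 → ZE B u z) {u f t s : V} (H : HP B u f) (H2 : HP B t s)
    (htu : B t u = 0) (htf : B t f = 0) (hsu : B s u = 0) (hsf : B s f = 0) {l : F} (hl : l ≠ 0) :
    ∃ g : ↥(HGrp B), g.1 u = l • u ∧ g.1 f = (σ l)⁻¹ • f ∧ g.1 t = l⁻¹ • t := by
  have hf := h.toF
  obtain ⟨g₁, c, hc, e₁⟩ := exists_move_pt h hZ H.u_ne H.uu H2.u_ne H2.uu
  have hperp : B t (g₁.1 f) ≠ 0 := by
    have e := gm_iso g₁ u f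
    rw [e₁, H.uf] at e
    simp only [LinearMap.map_smulₛₗ₂, smul_eq_mul] at e
    exact right_ne_zero_of_mul_eq_one e
  obtain ⟨g₂, d, hd, e₂, e₃⟩ := exists_move_np h hZ t (g₁.1 f) s H2.uu (by rw [gm_iso, H.ff]) H2.ff hperp (by rw [H2.uf]; exact one_ne_zero)
  obtain ⟨w, hw⟩ : ∃ w, w = g₂ * g₁ := ⟨_, rfl⟩
  have hwu : w.1 u = c • t := by rw [hw, gm_mul, e₁, map_smul, e₂]
  have hwf : w.1 f = d • s := by rw [hw, gm_mul, e₃]
  let r : V ≃ₗ[F] V := dlE hf H hl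
  have hr : ∀ x, r x = dlF B u f l x := fun x => rfl
  have hriso : ∀ x y, B (r x) (r y) = B x y := fun x y => dlF_iso hf H hl x y
  have hrW : ∀ y, B y u = 0 → B y f = 0 → r y = y := fun y h1 h2 => dlF_W hf l h1 h2
  have hrW' : ∀ y, B y u = 0 → B y f = 0 → r⁻¹ y = y := by
    intro y h1 h2
    have e := hrW y h1 h2
    have e2 : r⁻¹ (r y) = y := r.symm_apply_apply y
    rw [e] at e2
    exact e2
  have hru : r u = l • u := dlF_u hf H l
  have hru' : r⁻¹ u = l⁻¹ • u := by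
    have e2 : r⁻¹ (r u) = u := r.symm_apply_apply u
    rw [hru, map_smul] at e2
    calc r⁻¹ u = l⁻¹ • (l • r⁻¹ u) := by rw [smul_smul, inv_mul_cancel₀ hl, one_smul]
      _ = l⁻¹ • u := by rw [e2]
  have hrf : r f = (σ l)⁻¹ • f := dlF_f hf H l
  have hr' : ∀ a b, B (r⁻¹ a) (r⁻¹ b) = B a b := by
    intro a b
    have e := hriso (r⁻¹ a) (r⁻¹ b)
    rw [show r (r⁻¹ a) = a from r.apply_symm_apply a, show r (r⁻¹ b) = b from r.apply_symm_apply b] at e
    exact e.symm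
  have hw' : ∀ a b, B ((w⁻¹).1 a) ((w⁻¹).1 b) = B a b := by
    intro a b
    have e := gm_iso w ((w⁻¹).1 a) ((w⁻¹).1 b)
    rw [gm_inv_l, gm_inv_l] at e
    exact e.symm
  let g₀ : V ≃ₗ[F] V := r * (w.1 * r⁻¹ * (w⁻¹).1)
  have hg₀a : ∀ x, g₀ x = r (w.1 (r⁻¹ ((w⁻¹).1 x))) := fun x => rfl
  have hg₀ : g₀ ∈ HGrp B := by
    rw [mem_HGrp]
    constructor
    · intro x y
      rw [hg₀a, hg₀a, hriso, gm_iso, hr', hw']
    · rw [← LinearEquiv.coe_det]
      have e : LinearEquiv.det g₀ = 1 := by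
        have e1 : (w⁻¹).1 = (w.1)⁻¹ := rfl
        simp only [g₀, e1, map_mul, map_inv]
        rw [mul_inv_cancel_comm, mul_inv_cancel]
      rw [e, Units.val_one]
  have hut : B u t = 0 := hf.zero_symm htu
  have hft : B f t = 0 := hf.zero_symm htf
  have hus : B u s = 0 := hf.zero_symm hsu
  have hfs : B f s = 0 := hf.zero_symm hsf
  refine ⟨⟨g₀, hg₀⟩, ?_, ?_, ?_⟩
  · change g₀ u = _
    rw [hg₀a, hrW' _ (by rw [HGrp_inv_B, hwu]; simp [hut]) (by rw [HGrp_inv_B, hwf]; simp [hus]), gm_inv_l, hru]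
  · change g₀ f = _
    rw [hg₀a, hrW' _ (by rw [HGrp_inv_B, hwu]; simp [hft]) (by rw [HGrp_inv_B, hwf]; simp [hfs]), gm_inv_l, hrf]
  · change g₀ t = _
    have e1 : (w⁻¹).1 t = c⁻¹ • u := by
      have e2 : (w⁻¹).1 (w.1 u) = u := gm_inv_r w u
      rw [hwu, map_smul] at e2
      calc (w⁻¹).1 t = c⁻¹ • (c • (w⁻¹).1 t) := by rw [smul_smul, inv_mul_cancel₀ hc, one_smul]
        _ = c⁻¹ • u := by rw [e2]
    have e4 : r⁻¹ (c⁻¹ • u) = (c⁻¹ * l⁻¹) • u := by rw [map_smul, hru', smul_smul]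
    have e5 : w.1 ((c⁻¹ * l⁻¹) • u) = l⁻¹ • t := by
      rw [map_smul, hwu, smul_smul]
      congr 1
      field_simp
    rw [hg₀a, e1, e4, e5, map_smul, hrW t htu htf]

/-- The context of a normalised automorphism. -/
structure Ctx (h : HForm σ B) (ψ : PG B ≃* PG B) (u f : V) (τ : V → V) (K : V → F → F) : Prop where
  hdim : 3 ≤ finrank F V
  hZ : ∀ u z : V, B u u = 0 → B z u = 0 → ZE B u z
  H : HP B u f
  hu : RM ψ u u
  hf : RM ψ f f
  C : Chart ψ u f τ K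

/-- The conclusion on the complement. -/
structure SemiData (h : HForm σ B) (u f : V) (τ : V → V) (K : V → F → F) (ρ : F ≃+* F) (μ : F) : Prop where
  μ0 : μ ≠ 0
  σμ : σ μ = μ
  sem : ∀ y ∈ WW h.toF u f, ∀ α : F, τ (α • y) = ρ α • τ y
  sim : ∀ x ∈ WW h.toF u f, ∀ y ∈ WW h.toF u f, B (τ x) (τ y) = μ * ρ (B x y)
  Kv : ∀ y k, Val B u f y k → K y k = μ * ρ k

lemma exists_W_partner (h : HForm σ B) {u f t : V} (H : HP B u f) (htu : B t u = 0) (htf : B t f = 0) (ht0 : t ≠ 0) (htt : B t t = 0) :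
    ∃ s, B s u = 0 ∧ B s f = 0 ∧ HP B t s := by
  have hf := h.toF
  obtain ⟨y₀, hy₀⟩ := exists_one h ht0
  obtain ⟨g₀, hg₀⟩ : ∃ g₀, g₀ = wp B u f y₀ := ⟨_, rfl⟩
  have hg₀u : B g₀ u = 0 := by rw [hg₀]; exact wp_u hf H y₀
  have hg₀f : B g₀ f = 0 := by rw [hg₀]; exact wp_f hf H y₀
  have htg₀ : B t g₀ = 1 := by rw [hg₀, B_wp htu htf, hy₀]
  have hg₀t : B g₀ t = 1 := by rw [← hf.symm, htg₀, map_one]
  obtain ⟨c, hc⟩ := hf.trace_surj (-B g₀ g₀) (by rw [map_neg, hf.self_fixed])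
  refine ⟨g₀ + c • t, ?_, ?_, htt, ?_, ?_⟩
  · simp only [map_add, LinearMap.add_apply, LinearMap.map_smulₛₗ₂, hg₀u, htu, smul_eq_mul, mul_zero, add_zero]
  · simp only [map_add, LinearMap.add_apply, LinearMap.map_smulₛₗ₂, hg₀f, htf, smul_eq_mul, mul_zero, add_zero]
  · simp only [map_add, LinearMap.add_apply, map_smul, LinearMap.map_smulₛₗ₂, smul_eq_mul, hg₀t, htg₀, htt, mul_zero, add_zero, mul_one]
    linear_combination hc
  · simp only [map_add, map_smul, htg₀, htt, smul_eq_mul, mul_zero, add_zero]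

/-- Semilinearity along a vector. -/
def Sem (τ : V → V) (t : V) (ρ : F → F) : Prop := ∀ α : F, τ (α • t) = ρ α • τ t

namespace Ctx

variable {h : HForm σ B} {ψ : PG B ≃* PG B} {u f : V} {τ : V → V} {K : V → F → F}

include hp in
/-- The action of a root element of the complement on the chart. -/
lemma trans_formula (X : Ctx h ψ u f τ K) {t t' : V} (htu : B t u = 0) (htf : B t f = 0) (ht0 : t ≠ 0) (htt : B t t = 0) (ht'0 : t' ≠ 0) (ht't' : B t' t' = 0)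
    (hR : RM ψ t t') {c : F} (hc : c + σ c = 0) (hc0 : c ≠ 0) :
    ∃ c' : F, c' ≠ 0 ∧ c' + σ c' = 0 ∧ ∀ y k, Val B u f y k → τ (y + (c * B t y) • t) = τ y + (c' * B t' (τ y)) • t' ∧ K (y + (c * B t y) • t) k = K y k ∧
      Val B u f (y + (c * B t y) • t) k := by
  have hf := h.toF
  have hdim := X.hdim
  have H := X.H
  obtain ⟨g, hg⟩ := exists_T hf htt hc
  obtain ⟨c', g', hg', e⟩ := hR c g hg
  have hc' := RM_ne (p := p) h (by omega) ht0 htt hc0 hg t' hg' e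
  obtain ⟨y₀, hy₀⟩ := exists_one h ht'0
  have hc'' : c' + σ c' = 0 := IsT.trace hf ht't' hg' (fun x y => gm_iso g' x y) hy₀
  have ht'u : B t' u = 0 := (RM_perp (p := p) h (by omega) hR X.hu ht0 htt H.u_ne H.uu ht'0 ht't' H.u_ne H.uu).mp htu
  have ht'f : B t' f = 0 := (RM_perp (p := p) h (by omega) hR X.hf ht0 htt H.f_ne H.ff ht'0 ht't' H.f_ne H.ff).mp htf
  have h1 : g.1 u = (1 : F) • u := by rw [hg, htu]; simp
  have h2 : g.1 f = (1 : F) • f := by rw [hg, htf]; simp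
  have h3 : g'.1 u = (1 : F) • u := by rw [hg', ht'u]; simp
  have h4 : g'.1 f = (1 : F) • f := by rw [hg', ht'f]; simp
  refine ⟨c', hc', hc'', fun y k hV => ?_⟩
  have e1 := X.C.levi (p := p) h hdim H e one_ne_zero one_ne_zero one_ne_zero one_ne_zero h1 h2 h3 h4 hV
  have e2 := Val_levi h H hV one_ne_zero one_ne_zero h1 h2
  simp only [map_one, one_smul, one_mul, hg y, hg' (τ y)] at e1 e2
  exact ⟨e1.1, e1.2, e2⟩

include hp in
/-- Lines of isotropic vectors go to lines. -/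
lemma line (X : Ctx h ψ u f τ K) {t : V} (htu : B t u = 0) (htf : B t f = 0) (ht0 : t ≠ 0) (htt : B t t = 0) :
    RM ψ t (τ t) ∧ B (τ t) (τ t) = 0 ∧ τ t ≠ 0 ∧ ∀ α : F, ∃ β : F, τ (α • t) = β • τ t := by
  have hf := h.toF
  have hdim := X.hdim
  have H := X.H
  have ht : t ∈ WW hf u f := ⟨htu, htf⟩
  obtain ⟨t', ht'0, ht't', hR⟩ := exists_RM (p := p) h hdim ψ ht0 htt
  obtain ⟨c, hc0, hc⟩ := h.exists_anti
  obtain ⟨c', hc', hc'', hform⟩ := X.trans_formula (p := p) htu htf ht0 htt ht'0 ht't' hR hc hc0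
  obtain ⟨s, hsu, hsf, Hs⟩ := exists_W_partner h H htu htf ht0 htt
  have key : ∀ α : F, ∃ β : F, τ (α • t) = β • t' := by
    intro α
    have hy : (α / c) • s ∈ WW hf u f := (WW hf u f).smul_mem _ ⟨hsu, hsf⟩
    obtain ⟨k, hk⟩ := exists_k hf hy.1 hy.2
    have e := (hform _ k hk).1
    have e1 : c * B t ((α / c) • s) = α := by
      rw [map_smul, Hs.uf, smul_eq_mul, mul_one]
      field_simp
    rw [e1] at e
    rw [X.C.add' (p := p) h hdim H hy ((WW hf u f).smul_mem _ ht)] at e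
    exact ⟨_, add_left_cancel e⟩
  have hτ0 : τ t ≠ 0 := fun e => ht0 (X.C.inj (p := p) h hdim H X.hu ht e)
  obtain ⟨β₁, hβ₁⟩ := key 1
  rw [one_smul] at hβ₁
  have hβ₁0 : β₁ ≠ 0 := by
    rintro rfl
    rw [zero_smul] at hβ₁
    exact hτ0 hβ₁
  refine ⟨by rw [hβ₁]; exact hR.smul hβ₁0, by rw [hβ₁]; simp [ht't'], hτ0, fun α => ?_⟩
  obtain ⟨β, hβ⟩ := key α
  refine ⟨β / β₁, ?_⟩
  rw [hβ, hβ₁, smul_smul]
  congr 1
  field_simp

include hp in
lemma exists_sem (X : Ctx h ψ u f τ K) {t : V} (htu : B t u = 0) (htf : B t f = 0) (ht0 : t ≠ 0) (htt : B t t = 0) : ∃ ρ : F → F, Sem τ t ρ := by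
  have := (X.line (p := p) htu htf ht0 htt).2.2.2
  choose ρ hρ using this
  exact ⟨ρ, hρ⟩

include hp in
lemma sem_add (X : Ctx h ψ u f τ K) {t : V} (htu : B t u = 0) (htf : B t f = 0) (ht0 : t ≠ 0) (htt : B t t = 0) {ρ : F → F} (hS : Sem τ t ρ) (a b : F) :
    ρ (a + b) = ρ a + ρ b := by
  have hτ0 := (X.line (p := p) htu htf ht0 htt).2.2.1
  have ht : t ∈ WW h.toF u f := ⟨htu, htf⟩
  have e := hS (a + b)
  rw [add_smul, X.C.add' (p := p) h X.hdim X.H ((WW _ u f).smul_mem _ ht) ((WW _ u f).smul_mem _ ht), hS, hS, ← add_smul] at e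
  exact smul_left_injective F hτ0 e.symm

include hp in
lemma sem_one (X : Ctx h ψ u f τ K) {t : V} (htu : B t u = 0) (htf : B t f = 0) (ht0 : t ≠ 0) (htt : B t t = 0) {ρ : F → F} (hS : Sem τ t ρ) : ρ 1 = 1 := by
  have hτ0 := (X.line (p := p) htu htf ht0 htt).2.2.1
  have e := hS 1
  rw [one_smul] at e
  have e2 : (1 : F) • τ t = ρ 1 • τ t := by rw [one_smul]; exact e
  exact (smul_left_injective F hτ0 e2).symm

include hp in
lemma sem_ne (X : Ctx h ψ u f τ K) {t : V} (htu : B t u = 0) (htf : B t f = 0) (ht0 : t ≠ 0) {ρ : F → F} (hS : Sem τ t ρ) {α : F} (hα : α ≠ 0) : ρ α ≠ 0 := by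
  intro e
  have ht : t ∈ WW h.toF u f := ⟨htu, htf⟩
  have e2 := hS α
  rw [e, zero_smul] at e2
  have := X.C.inj (p := p) h X.hdim X.H X.hu ((WW _ u f).smul_mem α ht) e2
  exact (smul_eq_zero.mp this).elim hα ht0

include hp in
lemma tau_perp (X : Ctx h ψ u f τ K) {t s : V} (htu : B t u = 0) (htf : B t f = 0) (ht0 : t ≠ 0) (htt : B t t = 0)
    (hsu : B s u = 0) (hsf : B s f = 0) (hs0 : s ≠ 0) (hss : B s s = 0) (hts : B t s ≠ 0) : B (τ t) (τ s) ≠ 0 := by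
  obtain ⟨h1, h2, h3, -⟩ := X.line (p := p) htu htf ht0 htt
  obtain ⟨h1', h2', h3', -⟩ := X.line (p := p) hsu hsf hs0 hss
  intro e
  exact hts ((RM_perp (p := p) h (by have := X.hdim; omega) h1 h1' ht0 htt hs0 hss h3 h2 h3' h2').mpr e)

include hp in
/-- The relation between the semilinear parts on two non-orthogonal lines. -/
lemma sem_pair (X : Ctx h ψ u f τ K) {t s : V} (htu : B t u = 0) (htf : B t f = 0) (ht0 : t ≠ 0) (htt : B t t = 0)
    (hsu : B s u = 0) (hsf : B s f = 0) (hs0 : s ≠ 0) (hss : B s s = 0) (hts : B t s ≠ 0) {ρ ρ' : F → F} (hS : Sem τ t ρ) (hS' : Sem τ s ρ') :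
    ∃ α₀ : F, α₀ ≠ 0 ∧ ∀ β, ρ' (β * α₀) = ρ β * ρ' α₀ := by
  have hf := h.toF
  have ht : t ∈ WW hf u f := ⟨htu, htf⟩
  have hs : s ∈ WW hf u f := ⟨hsu, hsf⟩
  obtain ⟨a₀, ha₀, ha₀'⟩ := h.exists_anti
  obtain ⟨b, hb⟩ : ∃ b, b = B t s := ⟨_, rfl⟩
  have hb0 : b ≠ 0 := by rw [hb]; exact hts
  have hst : B s t = σ b := by rw [hb, hf.symm]
  obtain ⟨α₀, hα₀⟩ : ∃ α₀, α₀ = a₀ / b := ⟨_, rfl⟩
  have hα₀0 : α₀ ≠ 0 := by rw [hα₀]; exact div_ne_zero ha₀ hb0
  have ht₃ : t + α₀ • s ∈ WW hf u f := (WW hf u f).add_mem ht ((WW hf u f).smul_mem _ hs)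
  have ht₃₃ : B (t + α₀ • s) (t + α₀ • s) = 0 := by
    simp only [map_add, LinearMap.add_apply, map_smul, LinearMap.map_smulₛₗ₂, smul_eq_mul, htt, hss, hst, ← hb, mul_zero, add_zero, zero_add]
    rw [hα₀, map_div₀]
    have hσb : σ b ≠ 0 := (map_ne_zero σ).mpr hb0
    field_simp
    linear_combination ha₀'
  have ht₃0 : t + α₀ • s ≠ 0 := by
    intro e
    have e1 : B s (t + α₀ • s) = σ b := by
      simp only [map_add, map_smul, smul_eq_mul, hss, hst, mul_zero, add_zero]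
    rw [e, map_zero] at e1
    exact (map_ne_zero σ).mpr hb0 e1.symm
  obtain ⟨ρ₃, hρ₃⟩ := X.exists_sem (p := p) ht₃.1 ht₃.2 ht₃0 ht₃₃
  have hperp := X.tau_perp (p := p) htu htf ht0 htt hsu hsf hs0 hss hts
  obtain ⟨-, hτtt, hτt0, -⟩ := X.line (p := p) htu htf ht0 htt
  refine ⟨α₀, hα₀0, fun β => ?_⟩
  have e := hρ₃ β
  have hadd := fun {x y : V} (hx : x ∈ WW hf u f) (hy : y ∈ WW hf u f) => X.C.add' (p := p) h X.hdim X.H hx hy
  have e1 : β • (t + α₀ • s) = β • t + (β * α₀) • s := by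
    rw [smul_add, smul_smul]
  rw [e1, hadd ((WW hf u f).smul_mem _ ht) ((WW hf u f).smul_mem _ hs), hadd ht ((WW hf u f).smul_mem _ hs), hS, hS', hS'] at e
  have e2 : (ρ β - ρ₃ β) • τ t + (ρ' (β * α₀) - ρ₃ β * ρ' α₀) • τ s = 0 := by
    linear_combination (norm := module) e
  have e3 := congrArg (fun x => B (τ t) x) e2
  simp only [map_add, map_smul, smul_eq_mul, hτtt, mul_zero, zero_add, map_zero] at e3
  have e4 := (mul_eq_zero.mp e3).resolve_right hperp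
  rw [e4, zero_smul, add_zero] at e2
  have e5 := (smul_eq_zero.mp e2).resolve_right hτt0
  have e6 : ρ₃ β = ρ β := (sub_eq_zero.mp e5).symm
  rw [e6] at e4
  exact sub_eq_zero.mp e4

include hp in
/-- The action of the torus on an isotropic line. -/
lemma sem_levi (X : Ctx h ψ u f τ K) {t : V} (htu : B t u = 0) (htf : B t f = 0) (ht0 : t ≠ 0) (htt : B t t = 0) {ρ : F → F} (hS : Sem τ t ρ)
    {l : F} (hl : l ≠ 0) (β : F) : ρ (σ l / l * β) = ρ (σ l / l) * ρ β := by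
  have hf := h.toF
  have H := X.H
  have hdim := X.hdim
  have ht : t ∈ WW hf u f := ⟨htu, htf⟩
  obtain ⟨s, hsu, hsf, Hs⟩ := exists_W_partner h H htu htf ht0 htt
  obtain ⟨g, hgu, hgf, hgt⟩ := exists_levi4 (p := p) h X.hZ H Hs htu htf hsu hsf hl
  obtain ⟨g', hg'⟩ := Pr_surj (ψ (Pr g))
  have hσl : σ l ≠ 0 := (map_ne_zero σ).mpr hl
  obtain ⟨l', hl', hg'u⟩ := levi_lift (p := p) h hdim H.u_ne H.uu H.u_ne H.uu X.hu hg'.symm hgu
  obtain ⟨d', hd', hg'f⟩ := levi_lift (p := p) h hdim H.f_ne H.ff H.f_ne H.ff X.hf hg'.symm hgf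
  have key : ∀ b : F, τ ((σ l / l * b) • t) = σ l' • g'.1 (τ (b • t)) := by
    intro b
    have hb : b • t ∈ WW hf u f := (WW hf u f).smul_mem _ ht
    obtain ⟨k, hk⟩ := exists_k hf hb.1 hb.2
    have e := (X.C.levi (p := p) h hdim H hg'.symm hl hl' (inv_ne_zero hσl) hd' hgu hgf hg'u hg'f hk).1
    have e1 : σ l • g.1 (b • t) = (σ l / l * b) • t := by
      rw [map_smul, hgt, smul_smul, smul_smul]
      congr 1
      field_simp
    rw [e1] at e
    exact e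
  have hτt0 := (X.line (p := p) htu htf ht0 htt).2.2.1
  have e1 := key β
  have e2 := key 1
  rw [mul_one, one_smul] at e2
  rw [hS β, hS, map_smul, smul_comm, ← e2, hS, smul_smul] at e1
  have := smul_left_injective F hτt0 e1
  rw [this]
  ring

include hp in
/-- Semilinear parts are multiplicative. -/
lemma sem_mul (X : Ctx h ψ u f τ K) {q : ℕ} (hσ : ∀ x, σ x = x ^ q) (hF : Nat.card F = q ^ 2) (hq2 : 2 ≤ q) {t : V} (htu : B t u = 0) (htf : B t f = 0) (ht0 : t ≠ 0) (htt : B t t = 0)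
    {ρ : F → F} (hS : Sem τ t ρ) : ∀ x y, ρ (x * y) = ρ x * ρ y := by
  obtain ⟨l, hl, hb⟩ := exists_elem4 hF hq2
  have hσl : σ l ≠ 0 := (map_ne_zero σ).mpr hl
  apply mult_of_elem hF ρ (X.sem_add (p := p) htu htf ht0 htt hS) (X.sem_one (p := p) htu htf ht0 htt hS) (x₀ := σ l / l) (div_ne_zero hσl hl)
    (X.sem_levi (p := p) htu htf ht0 htt hS hl)
  intro n hn hx
  rw [hσ] at hx
  exact hb n hn hx

end Ctx

end CfsgLib.PUA
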