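/-
Automorphisms of `PSU_n(q)`: semilinearity on the complement, the case of dimension at least four, continued.
-/
import Cfsg.Agent.Lib.PSUAut.Semi4

set_option autoImplicit false
set_option linter.unusedSimpArgs false
set_option linter.unusedVariables false
set_option linter.unusedSectionVars false
set_option maxHeartbeats 1000000

namespace CfsgLib.PUA

open Module CfsgLib.ClassGeo

variable {F V : Type*} [Field F] [AddCommGroup V] [Module F V] {σ : F →+* F} {B : V →ₛₗ[σ] V →ₗ[F] F}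
variable [FiniteDimensional F V] [Finite F] {p : ℕ} [hp : Fact p.Prime] [CharP F p]

namespace Ctx

variable {h : HForm σ B} {ψ : PG B ≃* PG B} {u f : V} {τ : V → V} {K : V → F → F}

include hp in
/-- The central coordinate is determined up to an additive function of the complement. -/
lemma K_add_form (X : Ctx h ψ u f τ K) {ρ : F ≃+* F} {μ : F}
    (hsim : ∀ x ∈ WW h.toF u f, ∀ y ∈ WW h.toF u f, B (τ x) (τ y) = μ * ρ (B x y)) :
    ∃ c : V → F, (∀ y k, Val B u f y k → K y k = μ * ρ k + c y) ∧ ∀ y₁ ∈ WW h.toF u f, ∀ y₂ ∈ WW h.toF u f, c (y₁ + y₂) = c y₁ + c y₂ := by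
  classical
  have hf := h.toF
  have H := X.H
  have hdim := X.hdim
  have hfu := H.fu hf
  have hκ : ∀ a : F, a + σ a = 0 → K 0 a = μ * ρ a := by
    intro a ha
    obtain ⟨w, hw0, hwu, hwf⟩ := exists_W h hdim H
    obtain ⟨y, hy⟩ := exists_one h hw0
    obtain ⟨w', hw'⟩ : ∃ w', w' = wp B u f y := ⟨_, rfl⟩
    have hw'u : B w' u = 0 := by rw [hw']; exact wp_u hf H y
    have hw'f : B w' f = 0 := by rw [hw']; exact wp_f hf H y
    have hww' : B w w' = 1 := by rw [hw', B_wp hwu hwf, hy]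
    obtain ⟨e, he⟩ := hf.trace_surj 1 (map_one σ)
    have hσa : σ a = -a := by linear_combination ha
    obtain ⟨s, hs⟩ : ∃ s, s = a * e := ⟨_, rfl⟩
    have hs2 : s - σ s = a := by
      rw [hs, map_mul, hσa]
      linear_combination a * he
    have hy₂ : s • w' ∈ WW hf u f := (WW hf u f).smul_mem _ ⟨hw'u, hw'f⟩
    have e1 := X.C.kappa_comm (p := p) h hdim H (⟨hwu, hwf⟩ : w ∈ WW hf u f) hy₂
    have e2 : B w (s • w') = s := by rw [map_smul, hww', smul_eq_mul, mul_one]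
    have e3 : B (s • w') w = σ s := by rw [← hf.symm, e2]
    rw [e2, e3, hs2, hsim w ⟨hwu, hwf⟩ _ hy₂, hsim _ hy₂ w ⟨hwu, hwf⟩, e2, e3, ← mul_sub, ← map_sub, hs2] at e1
    exact e1
  refine ⟨fun y => if hh : ∃ k, Val B u f y k then K y hh.choose - μ * ρ hh.choose else 0, ?_⟩
  have hc : ∀ y k, Val B u f y k → (if hh : ∃ k, Val B u f y k then K y hh.choose - μ * ρ hh.choose else 0) = K y k - μ * ρ k := by
    intro y k hV
    have hh : ∃ k, Val B u f y k := ⟨k, hV⟩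
    rw [dif_pos hh]
    have hk' := hh.choose_spec
    obtain ⟨k', hk''⟩ : ∃ k', k' = hh.choose := ⟨_, rfl⟩
    rw [← hk''] at hk' ⊢
    have ha : (k - k') + σ (k - k') = 0 := by
      rw [map_sub]
      linear_combination hV.2.2 - hk'.2.2
    have e := X.C.K_shift (p := p) h hdim H hk' ha
    rw [hκ _ ha] at e
    have e1 : k' + (k - k') = k := by ring
    rw [e1] at e
    rw [e, map_sub]
    ring
  constructor
  · intro y k hV
    beta_reduce
    rw [hc y k hV]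
    ring
  · intro y₁ h1 y₂ h2
    obtain ⟨k₁, hk₁⟩ := exists_k hf h1.1 h1.2
    obtain ⟨k₂, hk₂⟩ := exists_k hf h2.1 h2.2
    have e := (X.C.add (p := p) h hdim H hk₁ hk₂).2
    beta_reduce
    rw [hc _ _ hk₁, hc _ _ hk₂, hc _ _ (Val_add hf hk₁ hk₂), e, hsim y₁ h1 y₂ h2, map_sub, map_add]
    ring

include hp in
lemma sem_eq (X : Ctx h ψ u f τ K) {q : ℕ} (hσ : ∀ x, σ x = x ^ q) (hF : Nat.card F = q ^ 2) (hq2 : 2 ≤ q)
    {t s : V} (htu : B t u = 0) (htf : B t f = 0) (ht0 : t ≠ 0) (htt : B t t = 0)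
    (hsu : B s u = 0) (hsf : B s f = 0) (hs0 : s ≠ 0) (hss : B s s = 0) (hts : B t s ≠ 0) {ρ ρ' : F → F} (hS : Sem τ t ρ) (hS' : Sem τ s ρ') (β : F) : ρ' β = ρ β := by
  obtain ⟨α₀, h0, hk⟩ := X.sem_pair (p := p) htu htf ht0 htt hsu hsf hs0 hss hts hS hS'
  have hm := X.sem_mul (p := p) hσ hF hq2 hsu hsf hs0 hss hS'
  have e := hk β
  rw [hm] at e
  exact mul_right_cancel₀ (X.sem_ne (p := p) hsu hsf hs0 hS' h0) e

include hp in
/-- The same semilinear part on all isotropic vectors. -/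
lemma sem_all (X : Ctx h ψ u f τ K) {q : ℕ} (hσ : ∀ x, σ x = x ^ q) (hF : Nat.card F = q ^ 2) (hq2 : 2 ≤ q)
    {t₀ s₀ : V} (H₀ : HP B t₀ s₀) (ht₀u : B t₀ u = 0) (ht₀f : B t₀ f = 0) (hs₀u : B s₀ u = 0) (hs₀f : B s₀ f = 0) {ρ : F → F} (hS : Sem τ t₀ ρ)
    {r : V} (hru : B r u = 0) (hrf : B r f = 0) (hr0 : r ≠ 0) (hrr : B r r = 0) : Sem τ r ρ := by
  have hf := h.toF
  have ht₀0 := H₀.u_ne
  have hs₀0 := H₀.f_ne
  have ht₀ : t₀ ∈ WW hf u f := ⟨ht₀u, ht₀f⟩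
  have hr : r ∈ WW hf u f := ⟨hru, hrf⟩
  have hs₀t₀ : B s₀ t₀ = 1 := H₀.fu hf
  have hS₀ : Sem τ s₀ ρ := by
    obtain ⟨ρ₁, hρ₁⟩ := X.exists_sem (p := p) hs₀u hs₀f hs₀0 H₀.ff
    have e := X.sem_eq (p := p) hσ hF hq2 ht₀u ht₀f ht₀0 H₀.uu hs₀u hs₀f hs₀0 H₀.ff (by rw [H₀.uf]; exact one_ne_zero) hS hρ₁
    intro α
    rw [hρ₁, e]
  obtain ⟨ρ₂, hρ₂⟩ := X.exists_sem (p := p) hru hrf hr0 hrr
  by_cases h1 : B t₀ r = 0
  · by_cases h2 : B s₀ r = 0
    · have hrt₀ : B r t₀ = 0 := hf.zero_symm h1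
      have h3 : B (r + t₀) (r + t₀) = 0 := by
        simp only [map_add, LinearMap.add_apply, hrr, hrt₀, h1, H₀.uu, add_zero]
      have h4 : B s₀ (r + t₀) = 1 := by
        simp only [map_add, h2, hs₀t₀, zero_add]
      have h5 : r + t₀ ≠ 0 := by
        intro e
        rw [e, map_zero] at h4
        exact zero_ne_one h4
      have h6 : r + t₀ ∈ WW hf u f := (WW hf u f).add_mem hr ht₀
      obtain ⟨ρ₃, hρ₃⟩ := X.exists_sem (p := p) h6.1 h6.2 h5 h3
      have e := X.sem_eq (p := p) hσ hF hq2 hs₀u hs₀f hs₀0 H₀.ff h6.1 h6.2 h5 h3 (by rw [h4]; exact one_ne_zero) hS₀ hρ₃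
      intro α
      have e1 := hρ₃ α
      rw [smul_add, X.C.add' (p := p) h X.hdim X.H ((WW hf u f).smul_mem _ hr) ((WW hf u f).smul_mem _ ht₀), hS, e, X.C.add' (p := p) h X.hdim X.H hr ht₀, smul_add] at e1
      exact add_right_cancel e1
    · have e := X.sem_eq (p := p) hσ hF hq2 hs₀u hs₀f hs₀0 H₀.ff hru hrf hr0 hrr h2 hS₀ hρ₂
      intro α
      rw [hρ₂, e]
  · have e := X.sem_eq (p := p) hσ hF hq2 ht₀u ht₀f ht₀0 H₀.uu hru hrf hr0 hrr h1 hS hρ₂
    intro α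
    rw [hρ₂, e]

include hp in
/-- The conclusion in dimension at least four. -/
theorem semi4 (X : Ctx h ψ u f τ K) {q : ℕ} (hσ : ∀ x, σ x = x ^ q) (hF : Nat.card F = q ^ 2) (hq2 : 2 ≤ q) (hd4 : 4 ≤ finrank F V) :
    ∃ (ρ : F ≃+* F) (μ : F), SemiData h u f τ K ρ μ := by
  classical
  have hf := h.toF
  have H := X.H
  have hdim := X.hdim
  have hW : NondegOn B (WW hf u f) := WW_nondeg hf H
  have hk : 2 ≤ finrank F ↥(WW hf u f) := by
    have := WW_finrank hf H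
    omega
  obtain ⟨t₀, ht₀, ht₀0, ht₀₀⟩ := hW.exists_iso_herm h hk
  obtain ⟨s₀, hs₀u, hs₀f, H₀⟩ := exists_W_partner h H ht₀.1 ht₀.2 ht₀0 ht₀₀
  obtain ⟨ρ₀, hρ₀⟩ := X.exists_sem (p := p) ht₀.1 ht₀.2 ht₀0 ht₀₀
  have hadd := X.sem_add (p := p) ht₀.1 ht₀.2 ht₀0 ht₀₀ hρ₀
  have hone := X.sem_one (p := p) ht₀.1 ht₀.2 ht₀0 ht₀₀ hρ₀
  have hmul := X.sem_mul (p := p) hσ hF hq2 ht₀.1 ht₀.2 ht₀0 ht₀₀ hρ₀
  have hzero : ρ₀ 0 = 0 := by
    have := hadd 0 0
    rw [add_zero] at this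
    exact left_eq_add.mp this
  let ρh : F →+* F := { toFun := ρ₀, map_one' := hone, map_mul' := hmul, map_zero' := hzero, map_add' := hadd }
  let ρ : F ≃+* F := RingEquiv.ofBijective ρh ⟨ρh.injective, Finite.surjective_of_injective ρh.injective⟩
  have hρ : ∀ x, ρ x = ρ₀ x := fun x => rfl
  have hρσ : ∀ x, ρ (σ x) = σ (ρ x) := by
    intro x
    rw [hσ, hσ, map_pow]
  have hSall : ∀ r, B r u = 0 → B r f = 0 → r ≠ 0 → B r r = 0 → ∀ α : F, τ (α • r) = ρ α • τ r :=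
    fun r h1 h2 h3 h4 α => X.sem_all (p := p) hσ hF hq2 H₀ ht₀.1 ht₀.2 hs₀u hs₀f hρ₀ h1 h2 h3 h4 α
  have hadd' := fun {x y : V} (hx : x ∈ WW hf u f) (hy : y ∈ WW hf u f) => X.C.add' (p := p) h hdim H hx hy
  -- semilinearity everywhere
  let Y : Submodule F V :=
    { carrier := {y | y ∈ WW hf u f ∧ ∀ α : F, τ (α • y) = ρ α • τ y}
      add_mem' := by
        rintro a b ⟨h1, h2⟩ ⟨h3, h4⟩
        refine ⟨(WW hf u f).add_mem h1 h3, fun α => ?_⟩
        rw [smul_add, hadd' ((WW hf u f).smul_mem _ h1) ((WW hf u f).smul_mem _ h3), h2, h4, hadd' h1 h3, smul_add]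
      zero_mem' := ⟨(WW hf u f).zero_mem, fun α => by rw [smul_zero, X.C.tau_zero (p := p) h hdim H, smul_zero]⟩
      smul_mem' := by
        rintro c a ⟨h1, h2⟩
        refine ⟨(WW hf u f).smul_mem _ h1, fun α => ?_⟩
        rw [smul_smul, h2, h2, map_mul, smul_smul] }
  have hY : ∀ y ∈ WW hf u f, ∀ α : F, τ (α • y) = ρ α • τ y := by
    intro y hy
    have := NondegOn.iso_span h hW hk Y (by
      intro t ht htt
      by_cases ht0 : t = 0
      · rw [ht0]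
        exact Y.zero_mem
      exact ⟨ht, hSall t ht.1 ht.2 ht0 htt⟩) hy
    exact this.2
  -- the multiplier
  have hmu : ∀ r, B r u = 0 → B r f = 0 → r ≠ 0 → B r r = 0 → ∃ μ : F, μ ≠ 0 ∧ σ μ = μ ∧ ∀ y ∈ WW hf u f, B (τ r) (τ y) = μ * ρ (B r y) := by
    intro r hru hrf hr0 hrr
    obtain ⟨hR, hτrr, hτr0, -⟩ := X.line (p := p) hru hrf hr0 hrr
    obtain ⟨c, hc0, hc⟩ := h.exists_anti
    obtain ⟨c', hc', hc'', hform⟩ := X.trans_formula (p := p) hru hrf hr0 hrr hτr0 hτrr hR hc hc0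
    have hσc : σ c = - c := by linear_combination hc
    have hσc' : σ c' = - c' := by linear_combination hc''
    refine ⟨ρ c / c', div_ne_zero ((map_ne_zero ρ).mpr hc0) hc', ?_, fun y hy => ?_⟩
    · rw [map_div₀, ← hρσ, hσc, hσc', map_neg]
      field_simp
    · obtain ⟨k, hk'⟩ := exists_k hf hy.1 hy.2
      have e := (hform y k hk').1
      have hr : r ∈ WW hf u f := ⟨hru, hrf⟩
      rw [hadd' hy ((WW hf u f).smul_mem _ hr), hSall r hru hrf hr0 hrr] at e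
      have e2 := add_left_cancel e
      have e3 := smul_left_injective F hτr0 e2
      rw [map_mul] at e3
      field_simp
      linear_combination -e3
  obtain ⟨μ, hμ0, hσμ, hμ⟩ := hmu t₀ ht₀.1 ht₀.2 ht₀0 ht₀₀
  have hpair : ∀ t s, B t u = 0 → B t f = 0 → B s u = 0 → B s f = 0 → ∀ μt μs : F, σ μt = μt → B t s ≠ 0 →
      (∀ y ∈ WW hf u f, B (τ t) (τ y) = μt * ρ (B t y)) → (∀ y ∈ WW hf u f, B (τ s) (τ y) = μs * ρ (B s y)) → μt = μs := by
    intro t s h1 h2 h3 h4 μt μs h5 h6 h7 h8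
    have e1 := h7 s ⟨h3, h4⟩
    have e2 := h8 t ⟨h1, h2⟩
    rw [← hf.symm, e1, map_mul, h5, ← hρσ, hf.symm] at e2
    have hst : B s t ≠ 0 := by
      intro e
      exact h6 (hf.zero_symm e)
    exact mul_right_cancel₀ ((map_ne_zero ρ).mpr hst) e2
  have hμs : ∀ y ∈ WW hf u f, B (τ s₀) (τ y) = μ * ρ (B s₀ y) := by
    obtain ⟨μ', h1, h2, h3⟩ := hmu s₀ hs₀u hs₀f H₀.f_ne H₀.ff
    have e := hpair t₀ s₀ ht₀.1 ht₀.2 hs₀u hs₀f μ μ' hσμ (by rw [H₀.uf]; exact one_ne_zero) hμ h3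
    rw [← e] at h3
    exact h3
  have hμall : ∀ r, B r u = 0 → B r f = 0 → r ≠ 0 → B r r = 0 → ∀ y ∈ WW hf u f, B (τ r) (τ y) = μ * ρ (B r y) := by
    intro r hru hrf hr0 hrr y hy
    obtain ⟨μ', h1, h2, h3⟩ := hmu r hru hrf hr0 hrr
    by_cases h4 : B t₀ r = 0
    · by_cases h5 : B s₀ r = 0
      · have hrt₀ : B r t₀ = 0 := hf.zero_symm h4
        have h6 : B (r + t₀) (r + t₀) = 0 := by
          simp only [map_add, LinearMap.add_apply, hrr, hrt₀, h4, H₀.uu, add_zero]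
        have h7 : B s₀ (r + t₀) = 1 := by
          simp only [map_add, h5, H₀.fu hf, zero_add]
        have h8 : r + t₀ ≠ 0 := by
          intro e
          rw [e, map_zero] at h7
          exact zero_ne_one h7
        have h9 : r + t₀ ∈ WW hf u f := (WW hf u f).add_mem ⟨hru, hrf⟩ ht₀
        obtain ⟨μ₁, h10, h11, h12⟩ := hmu _ h9.1 h9.2 h8 h6
        have e := hpair s₀ (r + t₀) hs₀u hs₀f h9.1 h9.2 μ μ₁ hσμ (by rw [h7]; exact one_ne_zero) hμs h12
        rw [← e] at h12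
        have e1 := h12 y hy
        rw [hadd' ⟨hru, hrf⟩ ht₀, map_add, LinearMap.add_apply, hμ y hy, map_add, LinearMap.add_apply, map_add, mul_add] at e1
        exact add_right_cancel e1
      · have e := hpair s₀ r hs₀u hs₀f hru hrf μ μ' hσμ h5 hμs h3
        rw [e]
        exact h3 y hy
    · have e := hpair t₀ r ht₀.1 ht₀.2 hru hrf μ μ' hσμ h4 hμ h3
      rw [e]
      exact h3 y hy
  have hsim : ∀ x ∈ WW hf u f, ∀ y ∈ WW hf u f, B (τ x) (τ y) = μ * ρ (B x y) := by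
    intro x hx y hy
    let Y₂ : Submodule F V :=
      { carrier := {z | z ∈ WW hf u f ∧ B (τ z) (τ y) = μ * ρ (B z y)}
        add_mem' := by
          rintro a b ⟨h1, h2⟩ ⟨h3, h4⟩
          refine ⟨(WW hf u f).add_mem h1 h3, ?_⟩
          rw [hadd' h1 h3, map_add, LinearMap.add_apply, h2, h4, map_add, LinearMap.add_apply, map_add, mul_add]
        zero_mem' := ⟨(WW hf u f).zero_mem, by rw [X.C.tau_zero (p := p) h hdim H]; simp⟩
        smul_mem' := by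
          rintro c a ⟨h1, h2⟩
          refine ⟨(WW hf u f).smul_mem _ h1, ?_⟩
          rw [hY a h1, LinearMap.map_smulₛₗ₂, h2, LinearMap.map_smulₛₗ₂, smul_eq_mul, smul_eq_mul, map_mul, hρσ]
          ring }
    have := NondegOn.iso_span h hW hk Y₂ (by
      intro t ht htt
      by_cases ht0 : t = 0
      · rw [ht0]
        exact Y₂.zero_mem
      exact ⟨ht, hμall t ht.1 ht.2 ht0 htt y hy⟩) hx
    exact this.2
  -- the central coordinate
  obtain ⟨c, hc1, hc2⟩ := X.K_add_form (p := p) hsim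
  have hczero : ∀ z ∈ WW hf u f, c 0 = 0 := by
    intro z hz
    have := hc2 0 (WW hf u f).zero_mem 0 (WW hf u f).zero_mem
    rw [add_zero] at this
    exact left_eq_add.mp this
  have hc0 : c 0 = 0 := hczero 0 (WW hf u f).zero_mem
  have hline : ∀ t, B t u = 0 → B t f = 0 → t ≠ 0 → B t t = 0 → ∀ α : F, c (α • t) = 0 := by
    intro t htu htf ht0 htt α
    have ht : t ∈ WW hf u f := ⟨htu, htf⟩
    obtain ⟨hR, hτtt, hτt0, -⟩ := X.line (p := p) htu htf ht0 htt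
    obtain ⟨a, ha0, ha⟩ := h.exists_anti
    obtain ⟨a', -, -, hform⟩ := X.trans_formula (p := p) htu htf ht0 htt hτt0 hτtt hR ha ha0
    obtain ⟨s, hsu, hsf, Hs⟩ := exists_W_partner h H htu htf ht0 htt
    have hy : (α / a) • s ∈ WW hf u f := (WW hf u f).smul_mem _ ⟨hsu, hsf⟩
    obtain ⟨k, hk'⟩ := exists_k hf hy.1 hy.2
    obtain ⟨-, e2, e3⟩ := hform _ k hk'
    have e1 : a * B t ((α / a) • s) = α := by
      rw [map_smul, Hs.uf, smul_eq_mul, mul_one]
      field_simp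
    rw [e1] at e2 e3
    rw [hc1 _ _ e3, hc1 _ _ hk', hc2 _ hy _ ((WW hf u f).smul_mem _ ht)] at e2
    have e4 : μ * ρ k + (c ((α / a) • s) + c (α • t)) = μ * ρ k + c ((α / a) • s) + 0 := by
      rw [add_zero]
      exact e2
    rw [← add_assoc] at e4
    exact add_left_cancel e4
  have hcW : ∀ z ∈ WW hf u f, c z = 0 := by
    intro z hz
    let Y₃ : Submodule F V :=
      { carrier := {z | z ∈ WW hf u f ∧ ∀ α : F, c (α • z) = 0}
        add_mem' := by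
          rintro a b ⟨h1, h2⟩ ⟨h3, h4⟩
          refine ⟨(WW hf u f).add_mem h1 h3, fun α => ?_⟩
          rw [smul_add, hc2 _ ((WW hf u f).smul_mem _ h1) _ ((WW hf u f).smul_mem _ h3), h2, h4, add_zero]
        zero_mem' := ⟨(WW hf u f).zero_mem, fun α => by rw [smul_zero, hc0]⟩
        smul_mem' := by
          rintro d a ⟨h1, h2⟩
          refine ⟨(WW hf u f).smul_mem _ h1, fun α => ?_⟩
          rw [smul_smul, h2] }
    have := NondegOn.iso_span h hW hk Y₃ (by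
      intro t ht htt
      by_cases ht0 : t = 0
      · rw [ht0]
        exact Y₃.zero_mem
      exact ⟨ht, hline t ht.1 ht.2 ht0 htt⟩) hz
    have e := this.2 1
    rwa [one_smul] at e
  refine ⟨ρ, μ, hμ0, hσμ, hY, hsim, fun y k hV => ?_⟩
  rw [hc1 y k hV, hcW y ⟨hV.1, hV.2.1⟩, add_zero]

end Ctx

end CfsgLib.PUA
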