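/-
Automorphisms of `PSU_n(q)`: semilinearity on the complement, the case of dimension three.
-/
import Cfsg.Agent.Lib.PSUAut.Semi4b

set_option autoImplicit false
set_option linter.unusedSimpArgs false
set_option linter.unusedVariables false
set_option linter.unusedSectionVars false
set_option maxHeartbeats 1000000

namespace CfsgLib.PUA

open Module CfsgLib.ClassGeo

variable {F V : Type*} [Field F] [AddCommGroup V] [Module F V] {σ : F →+* F} {B : V →ₛₗ[σ] V →ₗ[F] F}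
variable [FiniteDimensional F V] [Finite F] {p : ℕ} [hp : Fact p.Prime] [CharP F p]

/-- The torus map in dimension three. -/
noncomputable def dmF (B : V →ₛₗ[σ] V →ₗ[F] F) (u f : V) (l m : F) : V →ₗ[F] V where
  toFun x := m • wp B u f x + (l * B f x) • u + ((σ l)⁻¹ * B u x) • f
  map_add' := by
    intro x y
    simp only [wp, map_add, map_sub, add_smul, mul_add, smul_add, smul_sub]
    abel
  map_smul' := by
    intro c x
    simp only [wp, map_smul, smul_eq_mul, RingHom.id_apply, smul_add, smul_sub, smul_smul, mul_left_comm]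
    rw [mul_comm m c]

lemma dmF_apply {u f : V} (l m : F) (x : V) : dmF B u f l m x = m • wp B u f x + (l * B f x) • u + ((σ l)⁻¹ * B u x) • f := rfl

lemma dmF_iso (hf : FForm σ B) {u f : V} (H : HP B u f) {l m : F} (hl : l ≠ 0) (hm : σ m * m = 1) (x y : V) :
    B (dmF B u f l m x) (dmF B u f l m y) = B x y := by
  have hfu := H.fu hf
  have hσl : σ l ≠ 0 := (map_ne_zero σ).mpr hl
  have ex := wp_dec (B := B) (u := u) (f := f) x
  have ey := wp_dec (B := B) (u := u) (f := f) y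
  obtain ⟨wx, hwx⟩ : ∃ wx, wx = wp B u f x := ⟨_, rfl⟩
  obtain ⟨wy, hwy⟩ : ∃ wy, wy = wp B u f y := ⟨_, rfl⟩
  have h1 : B wx u = 0 := by rw [hwx]; exact wp_u hf H x
  have h2 : B wx f = 0 := by rw [hwx]; exact wp_f hf H x
  have h3 : B wy u = 0 := by rw [hwy]; exact wp_u hf H y
  have h4 : B wy f = 0 := by rw [hwy]; exact wp_f hf H y
  have h5 : B u wy = 0 := hf.zero_symm h3
  have h6 : B f wy = 0 := hf.zero_symm h4
  rw [dmF_apply, dmF_apply, ← hwx, ← hwy]
  rw [← hwx] at ex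
  rw [← hwy] at ey
  obtain ⟨a, ha⟩ : ∃ a, a = B f x := ⟨_, rfl⟩
  obtain ⟨b, hb⟩ : ∃ b, b = B u x := ⟨_, rfl⟩
  obtain ⟨a', ha'⟩ : ∃ a', a' = B f y := ⟨_, rfl⟩
  obtain ⟨b', hb'⟩ : ∃ b', b' = B u y := ⟨_, rfl⟩
  rw [← ha, ← hb] at ex ⊢
  rw [← ha', ← hb'] at ey ⊢
  rw [ex, ey]
  simp only [map_add, LinearMap.add_apply, map_smul, LinearMap.map_smulₛₗ₂, smul_eq_mul, h1, h2, h5, h6, H.uu, H.ff, H.uf, hfu, mul_zero, add_zero, zero_add, mul_one, map_mul, map_inv₀, hf.σσ]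
  have e : m * (σ m * B wx wy) = (σ m * m) * B wx wy := by ring
  rw [e, hm, one_mul]
  field_simp

omit hp [CharP F p] [Finite F] in
lemma det_of_diag (b : Basis (Fin 3) F V) (g : V →ₗ[F] V) (d : Fin 3 → F) (hg : ∀ j, g (b j) = d j • b j) :
    LinearMap.det g = d 0 * d 1 * d 2 := by
  rw [← LinearMap.det_toMatrix b g]
  have e : LinearMap.toMatrix b b g = Matrix.diagonal d := by
    ext i j
    rw [LinearMap.toMatrix_apply, hg, map_smul, Basis.repr_self]
    simp only [Finsupp.smul_single, smul_eq_mul, mul_one, Finsupp.single_apply, Matrix.diagonal_apply]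
    by_cases hij : j = i
    · simp [hij]
    · simp [hij, Ne.symm hij]
  rw [e, Matrix.det_diagonal, Fin.prod_univ_three]

omit hp [CharP F p] in
/-- The torus element in dimension three. -/
theorem exists_levi3 (hf : FForm σ B) (hd3 : finrank F V = 3) {u f w : V} (H : HP B u f) (hw0 : w ≠ 0) (hwu : B w u = 0) (hwf : B w f = 0)
    {l : F} (hl : l ≠ 0) : ∃ g : ↥(HGrp B), g.1 u = l • u ∧ g.1 f = (σ l)⁻¹ • f ∧ g.1 w = (σ l / l) • w := by
  have hσl : σ l ≠ 0 := (map_ne_zero σ).mpr hl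
  have hm : σ (σ l / l) * (σ l / l) = 1 := by
    rw [map_div₀, hf.σσ]
    field_simp
  have hfu := H.fu hf
  have huw := hf.zero_symm hwu
  have hfw := hf.zero_symm hwf
  let G : V →ₗ[F] V := dmF B u f l (σ l / l)
  have hG : ∀ x, G x = (σ l / l) • wp B u f x + (l * B f x) • u + ((σ l)⁻¹ * B u x) • f := fun x => rfl
  have hiso : ∀ x y, B (G x) (G y) = B x y := fun x y => dmF_iso hf H hl hm x y
  have hGu : G u = l • u := by
    rw [hG, wp, hfu, H.uu]
    simp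
  have hGf : G f = (σ l)⁻¹ • f := by
    rw [hG, wp, H.ff, H.uf]
    simp
  have hGw : G w = (σ l / l) • w := by
    rw [hG, wp, hfw, huw]
    simp
  let E : V ≃ₗ[F] V := LinearEquiv.ofInjectiveEndo G (by
    rw [← LinearMap.ker_eq_bot, LinearMap.ker_eq_bot']
    intro x hx
    apply hf.sep
    intro y
    rw [← hiso x y, hx]
    simp)
  have hli := li_three hf H hw0 hwu hwf
  let b : Basis (Fin 3) F V := basisOfLinearIndependentOfCardEqFinrank hli (by simp [hd3])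
  have hb : ⇑b = ![u, f, w] := coe_basisOfLinearIndependentOfCardEqFinrank hli _
  have hdet : LinearMap.det G = 1 := by
    rw [det_of_diag b G ![l, (σ l)⁻¹, σ l / l] (by
      intro j
      rw [hb]
      fin_cases j
      · exact hGu
      · exact hGf
      · exact hGw)]
    change l * (σ l)⁻¹ * (σ l / l) = 1
    field_simp
  exact ⟨⟨E, (mem_HGrp).mpr ⟨hiso, hdet⟩⟩, hGu, hGf, hGw⟩

/-- A norm-one element with non-trivial cube. -/
theorem exists_norm_elem {q : ℕ} (hF : Nat.card F = q ^ 2) (hq3 : 3 ≤ q) (hσ : ∀ x, σ x = x ^ q) : ∃ l : F, l ≠ 0 ∧ l * σ l = 1 ∧ σ l * σ l / l ≠ 1 := by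
  classical
  haveI := Fintype.ofFinite F
  obtain ⟨g, hg⟩ := IsCyclic.exists_generator (α := Fˣ)
  have hord : orderOf g = q ^ 2 - 1 := by
    rw [orderOf_eq_card_of_forall_mem_zpowers hg, Nat.card_eq_fintype_card, Fintype.card_units, ← Nat.card_eq_fintype_card, hF]
  have hfac : q ^ 2 - 1 = (q - 1) * (q + 1) := by
    obtain ⟨k, rfl⟩ : ∃ k, q = k + 1 := ⟨q - 1, by omega⟩
    simp only [Nat.add_sub_cancel]
    have : (k + 1) ^ 2 = k * (k + 1 + 1) + 1 := by ring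
    omega
  have h1 : (g ^ (q - 1)) ^ (q + 1) = 1 := by
    rw [← pow_mul, ← hfac, ← hord, pow_orderOf_eq_one]
  have h1' : ((g ^ (q - 1) : Fˣ) : F) * ((g ^ (q - 1) : Fˣ) : F) ^ q = 1 := by
    have := congrArg Units.val h1
    simp only [Units.val_pow_eq_pow_val, Units.val_one] at this ⊢
    rw [← this]
    ring
  refine ⟨((g ^ (q - 1) : Fˣ) : F), Units.ne_zero _, by rw [hσ]; exact h1', ?_⟩
  rw [hσ]
  obtain ⟨L, hL⟩ : ∃ L, L = ((g ^ (q - 1) : Fˣ) : F) := ⟨_, rfl⟩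
  rw [← hL] at h1' ⊢
  have hL0 : L ≠ 0 := by rw [hL]; exact Units.ne_zero _
  intro e
  have e1 : L ^ q = L⁻¹ := eq_inv_of_mul_eq_one_right h1'
  rw [e1] at e
  have e2 : L ^ 3 = 1 := by
    field_simp at e
    have e3 : L ^ 3 * 1 = 1 := by
      linear_combination -e
    linear_combination e3
  have e3 : g ^ ((q - 1) * 3) = 1 := by
    rw [pow_mul]
    apply Units.ext
    simp only [Units.val_pow_eq_pow_val, Units.val_one]
    rw [hL] at e2
    simpa using e2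
  have h4 := orderOf_dvd_of_pow_eq_one e3
  rw [hord, hfac] at h4
  have h5 := Nat.le_of_dvd (by omega) h4
  have h6 : (q - 1) * 3 < (q - 1) * (q + 1) := Nat.mul_lt_mul_of_pos_left (by omega) (by omega)
  omega

namespace Ctx

variable {h : HForm σ B} {ψ : PG B ≃* PG B} {u f : V} {τ : V → V} {K : V → F → F}

include hp in
/-- The conclusion in dimension three. -/
theorem semi3 (X : Ctx h ψ u f τ K) {q : ℕ} (hσ : ∀ x, σ x = x ^ q) (hF : Nat.card F = q ^ 2) (hq3 : 3 ≤ q) (hd3 : finrank F V = 3) :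
    ∃ (ρ : F ≃+* F) (μ : F), SemiData h u f τ K ρ μ := by
  classical
  have hf := h.toF
  have H := X.H
  have hdim := X.hdim
  obtain ⟨w, hw0, hwu, hwf⟩ := exists_W h hdim H
  have hw : w ∈ WW hf u f := ⟨hwu, hwf⟩
  have hline : ∀ y ∈ WW hf u f, ∃ c : F, y = c • w := fun y hy => W_line hf hd3 H hw0 hwu hwf hy.1 hy.2
  have hb0 : B w w ≠ 0 := by
    intro e
    apply hw0
    apply eq_zero_of_W hf H hwu hwf
    intro z h1 h2
    obtain ⟨c, hc⟩ := hline z ⟨h1, h2⟩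
    rw [hc, map_smul, e, smul_zero]
  have hadd' := fun {x y : V} (hx : x ∈ WW hf u f) (hy : y ∈ WW hf u f) => X.C.add' (p := p) h hdim H hx hy
  have hτ0 : τ 0 = 0 := X.C.tau_zero (p := p) h hdim H
  have hτw0 : τ w ≠ 0 := fun e => hw0 (X.C.inj (p := p) h hdim H X.hu hw e)
  obtain ⟨e, he⟩ := hline _ (X.C.mem_W h hw)
  have he0 : e ≠ 0 := by
    rintro rfl
    rw [zero_smul] at he
    exact hτw0 he
  have hρex : ∀ α : F, ∃ β : F, τ (α • w) = β • τ w := by
    intro α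
    obtain ⟨c, hc⟩ := hline _ (X.C.mem_W h ((WW hf u f).smul_mem α hw))
    refine ⟨c / e, ?_⟩
    rw [hc, he, smul_smul]
    congr 1
    field_simp
  choose ρ₀ hρ₀ using hρex
  have hadd : ∀ a b, ρ₀ (a + b) = ρ₀ a + ρ₀ b := by
    intro a b
    have e1 := hρ₀ (a + b)
    rw [add_smul, hadd' ((WW hf u f).smul_mem _ hw) ((WW hf u f).smul_mem _ hw), hρ₀, hρ₀, ← add_smul] at e1
    exact smul_left_injective F hτw0 e1.symm
  have hone : ρ₀ 1 = 1 := by
    have e1 := hρ₀ 1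
    rw [one_smul] at e1
    have e2 : (1 : F) • τ w = ρ₀ 1 • τ w := by rw [one_smul]; exact e1
    exact (smul_left_injective F hτw0 e2).symm
  have hzero : ρ₀ 0 = 0 := by
    have := hadd 0 0
    rw [add_zero] at this
    exact left_eq_add.mp this
  have hlevi : ∀ l : F, l ≠ 0 → ∀ β, ρ₀ ((σ l) ^ 2 / l * β) = ρ₀ ((σ l) ^ 2 / l) * ρ₀ β := by
    intro l hl β
    have hσl : σ l ≠ 0 := (map_ne_zero σ).mpr hl
    obtain ⟨g, hgu, hgf, hgw⟩ := exists_levi3 hf hd3 H hw0 hwu hwf hl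
    obtain ⟨g', hg'⟩ := Pr_surj (ψ (Pr g))
    obtain ⟨l', hl', hg'u⟩ := levi_lift (p := p) h hdim H.u_ne H.uu H.u_ne H.uu X.hu hg'.symm hgu
    obtain ⟨d', hd', hg'f⟩ := levi_lift (p := p) h hdim H.f_ne H.ff H.f_ne H.ff X.hf hg'.symm hgf
    have key : ∀ b : F, τ (((σ l) ^ 2 / l * b) • w) = σ l' • g'.1 (τ (b • w)) := by
      intro b
      have hb : b • w ∈ WW hf u f := (WW hf u f).smul_mem _ hw
      obtain ⟨k, hk⟩ := exists_k hf hb.1 hb.2
      have e := (X.C.levi (p := p) h hdim H hg'.symm hl hl' (inv_ne_zero hσl) hd' hgu hgf hg'u hg'f hk).1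
      have e1 : σ l • g.1 (b • w) = ((σ l) ^ 2 / l * b) • w := by
        rw [map_smul, hgw, smul_smul, smul_smul]
        congr 1
        field_simp
      rw [e1] at e
      exact e
    have e1 := key β
    have e2 := key 1
    rw [mul_one, one_smul] at e2
    rw [hρ₀ β, hρ₀, map_smul, smul_comm, ← e2, hρ₀, smul_smul] at e1
    have := smul_left_injective F hτw0 e1
    rw [this]
    ring
  obtain ⟨l₀, hl₀, hb⟩ := exists_elem3 hF hq3
  have hσl₀ : σ l₀ ≠ 0 := (map_ne_zero σ).mpr hl₀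
  have hmul : ∀ x y, ρ₀ (x * y) = ρ₀ x * ρ₀ y := by
    apply mult_of_elem hF ρ₀ hadd hone (x₀ := (σ l₀) ^ 2 / l₀) (div_ne_zero (pow_ne_zero _ hσl₀) hl₀) (hlevi l₀ hl₀)
    intro n hn hx
    rw [hσ] at hx
    exact hb n hn hx
  let ρh : F →+* F := { toFun := ρ₀, map_one' := hone, map_mul' := hmul, map_zero' := hzero, map_add' := hadd }
  let ρ : F ≃+* F := RingEquiv.ofBijective ρh ⟨ρh.injective, Finite.surjective_of_injective ρh.injective⟩
  have hρ : ∀ x, ρ x = ρ₀ x := fun x => rfl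
  have hρσ : ∀ x, ρ (σ x) = σ (ρ x) := by
    intro x
    rw [hσ, hσ, map_pow]
  have hY : ∀ y ∈ WW hf u f, ∀ α : F, τ (α • y) = ρ α • τ y := by
    intro y hy α
    obtain ⟨c, rfl⟩ := hline y hy
    rw [smul_smul, hρ₀, hρ₀, smul_smul, hρ, hmul]
  have hττ : B (τ w) (τ w) ≠ 0 := by
    rw [he]
    simp only [map_smul, LinearMap.map_smulₛₗ₂, smul_eq_mul]
    exact mul_ne_zero he0 (mul_ne_zero ((map_ne_zero σ).mpr he0) hb0)
  have hρb : ρ (B w w) ≠ 0 := (map_ne_zero ρ).mpr hb0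
  obtain ⟨μ, hμd⟩ : ∃ μ, μ = B (τ w) (τ w) / ρ (B w w) := ⟨_, rfl⟩
  have hμ0 : μ ≠ 0 := by rw [hμd]; exact div_ne_zero hττ hρb
  have hσμ : σ μ = μ := by
    rw [hμd, map_div₀, hf.self_fixed, ← hρσ, hf.self_fixed]
  have hsim : ∀ x ∈ WW hf u f, ∀ y ∈ WW hf u f, B (τ x) (τ y) = μ * ρ (B x y) := by
    intro x hx y hy
    obtain ⟨a, rfl⟩ := hline x hx
    obtain ⟨c, rfl⟩ := hline y hy
    rw [hY _ hw, hY _ hw]
    simp only [map_smul, LinearMap.map_smulₛₗ₂, smul_eq_mul, map_mul]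
    rw [hμd, hρσ]
    field_simp
  obtain ⟨c, hc1, hc2⟩ := X.K_add_form (p := p) hsim
  obtain ⟨l, hl, hlσ, hl3⟩ := exists_norm_elem hF hq3 hσ
  have hσl : σ l ≠ 0 := (map_ne_zero σ).mpr hl
  have hcW : ∀ z ∈ WW hf u f, c z = 0 := by
    intro z hz
    obtain ⟨g, hgu, hgf, hgw⟩ := exists_levi3 hf hd3 H hw0 hwu hwf hl
    obtain ⟨g', hg'⟩ := Pr_surj (ψ (Pr g))
    obtain ⟨l', hl', hg'u⟩ := levi_lift (p := p) h hdim H.u_ne H.uu H.u_ne H.uu X.hu hg'.symm hgu
    obtain ⟨d', hd', hg'f⟩ := levi_lift (p := p) h hdim H.f_ne H.ff H.f_ne H.ff X.hf hg'.symm hgf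
    have key := fun {y : V} {k : F} (hk : Val B u f y k) => (X.C.levi (p := p) h hdim H hg'.symm hl hl' (inv_ne_zero hσl) hd' hgu hgf hg'u hg'f hk).2
    have hN : σ l * l = 1 := by rw [mul_comm]; exact hlσ
    -- the multiplier of the lift is trivial
    obtain ⟨a, ha0, ha⟩ := h.exists_anti
    have hN' : σ l' * l' = 1 := by
      have e := key (Val_zero a ha u f)
      rw [map_zero, smul_zero, hN, one_mul] at e
      have h1 := X.C.kappa_ne (p := p) h hdim H ha ha0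
      have e2 : (σ l' * l' - 1) * K 0 a = 0 := by linear_combination -e
      exact sub_eq_zero.mp ((mul_eq_zero.mp e2).resolve_right h1)
    obtain ⟨ν, hν⟩ : ∃ ν, ν = σ l * σ l / l := ⟨_, rfl⟩
    have hν1 : ν - 1 ≠ 0 := by
      rw [hν]
      exact sub_ne_zero.mpr hl3
    have hact : ∀ y ∈ WW hf u f, σ l • g.1 y = ν • y := by
      intro y hy
      obtain ⟨d, rfl⟩ := hline y hy
      rw [map_smul, hgw, hν]
      simp only [smul_smul]
      congr 1
      field_simp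
    have hy : (ν - 1)⁻¹ • z ∈ WW hf u f := (WW hf u f).smul_mem _ hz
    obtain ⟨y₀, hy₀⟩ : ∃ y₀, y₀ = (ν - 1)⁻¹ • z := ⟨_, rfl⟩
    rw [← hy₀] at hy
    obtain ⟨k, hk⟩ := exists_k hf hy.1 hy.2
    have hV := Val_levi h H hk hl (inv_ne_zero hσl) hgu hgf
    have e1 := key hk
    rw [hN, one_mul, hN', one_mul, hact y₀ hy] at e1
    rw [hN, one_mul, hact y₀ hy] at hV
    rw [hc1 _ _ hV, hc1 _ _ hk] at e1
    have e2 : c (ν • y₀) = c y₀ := add_left_cancel e1
    have e3 : ν • y₀ = z + y₀ := by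
      rw [hy₀, smul_smul]
      have : ν * (ν - 1)⁻¹ = 1 + (ν - 1)⁻¹ := by
        field_simp
        ring
      rw [this, add_smul, one_smul]
    rw [e3, hc2 _ hz _ hy] at e2
    exact add_eq_right.mp e2
  refine ⟨ρ, μ, hμ0, hσμ, hY, hsim, fun y k hV => ?_⟩
  rw [hc1 y k hV, hcW y ⟨hV.1, hV.2.1⟩, add_zero]

end Ctx

end CfsgLib.PUA
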