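/-
Automorphisms of `PSU_n(q)`: every automorphism is induced by a semilinear similarity.
-/
import Cfsg.Agent.Lib.PSUAut.Semi3

set_option autoImplicit false
set_option linter.unusedSimpArgs false
set_option linter.unusedVariables false
set_option linter.unusedSectionVars false
set_option maxHeartbeats 1000000

namespace CfsgLib.PUA

open Module CfsgLib.ClassGeo

variable {F V : Type*} [Field F] [AddCommGroup V] [Module F V] {σ : F →+* F} {B : V →ₛₗ[σ] V →ₗ[F] F}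
variable [FiniteDimensional F V] [Finite F] {p : ℕ} [hp : Fact p.Prime] [CharP F p]

/-- The semilinear map built from the chart. -/
noncomputable def GG (B : V →ₛₗ[σ] V →ₗ[F] F) (u f : V) (τ : V → V) (ρ : F ≃+* F) (μ : F) (x : V) : V :=
  τ (wp B u f x) + (μ * ρ (B f x)) • u + ρ (B u x) • f

namespace Ctx

variable {h : HForm σ B} {ψ : PG B ≃* PG B} {u f : V} {τ : V → V} {K : V → F → F} {ρ : F ≃+* F} {μ : F}

lemma wp_mem (h : HForm σ B) (H : HP B u f) (x : V) : wp B u f x ∈ WW h.toF u f := ⟨wp_u h.toF H x, wp_f h.toF H x⟩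

include hp in
lemma GG_add (X : Ctx h ψ u f τ K) (x y : V) : GG B u f τ ρ μ (x + y) = GG B u f τ ρ μ x + GG B u f τ ρ μ y := by
  have e : wp B u f (x + y) = wp B u f x + wp B u f y := by
    simp only [wp, map_add, add_smul]
    abel
  rw [GG, GG, GG, e, X.C.add' (p := p) h X.hdim X.H (wp_mem h X.H x) (wp_mem h X.H y)]
  simp only [map_add, mul_add, add_smul]
  abel

lemma GG_smul (D : SemiData h u f τ K ρ μ) (H : HP B u f) (c : F) (x : V) : GG B u f τ ρ μ (c • x) = ρ c • GG B u f τ ρ μ x := by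
  have e : wp B u f (c • x) = c • wp B u f x := by
    simp only [wp, map_smul, smul_sub, smul_smul, smul_eq_mul]
  rw [GG, GG, e, D.sem _ (wp_mem h H x)]
  simp only [map_smul, smul_eq_mul, map_mul, smul_add, smul_smul]
  congr 2
  · congr 1
    ring

lemma GG_B (D : SemiData h u f τ K ρ μ) (X : Ctx h ψ u f τ K) (hρσ : ∀ x, ρ (σ x) = σ (ρ x)) (x y : V) :
    B (GG B u f τ ρ μ x) (GG B u f τ ρ μ y) = μ * ρ (B x y) := by
  have hf := h.toF
  have H := X.H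
  have hfu := H.fu hf
  have hwx := wp_mem h H x
  have hwy := wp_mem h H y
  have h1 := X.C.mem_W h hwx
  have h2 := X.C.mem_W h hwy
  have ex := wp_dec (B := B) (u := u) (f := f) x
  have ey := wp_dec (B := B) (u := u) (f := f) y
  have h3 := D.sim _ hwx _ hwy
  have h4 : B u (τ (wp B u f y)) = 0 := hf.zero_symm h2.1
  have h5 : B f (τ (wp B u f y)) = 0 := hf.zero_symm h2.2
  have h6 : B u (wp B u f y) = 0 := hf.zero_symm hwy.1
  have h7 : B f (wp B u f y) = 0 := hf.zero_symm hwy.2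
  have e : B x y = B (wp B u f x) (wp B u f y) + σ (B f x) * B u y + σ (B u x) * B f y := by
    obtain ⟨wx, hwx'⟩ : ∃ wx, wx = wp B u f x := ⟨_, rfl⟩
    obtain ⟨wy, hwy'⟩ : ∃ wy, wy = wp B u f y := ⟨_, rfl⟩
    rw [← hwx'] at ex hwx ⊢
    rw [← hwy'] at ey hwy h6 h7 ⊢
    obtain ⟨a, ha⟩ : ∃ a, a = B f x := ⟨_, rfl⟩
    obtain ⟨b, hb⟩ : ∃ b, b = B u x := ⟨_, rfl⟩
    obtain ⟨a', ha'⟩ : ∃ a', a' = B f y := ⟨_, rfl⟩
    obtain ⟨b', hb'⟩ : ∃ b', b' = B u y := ⟨_, rfl⟩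
    rw [← ha, ← hb] at ex ⊢
    rw [← ha', ← hb'] at ey ⊢
    rw [ex, ey]
    simp only [map_add, LinearMap.add_apply, map_smul, LinearMap.map_smulₛₗ₂, smul_eq_mul, hwx.1, hwx.2, h6, h7, H.uu, H.ff, H.uf, hfu, mul_zero, add_zero, zero_add, mul_one]
    ring
  rw [GG, GG, e]
  simp only [map_add, LinearMap.add_apply, map_smul, LinearMap.map_smulₛₗ₂, smul_eq_mul, h1.1, h1.2, h4, h5, H.uu, H.ff, H.uf, hfu, mul_zero, add_zero, zero_add, mul_one, h3, map_mul, D.σμ, hρσ]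
  ring

lemma GG_W (X : Ctx h ψ u f τ K) {y : V} (hy : y ∈ WW h.toF u f) : GG B u f τ ρ μ y = τ y := by
  have hf := h.toF
  have e1 := hf.zero_symm hy.1
  have e2 := hf.zero_symm hy.2
  rw [GG, wp, e1, e2]
  simp

include hp in
lemma GG_u (X : Ctx h ψ u f τ K) : GG B u f τ ρ μ u = μ • u := by
  have hf := h.toF
  have H := X.H
  have h0 := X.C.tau_zero (p := p) h X.hdim H
  rw [GG, wp, H.fu hf, H.uu]
  have e : u - (1 : F) • u - (0 : F) • f = 0 := by simp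
  rw [e, h0]
  simp

include hp in
lemma GG_f (X : Ctx h ψ u f τ K) : GG B u f τ ρ μ f = f := by
  have hf := h.toF
  have H := X.H
  have h0 := X.C.tau_zero (p := p) h X.hdim H
  rw [GG, wp, H.ff, H.uf]
  have e : f - (0 : F) • u - (1 : F) • f = 0 := by simp
  rw [e, h0]
  simp

include hp in
lemma B_f_GG (D : SemiData h u f τ K ρ μ) (X : Ctx h ψ u f τ K) (hρσ : ∀ x, ρ (σ x) = σ (ρ x)) (x : V) : B f (GG B u f τ ρ μ x) = μ * ρ (B f x) := by
  have e := GG_B D X hρσ f x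
  rwa [X.GG_f (p := p)] at e

include hp in
lemma B_u_GG (D : SemiData h u f τ K ρ μ) (X : Ctx h ψ u f τ K) (hρσ : ∀ x, ρ (σ x) = σ (ρ x)) (x : V) : B u (GG B u f τ ρ μ x) = ρ (B u x) := by
  have e := GG_B D X hρσ u x
  rw [X.GG_u (p := p), LinearMap.map_smulₛₗ₂, D.σμ, smul_eq_mul] at e
  exact mul_left_cancel₀ D.μ0 e

include hp in
lemma E_lift (D : SemiData h u f τ K ρ μ) (X : Ctx h ψ u f τ K) (hρσ : ∀ x, ρ (σ x) = σ (ρ x)) {y : V} {k : F} (hV : Val B u f y k) {t t' : ↥(HGrp B)}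
    (ht : IsE B u y k t.1) (ht' : IsE B u (τ y) (μ * ρ k) t'.1) :
    (∀ x, t'.1 (GG B u f τ ρ μ x) = GG B u f τ ρ μ (t.1 x)) ∧ ψ (Pr t) = Pr t' := by
  have hf := h.toF
  have hy : y ∈ WW hf u f := ⟨hV.1, hV.2.1⟩
  constructor
  · intro x
    have e1 : t.1 x = x + B y x • u + (-B u x) • y + (k * B u x) • u := by
      rw [ht, neg_smul]
      abel
    have hGadd := fun a b => X.GG_add (p := p) (ρ := ρ) (μ := μ) a b
    have hGs := fun c a => GG_smul D X.H c a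
    rw [e1, hGadd, hGadd, hGadd, hGs, hGs, hGs, X.GG_u (p := p), X.GG_W hy, ht']
    have e2 : B (τ y) (GG B u f τ ρ μ x) = μ * ρ (B y x) := by
      rw [← X.GG_W (ρ := ρ) (μ := μ) hy]
      exact GG_B D X hρσ y x
    rw [e2, X.B_u_GG (p := p) D hρσ, map_neg, map_mul]
    module
  · have e := X.C.emap y k hV t t' ht
    rw [D.Kv y k hV] at e
    exact e ht'

lemma exists_E_lift (D : SemiData h u f τ K ρ μ) (X : Ctx h ψ u f τ K) {y : V} {k : F} (hV : Val B u f y k) :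
    ∃ t' : ↥(HGrp B), IsE B u (τ y) (μ * ρ k) t'.1 := by
  have hV' := X.C.val y k hV
  rw [D.Kv y k hV] at hV'
  exact exists_E h.toF X.H.uu hV'.1 hV'.2.2

include hp in
/-- The root groups at `f`. -/
lemma T_f_lift (D : SemiData h u f τ K ρ μ) (X : Ctx h ψ u f τ K) (hρσ : ∀ x, ρ (σ x) = σ (ρ x)) {a : F} (ha : a + σ a = 0) {t : ↥(HGrp B)} (ht : IsT B f a t.1) :
    ∃ t' : ↥(HGrp B), IsT B f (ρ a / μ) t'.1 ∧ ψ (Pr t) = Pr t' := by
  have hf := h.toF
  have H := X.H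
  have hdim := X.hdim
  have hfu := H.fu hf
  by_cases ha0 : a = 0
  · subst ha0
    refine ⟨t, ?_, ?_⟩
    · rw [map_zero, zero_div]
      exact ht
    · rw [T_zero_one ht, map_one, map_one]
  have hσa : σ a = -a := by linear_combination ha
  obtain ⟨c, hc⟩ : ∃ c, c = -a⁻¹ := ⟨_, rfl⟩
  have hc0 : c ≠ 0 := by rw [hc]; exact neg_ne_zero.mpr (inv_ne_zero ha0)
  have hcσ : c + σ c = 0 := by
    rw [hc, map_neg, map_inv₀, hσa, inv_neg]
    ring
  have hac : a * c = -1 := by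
    rw [hc]
    field_simp
  obtain ⟨s, hs⟩ := exists_T hf H.uu hcσ
  have hV0 := Val_zero (B := B) c hcσ u f
  obtain ⟨s', hs'⟩ := exists_E_lift D X hV0
  have es := (E_lift (p := p) D X hρσ hV0 (t := s) (t' := s') (IsE_zero_iff.mpr hs) hs').2
  rw [X.C.tau_zero (p := p) h hdim H] at hs'
  have hs'' := IsE_zero_iff.mp hs'
  obtain ⟨c₁, hc₁⟩ : ∃ c₁, c₁ = μ * ρ c := ⟨_, rfl⟩
  rw [← hc₁] at hs''
  obtain ⟨a₁, t₁, ht₁, e₁⟩ := X.hf a t ht
  obtain ⟨g, hg⟩ : ∃ g, g = s * t * s := ⟨_, rfl⟩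
  obtain ⟨g', hg'⟩ : ∃ g', g' = s' * t₁ * s' := ⟨_, rfl⟩
  have he : ψ (Pr g) = Pr g' := by
    rw [hg, hg']
    simp only [map_mul, es, e₁]
  have hgu : g.1 u = a • f := by
    rw [hg, gm_mul, gm_mul, hs u, H.uu, mul_zero, zero_smul, add_zero, ht u, hfu, mul_one, map_add, hs u, H.uu, mul_zero, zero_smul, add_zero, map_smul, hs f, H.uf, mul_one, smul_add, smul_smul, hac]
    module
  have hg'u : g'.1 u = (1 + a₁ * c₁) • u + a₁ • f := by
    rw [hg', gm_mul, gm_mul, hs'' u, H.uu, mul_zero, zero_smul, add_zero, ht₁ u, hfu, mul_one, map_add, hs'' u, H.uu, mul_zero, zero_smul, add_zero, map_smul, hs'' f, H.uf, mul_one, smul_add, smul_smul]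
    module
  have h1 := X.hu.conj g g' he
  rw [hgu] at h1
  have h2 := X.hf.smul_left a
  obtain ⟨d, hd, hde⟩ := RM_unique (p := p) h hdim (smul_ne_zero ha0 H.f_ne) (by simp [H.ff]) h1 h2 (gm_ne g' H.u_ne) (by rw [gm_iso, H.uu]) H.ff
  rw [hg'u] at hde
  have e3 := congrArg (fun x => B f x) hde
  simp only [map_add, map_smul, smul_eq_mul, hfu, H.ff, mul_one, mul_zero, add_zero] at e3
  have hρc : ρ a * ρ c = -1 := by
    rw [← map_mul, hac, map_neg, map_one]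
  have e4 : a₁ = ρ a / μ := by
    have hμ0 := D.μ0
    rw [hc₁] at e3
    field_simp
    have : a₁ * (μ * ρ c) = -1 := by linear_combination e3
    calc a₁ * μ = a₁ * μ * (-(ρ a * ρ c)) := by rw [hρc]; ring
      _ = - (a₁ * (μ * ρ c)) * ρ a := by ring
      _ = ρ a := by rw [this]; ring
  rw [e4] at ht₁
  exact ⟨t₁, ht₁, e₁⟩

/-- The liftable subgroup. -/
def LS (ψ : PG B ≃* PG B) (G : V → V) : Subgroup ↥(HGrp B) where
  carrier := {g | ∃ g' : ↥(HGrp B), (∀ x, g'.1 (G x) = G (g.1 x)) ∧ ψ (Pr g) = Pr g'}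
  one_mem' := ⟨1, fun x => rfl, by simp⟩
  mul_mem' := by
    rintro a b ⟨a', h1, h2⟩ ⟨b', h3, h4⟩
    refine ⟨a' * b', fun x => ?_, by simp only [map_mul, h2, h4]⟩
    rw [gm_mul, gm_mul, h3, h1]
  inv_mem' := by
    rintro a ⟨a', h1, h2⟩
    refine ⟨a'⁻¹, fun x => ?_, by simp only [map_inv, h2]⟩
    have e := h1 ((a⁻¹).1 x)
    rw [gm_inv_l] at e
    rw [← e, gm_inv_r]

lemma Val_of_iso (hf : FForm σ B) (H : HP B u f) {z : V} (hzz : B z z = 0) (huz : B u z = 1) :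
    Val B u f (f + B f z • u - z) (B f z) ∧ f - (f + B f z • u - z) + B f z • u = z := by
  have hfu := H.fu hf
  obtain ⟨k, hk⟩ : ∃ k, k = B f z := ⟨_, rfl⟩
  rw [← hk]
  obtain ⟨y, hy⟩ : ∃ y, y = f + k • u - z := ⟨_, rfl⟩
  rw [← hy]
  have hzu : B z u = 1 := by rw [← hf.symm, huz, map_one]
  have hzf : B z f = σ k := by rw [hk, hf.symm]
  have h1 : B y u = 0 := by
    rw [hy]
    simp only [map_sub, map_add, LinearMap.sub_apply, LinearMap.add_apply, LinearMap.map_smulₛₗ₂, smul_eq_mul, hfu, H.uu, hzu, mul_zero, add_zero, sub_self]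
  have h2 : B y f = 0 := by
    rw [hy]
    simp only [map_sub, map_add, LinearMap.sub_apply, LinearMap.add_apply, LinearMap.map_smulₛₗ₂, smul_eq_mul, H.ff, H.uf, hzf, mul_one, zero_add, sub_self]
  have e : f - y + k • u = z := by
    rw [hy]
    abel
  refine ⟨⟨h1, h2, ?_⟩, e⟩
  have h3 := hzz
  rw [← e] at h3
  have h4 : B f y = 0 := hf.zero_symm h2
  have h5 : B u y = 0 := hf.zero_symm h1
  simp only [map_sub, map_add, map_smul, LinearMap.sub_apply, LinearMap.add_apply, LinearMap.map_smulₛₗ₂, smul_eq_mul, H.ff, H.uf, H.uu, hfu, h1, h2, h4, h5, mul_zero, mul_one, sub_zero, add_zero, zero_add, zero_sub, sub_neg_eq_add] at h3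
  linear_combination h3

include hp in
/-- Transvections are liftable. -/
theorem T_mem_LS (D : SemiData h u f τ K ρ μ) (X : Ctx h ψ u f τ K) (hρσ : ∀ x, ρ (σ x) = σ (ρ x)) {v : V} {a : F} (hv : v ≠ 0) (hvv : B v v = 0) (ha : a + σ a = 0)
    {t : ↥(HGrp B)} (ht : IsT B v a t.1) : t ∈ LS ψ (GG B u f τ ρ μ) := by
  have hf := h.toF
  have H := X.H
  have hdim := X.hdim
  have hfu := H.fu hf
  -- root groups at `f`
  have hTf : ∀ (b : F) (s : ↥(HGrp B)), b + σ b = 0 → IsT B f b s.1 → s ∈ LS ψ (GG B u f τ ρ μ) := by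
    intro b s hb hs
    obtain ⟨s', hs', e⟩ := T_f_lift (p := p) D X hρσ hb hs
    refine ⟨s', fun x => ?_, e⟩
    rw [hs', hs, X.B_f_GG (p := p) D hρσ, X.GG_add (p := p), GG_smul D X.H, X.GG_f (p := p), map_mul]
    congr 2
    field_simp [D.μ0]
  have hE : ∀ (y : V) (k : F) (s : ↥(HGrp B)), Val B u f y k → IsE B u y k s.1 → s ∈ LS ψ (GG B u f τ ρ μ) := by
    intro y k s hV hs
    obtain ⟨s', hs'⟩ := exists_E_lift D X hV
    obtain ⟨h1, h2⟩ := E_lift (p := p) D X hρσ hV hs hs'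
    exact ⟨s', h1, h2⟩
  -- root groups away from `u`
  have hTz : ∀ (z : V) (b : F) (s : ↥(HGrp B)), B z z = 0 → B u z ≠ 0 → b + σ b = 0 → IsT B z b s.1 → s ∈ LS ψ (GG B u f τ ρ μ) := by
    intro z b s hzz huz hb hs
    obtain ⟨β, hβ⟩ : ∃ β, β = B u z := ⟨_, rfl⟩
    have hβ0 : β ≠ 0 := by rw [hβ]; exact huz
    have hσβ : σ β ≠ 0 := (map_ne_zero σ).mpr hβ0
    have hz₁ : B (β⁻¹ • z) (β⁻¹ • z) = 0 := by simp [hzz]
    have hu₁ : B u (β⁻¹ • z) = 1 := by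
      rw [map_smul, ← hβ, smul_eq_mul, inv_mul_cancel₀ hβ0]
    obtain ⟨hV, hrep⟩ := Val_of_iso hf H hz₁ hu₁
    obtain ⟨r, hr⟩ := exists_E hf H.uu hV.1 hV.2.2
    have hrf : r.1 f = β⁻¹ • z := by
      rw [IsE_app_f hf H hV hr, hrep]
    have hb₁ : (b * σ β * β) + σ (b * σ β * β) = 0 := by
      simp only [map_mul, hf.σσ]
      linear_combination (σ β * β) * hb
    obtain ⟨s₁, hs₁⟩ := exists_T hf H.ff hb₁
    have e1 := conj_T r s₁ hs₁
    rw [hrf] at e1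
    have e2 : s = r * s₁ * r⁻¹ := by
      apply IsT.unique (v := β⁻¹ • z) (a := b * σ β * β) _ e1
      intro x
      rw [hs]
      simp only [LinearMap.map_smulₛₗ₂, smul_eq_mul, smul_smul, map_inv₀]
      congr 2
      field_simp
    rw [e2]
    exact (LS ψ _).mul_mem ((LS ψ _).mul_mem (hE _ _ r hV hr) (hTf _ s₁ hb₁ hs₁)) ((LS ψ _).inv_mem (hE _ _ r hV hr))
  by_cases huv : B u v = 0
  · -- an isotropic vector away from `u` and not orthogonal to `v`
    obtain ⟨z, hzz, huz, hzv⟩ : ∃ z, B z z = 0 ∧ B u z ≠ 0 ∧ B z v ≠ 0 := by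
      by_cases hfv : B f v = 0
      · have hvW : v ∈ WW hf u f := ⟨hf.zero_symm huv, hf.zero_symm hfv⟩
        obtain ⟨y₀, hy₀⟩ := exists_one h hv
        obtain ⟨y, hy⟩ : ∃ y, y = wp B u f y₀ := ⟨_, rfl⟩
        have hyW : y ∈ WW hf u f := by rw [hy]; exact wp_mem h H y₀
        have hvy : B v y = 1 := by rw [hy, B_wp hvW.1 hvW.2, hy₀]
        have hyv : B y v = 1 := by rw [← hf.symm, hvy, map_one]
        obtain ⟨k, hk⟩ := exists_k hf hyW.1 hyW.2
        obtain ⟨r, hr⟩ := exists_E hf H.uu hk.1 hk.2.2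
        have hrf := IsE_app_f hf H hk hr
        refine ⟨r.1 f, by rw [gm_iso, H.ff], ?_, ?_⟩
        · rw [hrf]
          simp only [map_add, map_sub, map_smul, smul_eq_mul, H.uf, H.uu, hf.zero_symm hyW.1, mul_zero, sub_zero, add_zero]
          exact one_ne_zero
        · rw [hrf]
          simp only [map_add, map_sub, LinearMap.add_apply, LinearMap.sub_apply, LinearMap.map_smulₛₗ₂, smul_eq_mul, hfv, hyv, hvW.1, huv, mul_zero, add_zero, zero_sub]
          exact neg_ne_zero.mpr one_ne_zero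
      · exact ⟨f, H.ff, by rw [H.uf]; exact one_ne_zero, hfv⟩
    obtain ⟨c, hc0, hc⟩ := h.exists_anti
    obtain ⟨r, hr⟩ := exists_T hf hzz hc
    have hr1 := hTz z c r hzz huz hc hr
    have e1 := conj_T r t ht
    have e2 : r.1 v = v + (c * B z v) • z := hr v
    have huw : B u (r.1 v) ≠ 0 := by
      rw [e2]
      simp only [map_add, map_smul, smul_eq_mul, huv, zero_add]
      exact mul_ne_zero (mul_ne_zero hc0 hzv) huz
    have h3 := hTz _ a _ (by rw [gm_iso, hvv]) huw ha e1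
    have e3 : t = r⁻¹ * (r * t * r⁻¹) * r := by group
    rw [e3]
    exact (LS ψ _).mul_mem ((LS ψ _).mul_mem ((LS ψ _).inv_mem hr1) h3) hr1
  · exact hTz v a t hvv huv ha ht

end Ctx

include hp in
/-- The main theorem: every automorphism is induced by a semilinear similarity. -/
theorem main_abs (h : HForm σ B) (hdim : 3 ≤ finrank F V) (hZ : ∀ u z : V, B u u = 0 → B z u = 0 → ZE B u z)
    (hU : ∀ g : ↥(HGrp B), g.1 ∈ UT B) {q : ℕ} (hσ : ∀ x, σ x = x ^ q) (hF : Nat.card F = q ^ 2) (hq2 : 2 ≤ q) (hq3 : finrank F V = 3 → 3 ≤ q) (ψ : PG B ≃* PG B) :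
    ∃ (ρ : F ≃+* F) (μ : F) (G : V → V), μ ≠ 0 ∧ σ μ = μ ∧ (∀ x y, G (x + y) = G x + G y) ∧ (∀ (c : F) x, G (c • x) = ρ c • G x) ∧
      (∀ x y, B (G x) (G y) = μ * ρ (B x y)) ∧ ∀ g : ↥(HGrp B), ∃ g' : ↥(HGrp B), (∀ x, g'.1 (G x) = G (g.1 x)) ∧ ψ (Pr g) = Pr g' := by
  have hf := h.toF
  have hT : NondegOn B (⊤ : Submodule F V) := fun x _ hx => h.sep x (fun y => hx y trivial)
  obtain ⟨u, -, hu0, huu⟩ := hT.exists_iso_herm h (by rw [finrank_top]; omega)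
  obtain ⟨f, H⟩ := exists_partner h hu0 huu
  obtain ⟨g₀, h1, h2⟩ := exists_normalised (p := p) h hdim hZ ψ H
  obtain ⟨τ, K, C⟩ := exists_chart (p := p) h hdim H h1
  have X : Ctx h (ψ.trans (cj g₀)) u f τ K := ⟨hdim, hZ, H, h1, h2, C⟩
  obtain ⟨ρ, μ, D⟩ : ∃ (ρ : F ≃+* F) (μ : F), SemiData h u f τ K ρ μ := by
    by_cases hd : finrank F V = 3
    · exact X.semi3 (p := p) hσ hF (hq3 hd) hd
    · exact X.semi4 (p := p) hσ hF hq2 (by omega)
  have hρσ : ∀ x, ρ (σ x) = σ (ρ x) := by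
    intro x
    rw [hσ, hσ, map_pow]
  have hLS : ∀ p₁ : V ≃ₗ[F] V, p₁ ∈ UT B → ∀ hg : p₁ ∈ HGrp B, (⟨p₁, hg⟩ : ↥(HGrp B)) ∈ Ctx.LS (ψ.trans (cj g₀)) (GG B u f τ ρ μ) := by
    intro p₁ hm
    induction hm using Subgroup.closure_induction with
    | mem p₂ hmem =>
      obtain ⟨v, a, hv, ha, hp₂⟩ := hmem
      intro hg
      by_cases hv0 : v = 0
      · have e : (⟨p₂, hg⟩ : ↥(HGrp B)) = 1 := by
          apply gm_ext
          intro x
          change p₂ x = x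
          rw [hp₂, hv0]
          simp
        rw [e]
        exact Subgroup.one_mem _
      · exact X.T_mem_LS (p := p) D hρσ hv0 hv ha (t := ⟨p₂, hg⟩) hp₂
    | one =>
      intro hg
      exact Subgroup.one_mem _
    | mul a b ha hb h3 h4 =>
      intro hg
      exact Subgroup.mul_mem _ (h3 (UT_le_HGrp hf ha)) (h4 (UT_le_HGrp hf hb))
    | inv a ha h3 =>
      intro hg
      exact Subgroup.inv_mem _ (h3 (UT_le_HGrp hf ha))
  refine ⟨ρ, μ, fun x => (g₀⁻¹).1 (GG B u f τ ρ μ x), D.μ0, D.σμ, ?_, ?_, ?_, ?_⟩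
  · intro x y
    beta_reduce
    rw [X.GG_add (p := p), map_add]
  · intro c x
    beta_reduce
    rw [Ctx.GG_smul D H, map_smul]
  · intro x y
    beta_reduce
    rw [gm_iso]
    exact Ctx.GG_B D X hρσ x y
  · intro g
    obtain ⟨g', hg', e⟩ := hLS g.1 (hU g) g.2
    refine ⟨g₀⁻¹ * g' * g₀, fun x => ?_, ?_⟩
    · rw [gm_mul, gm_mul, gm_inv_l, hg']
    · have e1 : Pr g₀ * ψ (Pr g) * (Pr g₀)⁻¹ = Pr g' := e
      simp only [map_mul, map_inv]
      rw [← e1]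
      group

end CfsgLib.PUA
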