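/-
The automorphisms of `PSU_n(q)` induced by general unitary matrices and field automorphisms.
-/
import Cfsg.Agent.Lib.PSUAut.Final
import Cfsg.Agent.Lib.ClassGeo.UGU
import Cfsg.Prelude.Def_LieTypeDatum

set_option autoImplicit false
set_option linter.unusedSimpArgs false
set_option linter.unusedVariables false
set_option linter.unusedSectionVars false
set_option maxHeartbeats 1000000

namespace CfsgLib.PUA

open Matrix Cfsg CfsgLib.ClassGeo

variable {F : Type*} [Field F] {n q : ℕ}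

local notation "MM" => Matrix (Fin n) (Fin n) F

/-- The general unitary group as a type. -/
abbrev GUt (n : ℕ) (F : Type*) [Field F] (q : ℕ) := ↥(GU n F q)

/-- The special unitary group as a type. -/
abbrev SUt (n : ℕ) (F : Type*) [Field F] (q : ℕ) := ↥(SU n F q)

/-- The projection to `PSU`. -/
noncomputable def Pu : SUt n F q →* PSU n F q := QuotientGroup.mk' _

lemma Pu_surj : Function.Surjective (Pu : SUt n F q →* PSU n F q) := QuotientGroup.mk'_surjective _

lemma su_ext {a b : SUt n F q} (h : a.1.1 = b.1.1) : a = b := Subtype.ext (Subtype.ext h)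

lemma conj_det (g : GL (Fin n) F) (s : Matrix.SpecialLinearGroup (Fin n) F) : (g.1 * s.1 * (g⁻¹).1).det = 1 := by
  rw [Matrix.det_mul, Matrix.det_mul, s.2, mul_one, ← Matrix.det_mul, ← Units.val_mul, mul_inv_cancel, Units.val_one, Matrix.det_one]

lemma conj_pres (g : GUt n F q) (s : SUt n F q) (u v : Fin n → F) :
    hermForm n F q ((g.1.1 * s.1.1 * (g.1⁻¹).1) *ᵥ u) ((g.1.1 * s.1.1 * (g.1⁻¹).1) *ᵥ v) = hermForm n F q u v := by
  have hgi : ∀ x, g.1.1 *ᵥ ((g.1⁻¹).1 *ᵥ x) = x := by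
    intro x
    rw [mulVec_mulVec, ← Units.val_mul, mul_inv_cancel, Units.val_one, one_mulVec]
  simp only [← mulVec_mulVec]
  have hg : ∀ a b, hermForm n F q (g.1.1 *ᵥ a) (g.1.1 *ᵥ b) = hermForm n F q a b := g.2
  have hs : ∀ a b, hermForm n F q (s.1.1 *ᵥ a) (s.1.1 *ᵥ b) = hermForm n F q a b := s.2
  rw [hg, hs, ← hg, hgi, hgi]

/-- Conjugation by a general unitary matrix. -/
noncomputable def conjH (g : GUt n F q) : SUt n F q →* SUt n F q where
  toFun s := ⟨⟨g.1.1 * s.1.1 * (g.1⁻¹).1, conj_det g.1 s.1⟩, fun u v => conj_pres g s u v⟩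
  map_one' := by
    apply su_ext
    change g.1.1 * (1 : MM) * (g.1⁻¹).1 = 1
    simp
  map_mul' a b := by
    apply su_ext
    change g.1.1 * (a.1.1 * b.1.1) * (g.1⁻¹).1 = g.1.1 * a.1.1 * (g.1⁻¹).1 * (g.1.1 * b.1.1 * (g.1⁻¹).1)
    have e : (g.1⁻¹).1 * g.1.1 = 1 := by rw [← Units.val_mul, inv_mul_cancel, Units.val_one]
    calc g.1.1 * (a.1.1 * b.1.1) * (g.1⁻¹).1 = g.1.1 * a.1.1 * ((1 : MM) * b.1.1) * (g.1⁻¹).1 := by
          simp [mul_assoc]
      _ = _ := by rw [← e]; simp only [mul_assoc]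

lemma conjH_val (g : GUt n F q) (s : SUt n F q) : (conjH g s).1.1 = g.1.1 * s.1.1 * (g.1⁻¹).1 := rfl

lemma conjH_mul (g h : GUt n F q) (s : SUt n F q) : conjH (g * h) s = conjH g (conjH h s) := by
  apply su_ext
  rw [conjH_val, conjH_val, conjH_val]
  have e : ((g * h).1⁻¹).1 = (h.1⁻¹).1 * (g.1⁻¹).1 := by
    rw [Subgroup.coe_mul, _root_.mul_inv_rev, Units.val_mul]
  rw [e, Subgroup.coe_mul, Units.val_mul]
  simp only [mul_assoc]

lemma conjH_one (s : SUt n F q) : conjH (1 : GUt n F q) s = s := by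
  apply su_ext
  rw [conjH_val]
  change (1 : MM) * s.1.1 * ((1 : GL (Fin n) F)⁻¹).1 = s.1.1
  simp

/-- Conjugation as an equivalence. -/
noncomputable def conjE (g : GUt n F q) : SUt n F q ≃* SUt n F q where
  toFun := conjH g
  invFun := conjH g⁻¹
  left_inv s := by
    rw [← conjH_mul, inv_mul_cancel, conjH_one]
  right_inv s := by
    rw [← conjH_mul, mul_inv_cancel, conjH_one]
  map_mul' := map_mul _

lemma herm_map (ρ : F ≃+* F) (u v : Fin n → F) :
    hermForm n F q (fun k => ρ (u k)) (fun k => ρ (v k)) = ρ (hermForm n F q u v) := by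
  simp only [hermForm, map_sum, map_mul, map_pow]

lemma map_mulVec_fun (ρ : F ≃+* F) (M : MM) (x : Fin n → F) : M.map (ρ : F →+* F) *ᵥ (fun k => ρ (x k)) = fun k => ρ ((M *ᵥ x) k) := by
  funext k
  have := RingHom.map_mulVec (ρ : F →+* F) M x k
  simp only [RingEquiv.coe_toRingHom] at this ⊢
  exact this.symm

lemma map_pres (ρ : F ≃+* F) (M : MM) (hM : ∀ u v, hermForm n F q (M *ᵥ u) (M *ᵥ v) = hermForm n F q u v) (u v : Fin n → F) :
    hermForm n F q (M.map (ρ : F →+* F) *ᵥ u) (M.map (ρ : F →+* F) *ᵥ v) = hermForm n F q u v := by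
  have e : ∀ x : Fin n → F, x = fun k => ρ ((fun k => ρ.symm (x k)) k) := by
    intro x
    funext k
    simp
  rw [e u, e v, map_mulVec_fun, map_mulVec_fun, herm_map, herm_map, hM]

lemma map_det_one (ρ : F ≃+* F) (s : Matrix.SpecialLinearGroup (Fin n) F) : (s.1.map (ρ : F →+* F)).det = 1 := by
  have := RingHom.map_det (ρ : F →+* F) s.1
  rw [s.2, map_one] at this
  exact this.symm

/-- The field map on the special unitary group. -/
noncomputable def fldH (ρ : F ≃+* F) : SUt n F q →* SUt n F q where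
  toFun s := ⟨⟨s.1.1.map (ρ : F →+* F), map_det_one ρ s.1⟩, fun u v => map_pres ρ s.1.1 s.2 u v⟩
  map_one' := by
    apply su_ext
    change (1 : MM).map (ρ : F →+* F) = 1
    simp
  map_mul' a b := by
    apply su_ext
    change (a.1.1 * b.1.1).map (ρ : F →+* F) = a.1.1.map (ρ : F →+* F) * b.1.1.map (ρ : F →+* F)
    rw [Matrix.map_mul]

lemma fldH_val (ρ : F ≃+* F) (s : SUt n F q) : (fldH ρ s).1.1 = s.1.1.map (ρ : F →+* F) := rfl

lemma fldH_mul (σ τ : RingAut F) (s : SUt n F q) : fldH (σ * τ) s = fldH σ (fldH τ s) := by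
  apply su_ext
  rw [fldH_val, fldH_val, fldH_val]
  ext a b
  rfl

lemma fldH_one (s : SUt n F q) : fldH (1 : RingAut F) s = s := by
  apply su_ext
  rw [fldH_val]
  ext a b
  rfl

/-- The field map as an equivalence. -/
noncomputable def fldE (σ : RingAut F) : SUt n F q ≃* SUt n F q where
  toFun := fldH σ
  invFun := fldH σ⁻¹
  left_inv s := by
    rw [← fldH_mul, inv_mul_cancel, fldH_one]
  right_inv s := by
    rw [← fldH_mul, mul_inv_cancel, fldH_one]
  map_mul' := map_mul _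

/-- Descent to `PSU`. -/
noncomputable def descS (e : SUt n F q ≃* SUt n F q) : PSU n F q ≃* PSU n F q :=
  QuotientGroup.congr _ _ e (map_center_of_equiv e)

/-- The automorphism induced by a general unitary matrix. -/
noncomputable def cU (g : GUt n F q) : MulAut (PSU n F q) := descS (conjE g)

/-- The field automorphism. -/
noncomputable def fU (σ : RingAut F) : MulAut (PSU n F q) := descS (fldE σ)

lemma cU_Pu (g : GUt n F q) (s : SUt n F q) : cU g (Pu s) = Pu (conjH g s) := rfl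
lemma fU_Pu (σ : RingAut F) (s : SUt n F q) : fU σ (Pu s) = Pu (fldH σ s) := rfl

lemma cU_mul (g h : GUt n F q) : cU (g * h) = cU g * cU h := by
  ext x
  obtain ⟨s, rfl⟩ := Pu_surj x
  change Pu (conjH (g * h) s) = Pu (conjH g (conjH h s))
  rw [conjH_mul]

lemma cU_one : cU (1 : GUt n F q) = 1 := by
  ext x
  obtain ⟨s, rfl⟩ := Pu_surj x
  change Pu (conjH 1 s) = Pu s
  rw [conjH_one]

lemma cU_inv (g : GUt n F q) : (cU g)⁻¹ = cU g⁻¹ := by
  apply inv_eq_of_mul_eq_one_right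
  rw [← cU_mul, mul_inv_cancel, cU_one]

/-- The homomorphism from the general unitary group. -/
noncomputable def cUHom : GUt n F q →* MulAut (PSU n F q) where
  toFun := cU
  map_one' := cU_one
  map_mul' := cU_mul

lemma fU_mul (σ τ : RingAut F) : (fU (σ * τ) : MulAut (PSU n F q)) = fU σ * fU τ := by
  ext x
  obtain ⟨s, rfl⟩ := Pu_surj x
  change Pu (fldH (σ * τ) s) = Pu (fldH σ (fldH τ s))
  rw [fldH_mul]

lemma fU_one : (fU (1 : RingAut F) : MulAut (PSU n F q)) = 1 := by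
  ext x
  obtain ⟨s, rfl⟩ := Pu_surj x
  change Pu (fldH 1 s) = Pu s
  rw [fldH_one]

/-- The field automorphisms as a homomorphism. -/
noncomputable def fUHom : RingAut F →* MulAut (PSU n F q) where
  toFun := fU
  map_one' := fU_one
  map_mul' := fU_mul

lemma map_mem_GU (ρ : F ≃+* F) {g : GL (Fin n) F} (hg : g ∈ GU n F q) : Matrix.GeneralLinearGroup.map (ρ : F →+* F) g ∈ GU n F q :=
  fun u v => map_pres ρ g.1 hg u v

/-- The field map on the general unitary group. -/
noncomputable def mapGU (ρ : F ≃+* F) : GUt n F q →* GUt n F q where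
  toFun g := ⟨Matrix.GeneralLinearGroup.map (ρ : F →+* F) g.1, map_mem_GU ρ g.2⟩
  map_one' := Subtype.ext (map_one _)
  map_mul' a b := Subtype.ext (map_mul _ _ _)

lemma mapGU_val (ρ : F ≃+* F) (g : GUt n F q) : (mapGU ρ g).1 = Matrix.GeneralLinearGroup.map (ρ : F →+* F) g.1 := rfl

lemma fU_cU (σ : RingAut F) (g : GUt n F q) : fU σ * cU g = cU (mapGU σ g) * fU σ := by
  ext x
  obtain ⟨s, rfl⟩ := Pu_surj x
  change Pu (fldH σ (conjH g s)) = Pu (conjH (mapGU σ g) (fldH σ s))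
  congr 1
  apply su_ext
  rw [fldH_val, conjH_val, conjH_val, fldH_val, Matrix.map_mul, Matrix.map_mul]
  have e : ((mapGU σ g).1⁻¹).1 = ((g.1⁻¹).1).map (σ : F →+* F) := by
    rw [mapGU_val, ← map_inv]
    rfl
  rw [e]
  rfl

lemma isInner_cU (g : GUt n F q) : Cfsg.IsInnerDiagonalAutPSU (cU g) := by
  refine ⟨g.1, g.2, fun s s' hs => ?_⟩
  change Pu (conjH g s) = Pu s'
  congr 1
  apply su_ext
  rw [conjH_val, hs]

lemma isField_fU (σ : RingAut F) : Cfsg.IsFieldAutPSUOf σ (fU σ : PSU n F q ≃* PSU n F q) := by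
  intro s s' hs
  change Pu (fldH σ s) = Pu s'
  congr 1
  apply su_ext
  rw [fldH_val, hs]
  rfl

lemma inner_eq_cU {β : MulAut (PSU n F q)} (h : Cfsg.IsInnerDiagonalAutPSU β) : ∃ g : GUt n F q, β = cU g := by
  obtain ⟨g, hg, hβ⟩ := h
  refine ⟨⟨g, hg⟩, ?_⟩
  ext x
  obtain ⟨s, rfl⟩ := Pu_surj x
  exact (hβ s (conjH ⟨g, hg⟩ s) rfl).trans rfl

lemma mem_inndiag {β : MulAut (PSU n F q)} : β ∈ Cfsg.inndiagPSU n F q ↔ ∃ g : GUt n F q, β = cU g := by
  constructor
  · intro h
    have h1 : Cfsg.inndiagPSU n F q ≤ (cUHom : GUt n F q →* MulAut (PSU n F q)).range := by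
      refine (Subgroup.closure_le _).2 ?_
      intro x hx
      obtain ⟨g, rfl⟩ := inner_eq_cU hx
      exact ⟨g, rfl⟩
    obtain ⟨g, hg⟩ := h1 h
    exact ⟨g, hg.symm⟩
  · rintro ⟨g, rfl⟩
    exact Subgroup.subset_closure (isInner_cU g)

lemma std_eq_fU {σ : RingAut F} {β : MulAut (PSU n F q)} (h : Cfsg.IsFieldAutPSUOf σ β) : β = fU σ := by
  ext x
  obtain ⟨s, rfl⟩ := Pu_surj x
  exact (h s (fldH σ s) rfl).trans rfl

lemma semilinear_eq {g : GL (Fin n) F} (hg : g ∈ GU n F q) {σ : RingAut F} {β : PSU n F q ≃* PSU n F q}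
    (h : Cfsg.IsInducedBySemilinearPSU g σ β) : β = cU ⟨g, hg⟩ * fU σ := by
  ext x
  obtain ⟨s, rfl⟩ := Pu_surj x
  exact (h s (conjH ⟨g, hg⟩ (fldH σ s)) rfl).trans rfl

section Transport

variable [Fintype F] (hF : Fintype.card F = q ^ 2)

/-- The identification of `PSU` with the abstract projective group. -/
noncomputable def toPG (n : ℕ) : PSU n F q ≃* PG (stdH n hF) :=
  QuotientGroup.congr _ _ (suEquiv hF n) (map_center_of_equiv _)

lemma toPG_Pu (s : SUt n F q) : toPG hF n (Pu s) = Pr (suEquiv hF n s) := rfl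

lemma suEquiv_act (s : SUt n F q) (x : Fin n → F) : ((suEquiv hF n s).1 : (Fin n → F) ≃ₗ[F] (Fin n → F)) x = s.1.1 *ᵥ x := rfl

include hF in
lemma stdH_map (ρ : F ≃+* F) (x y : Fin n → F) : stdH n hF (fun k => ρ (x k)) (fun k => ρ (y k)) = ρ (stdH n hF x y) := by
  rw [stdH_apply, stdH_apply, herm_map]

include hF in
/-- Every automorphism of `PSU_n(q)` is induced by a semilinear unitary map. -/
theorem exists_induced {p : ℕ} [hp : Fact p.Prime] [CharP F p] (hn : 3 ≤ n) (h32 : ¬ (n = 3 ∧ q = 2)) (ψ : PSU n F q ≃* PSU n F q) :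
    ∃ (g : GL (Fin n) F) (ρ : F ≃+* F), g ∈ GU n F q ∧ Cfsg.IsInducedBySemilinearPSU g ρ ψ := by
  classical
  have h := stdH_hform n hF
  have hfr : Module.finrank F (Fin n → F) = n := by simp
  have hq2 := qfrob_two_le hF
  have hZ : ∀ u z : Fin n → F, stdH n hF u u = 0 → stdH n hF z u = 0 → ZE (stdH n hF) u z := by
    intro u z hu hz
    by_cases h3 : n = 3
    · subst h3
      have hq3 : 3 ≤ q := by
        by_contra hcon
        exact h32 ⟨rfl, by omega⟩
      exact ZE.of_big h (exists_fixed_big hF hq3) hu hz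
    · exact ZE.all h (by omega) hu hz
  have hU : ∀ g : ↥(HGrp (stdH n hF)), g.1 ∈ UT (stdH n hF) := by
    intro g
    by_cases h3 : n = 3
    · subst h3
      have hq3 : 3 ≤ q := by
        by_contra hcon
        exact h32 ⟨rfl, by omega⟩
      exact su3_mem h hfr (exists_fixed_big hF hq3) g.1 g.2.1 g.2.2
    · exact su_le_UT h (by omega) (by omega) g.1 g.2.1 g.2.2
  let ψ' : PG (stdH n hF) ≃* PG (stdH n hF) := (toPG hF n).symm.trans (ψ.trans (toPG hF n))
  obtain ⟨ρ, μ, G, hμ0, hσμ, hadd, hsmul, hB, hlift⟩ := main_abs (p := p) h (by omega) hZ hU (q := q) (qFrob_apply hF)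
    (by rw [Nat.card_eq_fintype_card, hF]) hq2 (fun h3 => by
      by_contra hcon
      exact h32 ⟨by omega, by omega⟩) ψ'
  have hsy : ∀ x : Fin n → F, (fun k => ρ ((fun k => ρ.symm (x k)) k)) = x := by
    intro x
    funext k
    simp
  have hsy' : ∀ x : Fin n → F, (fun k => ρ.symm ((fun k => ρ (x k)) k)) = x := by
    intro x
    funext k
    simp
  let L : (Fin n → F) →ₗ[F] (Fin n → F) :=
    { toFun := fun v => G (fun k => ρ.symm (v k))
      map_add' := by
        intro v w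
        rw [← hadd]
        congr 1
        funext k
        simp
      map_smul' := by
        intro c v
        have e : (fun k => ρ.symm ((c • v) k)) = ρ.symm c • (fun k => ρ.symm (v k)) := by
          funext k
          simp
        simp only [RingHom.id_apply]
        rw [e, hsmul]
        simp }
  have hLa : ∀ v, L v = G (fun k => ρ.symm (v k)) := fun v => rfl
  have hLB : ∀ x y, stdH n hF (L x) (L y) = μ * stdH n hF x y := by
    intro x y
    rw [hLa, hLa, hB, ← stdH_map hF ρ, hsy, hsy]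
  obtain ⟨ν, hν⟩ := herm_norm_surj (qFrob hF) (qFrob_ne hF) (qFrob_qFrob hF) μ hμ0 hσμ
  have hν0 : ν ≠ 0 := by
    rintro rfl
    rw [zero_mul] at hν
    exact hμ0 hν.symm
  have hσν : qFrob hF ν ≠ 0 := (map_ne_zero _).mpr hν0
  let L₁ : (Fin n → F) →ₗ[F] (Fin n → F) := ν⁻¹ • L
  have hL₁a : ∀ v, L₁ v = ν⁻¹ • L v := fun v => rfl
  have hL₁B : ∀ x y, stdH n hF (L₁ x) (L₁ y) = stdH n hF x y := by
    intro x y
    rw [hL₁a, hL₁a]
    simp only [map_smul, LinearMap.map_smulₛₗ₂, smul_eq_mul, hLB, map_inv₀]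
    rw [← hν]
    field_simp
  let E₁ : (Fin n → F) ≃ₗ[F] (Fin n → F) := LinearEquiv.ofInjectiveEndo L₁ (by
    rw [← LinearMap.ker_eq_bot, LinearMap.ker_eq_bot']
    intro x hx
    apply h.sep
    intro y
    rw [← hL₁B x y, hx]
    simp)
  have hE₁a : ∀ v, E₁ v = ν⁻¹ • L v := fun v => rfl
  let g : GL (Fin n) F := glLin.symm E₁
  have hga : ∀ x, (g : MM) *ᵥ x = E₁ x := by
    intro x
    exact glLin_symm_mulVec E₁ x
  have hg : g ∈ GU n F q := by
    intro u v
    change hermForm n F q ((g : MM) *ᵥ u) ((g : MM) *ᵥ v) = _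
    rw [hga, hga, ← stdH_apply n hF, ← stdH_apply n hF]
    exact hL₁B v u
  refine ⟨g, ρ, hg, fun s s' hs => ?_⟩
  obtain ⟨A', hA', e⟩ := hlift (suEquiv hF n s)
  have hact : A' = suEquiv hF n s' := by
    apply gm_ext
    intro x
    obtain ⟨w, rfl⟩ := E₁.surjective x
    have hGy : G (fun k => ρ.symm (w k)) = ν • E₁ w := by
      rw [hE₁a, smul_smul, mul_inv_cancel₀ hν0, one_smul, hLa]
    have h1 := hA' (fun k => ρ.symm (w k))
    rw [hGy, map_smul] at h1
    have h2 : G (((suEquiv hF n s).1 : (Fin n → F) ≃ₗ[F] (Fin n → F)) (fun k => ρ.symm (w k))) = L (((s.1.1 : MM).map (ρ : F →+* F)) *ᵥ w) := by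
      rw [hLa, suEquiv_act]
      congr 1
      funext k
      have := congrFun (map_mulVec_fun ρ (s.1.1 : MM) (fun k => ρ.symm (w k))) k
      rw [hsy] at this
      rw [this]
      simp
    rw [h2] at h1
    have h3 : (A'.1 : (Fin n → F) ≃ₗ[F] (Fin n → F)) (E₁ w) = E₁ (((s.1.1 : MM).map (ρ : F →+* F)) *ᵥ w) := by
      rw [hE₁a (_ *ᵥ w), ← h1, smul_smul, inv_mul_cancel₀ hν0, one_smul]
    rw [h3, suEquiv_act, ← hga, ← hga, hs, Matrix.mulVec_mulVec, Matrix.mulVec_mulVec]
    congr 1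
    have e1 : (g : MM) * ((s.1.1 : MM).map (ρ : F →+* F)) * (((g⁻¹ : GL (Fin n) F) : MM) * (g : MM)) = (g : MM) * ((s.1.1 : MM).map (ρ : F →+* F)) := by
      have : ((g⁻¹ : GL (Fin n) F) : MM) * (g : MM) = 1 := by
        rw [← Matrix.GeneralLinearGroup.coe_mul]
        simp
      rw [this, mul_one]
    rw [← e1]
    simp only [Matrix.mul_assoc]
    rfl
  apply (toPG hF n).injective
  have e2 : toPG hF n (ψ (QuotientGroup.mk s)) = ψ' (toPG hF n (QuotientGroup.mk s)) := by
    change _ = toPG hF n (ψ ((toPG hF n).symm (toPG hF n (QuotientGroup.mk s))))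
    rw [MulEquiv.symm_apply_apply]
  rw [e2]
  change ψ' (Pr (suEquiv hF n s)) = Pr (suEquiv hF n s')
  rw [e, hact]

end Transport

lemma charP_card' [Fintype F] {p f : ℕ} [hp : Fact p.Prime] (hF : Fintype.card F = p ^ f) (hf : 1 ≤ f) : CharP F p := by
  obtain ⟨r, hr⟩ := CharP.exists F
  obtain ⟨n, hr1, hr2⟩ := FiniteField.card F r
  rw [hF] at hr2
  have h1 : p ∣ r ^ (n : ℕ) := by
    rw [← hr2]
    exact dvd_pow_self p (by omega)
  have h2 : p = r := (Nat.prime_dvd_prime_iff_eq hp.out hr1).1 (hp.out.dvd_of_dvd_pow h1)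
  rw [h2]
  exact hr

end CfsgLib.PUA
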