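/-
The order and the structure of the automorphism group of `PSU_n(q)`.
-/
import Cfsg.Agent.Lib.PSUAut.Aut
import Cfsg.Agent.Lib.PSLAut.Final
import Cfsg.Agent.Lib.ClassGeo.UDet
import Cfsg.Agent.Lib.ClassGeo.UCenter

set_option autoImplicit false
set_option linter.unusedSimpArgs false
set_option linter.unusedVariables false
set_option linter.unusedSectionVars false
set_option maxHeartbeats 1000000

namespace CfsgLib.PUA

open Module Matrix Cfsg CfsgLib.ClassGeo

section Rigid

variable {F V : Type*} [Field F] [AddCommGroup V] [Module F V] [FiniteDimensional F V] [Finite F] {σ : F →+* F} {B : V →ₛₗ[σ] V →ₗ[F] F}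

/-- A semilinear map preserving every isotropic line has trivial field automorphism. -/
lemma field_rigid (h : HForm σ B) (hdim : 3 ≤ finrank F V) {ρ : F ≃+* F} (L : V → V)
    (hadd : ∀ x y, L (x + y) = L x + L y) (hsmul : ∀ (c : F) x, L (c • x) = ρ c • L x)
    (hB : ∀ x y, B (L x) (L y) = ρ (B x y))
    (hiso : ∀ v, B v v = 0 → ∃ d : F, L v = d • v) (γ : F) : ρ γ = γ := by
  have hf := h.toF
  have hT : NondegOn B (⊤ : Submodule F V) := fun x _ hx => h.sep x (fun v => hx v trivial)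
  obtain ⟨u, -, f, -, huu, hff, huf⟩ := hT.exists_hyp_herm h (by rw [finrank_top]; omega)
  have H : HP B u f := ⟨huu, hff, huf⟩
  obtain ⟨w, hw0, hwu, hwf⟩ := exists_W h hdim H
  have hfu : B f u = 1 := H.fu hf
  have huw : B u w = 0 := hf.zero_symm hwu
  have hfw : B f w = 0 := hf.zero_symm hwf
  obtain ⟨du, hdu⟩ := hiso u huu
  obtain ⟨df, hdf⟩ := hiso f hff
  have h1 : B (L f) (L u) = 1 := by rw [hB, hfu, map_one]
  have hdf0 : df ≠ 0 := by
    rintro rfl
    rw [hdf, zero_smul] at h1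
    simp at h1
  have hdu0 : du ≠ 0 := by
    rintro rfl
    rw [hdu, zero_smul] at h1
    simp at h1
  have hLwu : B (L w) u = 0 := by
    have h2 : B (L w) (L u) = 0 := by rw [hB, hwu, map_zero]
    rw [hdu, map_smul, smul_eq_mul] at h2
    exact (mul_eq_zero.mp h2).resolve_left hdu0
  have hLwf : B (L w) f = 0 := by
    have h2 : B (L w) (L f) = 0 := by rw [hB, hwf, map_zero]
    rw [hdf, map_smul, smul_eq_mul] at h2
    exact (mul_eq_zero.mp h2).resolve_left hdf0
  have huLw : B u (L w) = 0 := hf.zero_symm hLwu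
  have hfLw : B f (L w) = 0 := hf.zero_symm hLwf
  have key : ∀ γ : F, ρ γ • L w = (df * γ) • w := by
    intro γ
    obtain ⟨y, hy⟩ : ∃ y, y = γ • w := ⟨_, rfl⟩
    have hyu : B y u = 0 := by
      rw [hy, LinearMap.map_smulₛₗ₂, hwu, smul_zero]
    have hyf : B y f = 0 := by
      rw [hy, LinearMap.map_smulₛₗ₂, hwf, smul_zero]
    have huy : B u y = 0 := hf.zero_symm hyu
    have hfy : B f y = 0 := hf.zero_symm hyf
    obtain ⟨k, hk⟩ := hf.trace_surj (-(B y y)) (by rw [map_neg, hf.self_fixed])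
    obtain ⟨z, hz⟩ : ∃ z, z = f + y + k • u := ⟨_, rfl⟩
    have hzz : B z z = 0 := by
      rw [hz]
      simp only [map_add, LinearMap.add_apply, map_smul, LinearMap.map_smulₛₗ₂, smul_eq_mul, hff, huu, huf, hfu, huy, hfy, hyu, hyf,
        mul_zero, mul_one, add_zero, zero_add]
      linear_combination hk
    obtain ⟨d, hd⟩ := hiso z hzz
    have hLz : L z = df • f + ρ γ • L w + (ρ k * du) • u := by
      rw [hz, hadd, hadd, hsmul, hy, hsmul, hdf, hdu, mul_smul]
    have E : df • f + ρ γ • L w + (ρ k * du) • u = d • (f + y + k • u) := by rw [← hLz, hd, hz]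
    have e1 := congrArg (B u) E
    have e2 := congrArg (B f) E
    simp only [map_add, map_smul, smul_eq_mul, huf, huu, huLw, huy, hff, hfu, hfLw, hfy, mul_zero, mul_one, add_zero, zero_add] at e1 e2
    subst e1
    rw [e2, hy] at E
    linear_combination (norm := module) E
  have hLw : L w = df • w := by
    have := key 1
    simpa using this
  have h2 := key γ
  rw [hLw, smul_smul, ← sub_eq_zero, ← sub_smul, smul_eq_zero] at h2
  rcases h2 with h2 | h2
  · have h3 : df * (ρ γ - γ) = 0 := by linear_combination h2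
    exact sub_eq_zero.mp ((mul_eq_zero.mp h3).resolve_left hdf0)
  · exact absurd h2 hw0

end Rigid

variable {F : Type*} [Field F] {n q : ℕ}

local notation "MM" => Matrix (Fin n) (Fin n) F

section Lines

variable [Fintype F] (hF : Fintype.card F = q ^ 2)

include hF in
lemma gu_pres (g : GUt n F q) (x y : Fin n → F) : stdH n hF (g.1.1 *ᵥ x) (g.1.1 *ᵥ y) = stdH n hF x y := by
  rw [stdH_apply, stdH_apply]
  exact g.2 y x

lemma gu_mul_inv (g : GUt n F q) (x : Fin n → F) : g.1.1 *ᵥ ((g.1⁻¹).1 *ᵥ x) = x := by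
  rw [mulVec_mulVec, ← Units.val_mul, mul_inv_cancel, Units.val_one, one_mulVec]

lemma gu_inv_mul (g : GUt n F q) (x : Fin n → F) : (g.1⁻¹).1 *ᵥ (g.1.1 *ᵥ x) = x := by
  rw [mulVec_mulVec, ← Units.val_mul, inv_mul_cancel, Units.val_one, one_mulVec]

include hF in
lemma conj_isT (g : GUt n F q) (s : SUt n F q) {v : Fin n → F} {a : F}
    (hs : IsT (stdH n hF) v a (suEquiv hF n s).1) :
    IsT (stdH n hF) (g.1.1 *ᵥ v) a (suEquiv hF n (conjH g s)).1 := by
  intro x
  rw [suEquiv_act, conjH_val, ← mulVec_mulVec, ← mulVec_mulVec]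
  have h1 := hs ((g.1⁻¹).1 *ᵥ x)
  rw [suEquiv_act] at h1
  rw [h1, mulVec_add, mulVec_smul, gu_mul_inv]
  congr 3
  rw [← gu_pres hF g, gu_mul_inv]

include hF in
lemma fld_isT (ρ : F ≃+* F) (s : SUt n F q) {v : Fin n → F} {a : F}
    (hs : IsT (stdH n hF) v a (suEquiv hF n s).1) :
    IsT (stdH n hF) (fun k => ρ (v k)) (ρ a) (suEquiv hF n (fldH ρ s)).1 := by
  intro x
  rw [suEquiv_act, fldH_val]
  have ex : x = fun k => ρ ((fun k => ρ.symm (x k)) k) := by
    funext k
    simp
  obtain ⟨y, hy⟩ : ∃ y : Fin n → F, y = fun k => ρ.symm (x k) := ⟨_, rfl⟩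
  rw [← hy] at ex
  rw [ex, map_mulVec_fun]
  have h1 := hs y
  rw [suEquiv_act] at h1
  rw [h1, stdH_map hF, ← map_mul]
  funext k
  simp

include hF in
/-- The key step: if an inner-diagonal automorphism is a field automorphism, then the matrix acts on isotropic vectors as the
field automorphism does, up to scalars. -/
theorem key_lines {p : ℕ} [hp : Fact p.Prime] [CharP F p] (hn : 2 ≤ n) {g : GUt n F q} {ρ : RingAut F}
    (he : (cU g : MulAut (PSU n F q)) = fU ρ) {v : Fin n → F} (hv0 : v ≠ 0) (hvv : stdH n hF v v = 0) :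
    ∃ c : F, c ≠ 0 ∧ g.1.1 *ᵥ v = c • (fun k => ρ (v k)) := by
  have h := stdH_hform n hF
  have hf := h.toF
  have hdim : 2 ≤ finrank F (Fin n → F) := by simpa using hn
  obtain ⟨a, ha0, ha⟩ := h.exists_anti
  obtain ⟨t, ht⟩ := exists_T hf hvv ha
  obtain ⟨s, hs⟩ := (suEquiv hF n).surjective t
  have hs' : IsT (stdH n hF) v a (suEquiv hF n s).1 := by
    rw [hs]
    exact ht
  have h1 := conj_isT hF g s hs'
  have h2 := fld_isT hF ρ s hs'
  have h3 : Pu (conjH g s) = Pu (fldH ρ s) := by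
    have := congrArg (fun β : MulAut (PSU n F q) => β (Pu s)) he
    exact this
  have h4 : Pr (suEquiv hF n (conjH g s)) = Pr (suEquiv hF n (fldH ρ s)) := congrArg (toPG hF n) h3
  have hgv : stdH n hF (g.1.1 *ᵥ v) (g.1.1 *ᵥ v) = 0 := by
    rw [gu_pres hF, hvv]
  have hρv : stdH n hF (fun k => ρ (v k)) (fun k => ρ (v k)) = 0 := by
    rw [stdH_map hF, hvv, map_zero]
  have h5 := plift_unique (p := p) h hdim (T_pow hf hdim hgv h1) (T_pow hf hdim hρv h2) h4
  rw [h5] at h1
  have hgv0 : g.1.1 *ᵥ v ≠ 0 := by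
    intro h0
    apply hv0
    rw [← gu_inv_mul g v, h0, mulVec_zero]
  obtain ⟨c, hc0, hc⟩ := T_eq_imp' h hgv0 ha0 h1 h2
  exact ⟨c, hc0, hc⟩

include hF in
/-- An inner-diagonal automorphism is a field automorphism only for the trivial field automorphism. -/
theorem field_part {p : ℕ} [hp : Fact p.Prime] [CharP F p] (hn : 3 ≤ n) {g : GUt n F q} {ρ : RingAut F}
    (he : (cU g : MulAut (PSU n F q)) = fU ρ) : ρ = 1 := by
  have h := stdH_hform n hF
  have hf := h.toF
  have hdim : 3 ≤ finrank F (Fin n → F) := by simpa using hn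
  let L : (Fin n → F) → (Fin n → F) := fun x => (g.1⁻¹).1 *ᵥ (fun k => ρ (x k))
  have hLa : ∀ x, L x = (g.1⁻¹).1 *ᵥ (fun k => ρ (x k)) := fun x => rfl
  have hadd : ∀ x y, L (x + y) = L x + L y := by
    intro x y
    rw [hLa, hLa, hLa, ← mulVec_add]
    congr 1
    funext k
    simp
  have hsmul : ∀ (c : F) x, L (c • x) = ρ c • L x := by
    intro c x
    rw [hLa, hLa, ← mulVec_smul]
    congr 1
    funext k
    simp
  have hB : ∀ x y, stdH n hF (L x) (L y) = ρ (stdH n hF x y) := by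
    intro x y
    rw [hLa, hLa]
    have := gu_pres hF (g⁻¹) (fun k => ρ (x k)) (fun k => ρ (y k))
    rw [stdH_map hF] at this
    exact this
  have hiso : ∀ v, stdH n hF v v = 0 → ∃ d : F, L v = d • v := by
    intro v hvv
    by_cases hv0 : v = 0
    · refine ⟨0, ?_⟩
      have e : (fun k => ρ ((0 : Fin n → F) k)) = 0 := by
        funext k
        simp
      rw [hv0, hLa, e, mulVec_zero, zero_smul]
    obtain ⟨c, hc0, hc⟩ := key_lines hF (by omega) he hv0 hvv
    refine ⟨c⁻¹, ?_⟩
    have h1 : v = c • L v := by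
      rw [hLa, ← mulVec_smul, ← hc, gu_inv_mul]
    calc L v = c⁻¹ • (c • L v) := by rw [smul_smul, inv_mul_cancel₀ hc0, one_smul]
      _ = _ := by rw [← h1]
  ext x
  exact field_rigid h hdim L hadd hsmul hB hiso x

include hF in
/-- The kernel of the conjugation action. -/
theorem cU_eq_one_iff {p : ℕ} [hp : Fact p.Prime] [CharP F p] (hn : 3 ≤ n) {g : GUt n F q} :
    (cU g : MulAut (PSU n F q)) = 1 ↔ g ∈ Subgroup.center (GUt n F q) := by
  have h := stdH_hform n hF
  constructor
  · intro he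
    have he' : (cU g : MulAut (PSU n F q)) = fU 1 := by rw [he, fU_one]
    have hline : ∀ v, stdH n hF v v = 0 → ∃ c : F, (Matrix.mulVecLin g.1.1) v = c • v := by
      intro v hv
      by_cases hv0 : v = 0
      · refine ⟨0, ?_⟩
        rw [hv0]
        simp
      obtain ⟨c, -, hc⟩ := key_lines hF (by omega) he' hv0 hv
      exact ⟨c, hc⟩
    obtain ⟨α, hα⟩ := scalar_of_iso_lines h (by simpa using (by omega : 2 ≤ n)) _ hline
    have hα' : ∀ x, g.1.1 *ᵥ x = α • x := hα
    rw [Subgroup.mem_center_iff]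
    intro k
    apply Subtype.ext
    apply Units.ext
    apply mat_eq_of_mulVec
    intro x
    change (k.1.1 * g.1.1) *ᵥ x = (g.1.1 * k.1.1) *ᵥ x
    rw [← mulVec_mulVec, ← mulVec_mulVec, hα', hα', mulVec_smul]
  · intro hz
    ext x
    obtain ⟨s, rfl⟩ := Pu_surj x
    change Pu (conjH g s) = Pu s
    congr 1
    apply su_ext
    rw [conjH_val]
    have h1 := (Subgroup.mem_center_iff.mp hz) (suToGU n s)
    have h2 : s.1.1 * g.1.1 = g.1.1 * s.1.1 := congrArg (fun k : GUt n F q => k.1.1) h1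
    rw [← h2, mul_assoc, ← Units.val_mul, mul_inv_cancel, Units.val_one, mul_one]

end Lines

end CfsgLib.PUA
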