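/-
The order and the structure of the automorphism group of `PSU_n(q)`.
-/
import Cfsg.Agent.Lib.PSUAut.Card

set_option autoImplicit false
set_option linter.unusedSimpArgs false
set_option linter.unusedVariables false
set_option linter.unusedSectionVars false
set_option maxHeartbeats 1000000

namespace CfsgLib.PUA

open Module Matrix Cfsg CfsgLib.ClassGeo

variable {F : Type*} [Field F] {n q : ℕ}

local notation "MM" => Matrix (Fin n) (Fin n) F

/-- The field part of an automorphism. -/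
def FR (β : MulAut (PSU n F q)) (ρ : RingAut F) : Prop := ∃ g : GUt n F q, β = cU g * fU ρ

lemma FR_mul {β β' : MulAut (PSU n F q)} {ρ ρ' : RingAut F} (h : FR β ρ) (h' : FR β' ρ') : FR (β * β') (ρ * ρ') := by
  obtain ⟨g, rfl⟩ := h
  obtain ⟨g', rfl⟩ := h'
  refine ⟨g * mapGU ρ g', ?_⟩
  rw [cU_mul, fU_mul, mul_assoc, ← mul_assoc (fU ρ), fU_cU]
  simp only [mul_assoc]

/-- The field part as a homomorphism. -/
noncomputable def ThOf (huniq : ∀ {β : MulAut (PSU n F q)} {ρ τ : RingAut F}, FR β ρ → FR β τ → ρ = τ)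
    (hex : ∀ β : MulAut (PSU n F q), ∃ ρ, FR β ρ) : MulAut (PSU n F q) →* RingAut F where
  toFun β := (hex β).choose
  map_one' := by
    have h1 : FR (1 : MulAut (PSU n F q)) 1 := ⟨1, by rw [cU_one, fU_one, one_mul]⟩
    exact huniq (hex 1).choose_spec h1
  map_mul' a b := huniq (hex (a * b)).choose_spec (FR_mul (hex a).choose_spec (hex b).choose_spec)

lemma conj_Pu_eq (s : SUt n F q) : MulAut.conj (Pu s) = cU (suToGU n s) := by
  ext x
  obtain ⟨t, rfl⟩ := Pu_surj x
  change Pu s * Pu t * (Pu s)⁻¹ = Pu (conjH (suToGU n s) t)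
  rw [← map_inv, ← map_mul, ← map_mul]
  congr 1

section Main

variable [Fintype F] (hF : Fintype.card F = q ^ 2)

include hF in
lemma FR_unique {p : ℕ} [hp : Fact p.Prime] [CharP F p] (hn : 3 ≤ n) {β : MulAut (PSU n F q)} {ρ τ : RingAut F}
    (h : FR β ρ) (h' : FR β τ) : ρ = τ := by
  obtain ⟨g, rfl⟩ := h
  obtain ⟨g', h1⟩ := h'
  have h2 : (cU (g'⁻¹ * g) : MulAut (PSU n F q)) = fU (τ * ρ⁻¹) := by
    rw [cU_mul, ← cU_inv, fU_mul]
    have h3 : (fU ρ : MulAut (PSU n F q)) * fU ρ⁻¹ = 1 := by rw [← fU_mul, mul_inv_cancel, fU_one]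
    calc (cU g')⁻¹ * cU g = (cU g')⁻¹ * (cU g * (fU ρ * fU ρ⁻¹)) := by rw [h3, mul_one]
      _ = (cU g')⁻¹ * (cU g * fU ρ) * fU ρ⁻¹ := by simp only [mul_assoc]
      _ = (cU g')⁻¹ * (cU g' * fU τ) * fU ρ⁻¹ := by rw [h1]
      _ = fU τ * fU ρ⁻¹ := by simp only [inv_mul_cancel_left]
  have h4 := field_part hF (p := p) hn h2
  rw [mul_inv_eq_one] at h4
  exact h4.symm

include hF in
lemma card_center_GU (hn : 2 ≤ n) : Nat.card (Subgroup.center (GUt n F q)) = q + 1 := by
  classical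
  have hq2 := qfrob_two_le hF
  let μ : Subgroup Fˣ := (powMonoidHom (q + 1) : Fˣ →* Fˣ).ker
  have hker := IsCyclic.card_powMonoidHom_ker (G := Fˣ) (q + 1)
  have hcard : Nat.card Fˣ = q ^ 2 - 1 := by
    rw [Nat.card_eq_fintype_card, Fintype.card_units, hF]
  have hfac : q ^ 2 - 1 = (q + 1) * (q - 1) := by
    obtain ⟨k, rfl⟩ : ∃ k, q = k + 1 := ⟨q - 1, by omega⟩
    simp only [Nat.add_sub_cancel]
    have : (k + 1) ^ 2 = (k + 1 + 1) * k + 1 := by ring
    omega
  have hμ : Nat.card μ = q + 1 := by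
    rw [hker, hcard, hfac]
    exact Nat.gcd_eq_right (Nat.dvd_mul_right _ _)
  rw [← hμ]
  symm
  refine Nat.card_congr (Equiv.ofBijective (fun c : μ => (⟨guScalar n c.1 (MonoidHom.mem_ker.mp c.2), guScalar_mem_center n _ _⟩ : Subgroup.center (GUt n F q))) ⟨?_, ?_⟩)
  · intro a b hab
    have h1 : ((a.1 : Fˣ) : F) • (1 : MM) = ((b.1 : Fˣ) : F) • (1 : MM) := congrArg (fun z : Subgroup.center (GUt n F q) => z.1.1.1) hab
    have h2 := congrFun (congrFun h1 ⟨0, by omega⟩) ⟨0, by omega⟩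
    simp at h2
    exact Subtype.ext (Units.ext h2)
  · rintro ⟨z, hz⟩
    obtain ⟨c, hc, rfl⟩ := center_GU_scalar hF n hn z hz
    exact ⟨⟨c, MonoidHom.mem_ker.mpr hc⟩, rfl⟩

include hF in
lemma card_range_cU {p : ℕ} [hp : Fact p.Prime] [CharP F p] (hn : 3 ≤ n) :
    Nat.card (cUHom : GUt n F q →* MulAut (PSU n F q)).range = Nat.card (SUt n F q) := by
  classical
  have hker : (cUHom : GUt n F q →* MulAut (PSU n F q)).ker = Subgroup.center (GUt n F q) := by
    ext g
    rw [MonoidHom.mem_ker]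
    exact cU_eq_one_iff hF (p := p) hn
  have hkc : Nat.card (cUHom : GUt n F q →* MulAut (PSU n F q)).ker = q + 1 := by
    rw [hker]
    exact card_center_GU hF (by omega)
  have h1 : Nat.card (GUt n F q) = Nat.card (cUHom : GUt n F q →* MulAut (PSU n F q)).range * (q + 1) := by
    rw [Subgroup.card_eq_card_quotient_mul_card_subgroup (cUHom : GUt n F q →* MulAut (PSU n F q)).ker, hkc,
      Nat.card_congr (QuotientGroup.quotientKerEquivRange (cUHom : GUt n F q →* MulAut (PSU n F q))).toEquiv]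
  have h2 := card_GU_eq hF n (by omega : 1 ≤ n)
  have h3 : Nat.card (cUHom : GUt n F q →* MulAut (PSU n F q)).range * (q + 1) = Nat.card (SUt n F q) * (q + 1) := by
    rw [← h1, ← h2, mul_comm]
  exact Nat.eq_of_mul_eq_mul_right (by omega) h3

include hF in
lemma card_aut_eq {p : ℕ} [hp : Fact p.Prime] [CharP F p] (hn : 3 ≤ n) (h32 : ¬ (n = 3 ∧ q = 2)) :
    Nat.card (MulAut (PSU n F q)) = Nat.card (cUHom : GUt n F q →* MulAut (PSU n F q)).range * Nat.card (RingAut F) := by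
  classical
  rw [← Nat.card_prod]
  symm
  let Φ : (cUHom : GUt n F q →* MulAut (PSU n F q)).range × RingAut F → MulAut (PSU n F q) := fun x => x.1.1 * fU x.2
  refine Nat.card_congr (Equiv.ofBijective Φ ⟨?_, ?_⟩)
  · rintro ⟨⟨_, g, rfl⟩, σ⟩ ⟨⟨_, g', rfl⟩, σ'⟩ h
    have h1 : (cU g * fU σ : MulAut (PSU n F q)) = cU g' * fU σ' := h
    have h5 : σ = σ' := FR_unique hF (p := p) hn ⟨g, rfl⟩ ⟨g', h1⟩
    subst h5
    have h6 : cUHom g = cUHom g' := mul_right_cancel h1
    simp only [Prod.mk.injEq, and_true]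
    exact Subtype.ext h6
  · intro β
    obtain ⟨g, ρ, hg, hind⟩ := exists_induced (p := p) hF hn h32 β
    refine ⟨(⟨cUHom ⟨g, hg⟩, ⟨g, hg⟩, rfl⟩, ρ), ?_⟩
    exact (semilinear_eq hg hind).symm

include hF in
/-- The order of the automorphism group of `PSU_n(q)`. -/
theorem card_aut_PSU (p f : ℕ) [hp : Fact p.Prime] (hf : 1 ≤ f) (hq : q = p ^ f) (hn : 3 ≤ n) (h32 : ¬ (n = 3 ∧ q = 2)) :
    Nat.card (MulAut (PSU n F q)) = Nat.gcd n (q + 1) * (2 * f) * Nat.card (PSU n F q) := by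
  have hF' : Fintype.card F = p ^ (2 * f) := by rw [hF, hq, ← pow_mul, mul_comm]
  haveI : CharP F p := charP_card' hF' (by omega)
  obtain ⟨e, -⟩ := CfsgLib.PSA.exists_gal_equiv (F := F) hF' (by omega)
  have hR : Nat.card (RingAut F) = 2 * f := by
    rw [Nat.card_congr e.toEquiv]
    show Nat.card (ZMod (2 * f)) = 2 * f
    exact Nat.card_zmod _
  have hS : Nat.card (SUt n F q) = Nat.card (PSU n F q) * Nat.gcd n (q + 1) := by
    rw [Subgroup.card_eq_card_quotient_mul_card_subgroup (Subgroup.center (SUt n F q)), card_center_SU hF n (by omega)]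
  rw [card_aut_eq hF (p := p) hn h32, card_range_cU hF (p := p) hn, hR, hS]
  ring

include hF in
/-- The structure of the outer automorphism group. -/
theorem out_structure {p f : ℕ} [hp : Fact p.Prime] (hf : 1 ≤ f) (hq : q = p ^ f) (hn : 3 ≤ n) (h32 : ¬ (n = 3 ∧ q = 2)) :
    ∃ φ : Cfsg.Out (PSU n F q) →* Multiplicative (ZMod (2 * f)), Function.Surjective φ ∧ IsCyclic φ.ker ∧ Nat.card φ.ker = Nat.gcd n (q + 1) := by
  classical
  have hF' : Fintype.card F = p ^ (2 * f) := by rw [hF, hq, ← pow_mul, mul_comm]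
  haveI : CharP F p := charP_card' hF' (by omega)
  obtain ⟨e, -⟩ := CfsgLib.PSA.exists_gal_equiv (F := F) hF' (by omega)
  have huniq : ∀ {β : MulAut (PSU n F q)} {ρ τ : RingAut F}, FR β ρ → FR β τ → ρ = τ := fun h h' => FR_unique hF (p := p) hn h h'
  have hex : ∀ β : MulAut (PSU n F q), ∃ ρ, FR β ρ := by
    intro β
    obtain ⟨g, ρ, hg, hind⟩ := exists_induced (p := p) hF hn h32 β
    exact ⟨ρ, ⟨g, hg⟩, semilinear_eq hg hind⟩
  let Th := ThOf huniq hex
  have hTh : ∀ {β : MulAut (PSU n F q)} {ρ : RingAut F}, FR β ρ → Th β = ρ := fun h => huniq (hex _).choose_spec h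
  have hThc : ∀ g : GUt n F q, Th (cU g) = 1 := fun g => hTh ⟨g, by rw [fU_one, mul_one]⟩
  have hThf : ∀ ρ : RingAut F, Th (fU ρ) = ρ := fun ρ => hTh ⟨1, by rw [cU_one, one_mul]⟩
  have hInn : ∀ x ∈ Cfsg.Inn (PSU n F q), x ∈ Th.ker := by
    rintro _ ⟨g, rfl⟩
    obtain ⟨s, rfl⟩ := Pu_surj g
    rw [MonoidHom.mem_ker]
    show Th (MulAut.conj (Pu s)) = 1
    rw [conj_Pu_eq]
    exact hThc _
  let Thb : Cfsg.Out (PSU n F q) →* RingAut F := QuotientGroup.lift _ Th hInn
  refine ⟨e.toMonoidHom.comp Thb, ?_, ?_⟩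
  · intro z
    refine ⟨QuotientGroup.mk (fU (e.symm z)), ?_⟩
    show e (Th (fU (e.symm z))) = z
    rw [hThf]
    simp
  let Δ : GUt n F q →* Cfsg.Out (PSU n F q) :=
    { toFun := fun g => QuotientGroup.mk (cU g)
      map_one' := by
        rw [cU_one]
        rfl
      map_mul' := fun a b => by
        rw [cU_mul]
        rfl }
  have hkerE : (e.toMonoidHom.comp Thb).ker = Δ.range := by
    ext x
    obtain ⟨ψ, rfl⟩ := QuotientGroup.mk_surjective x
    rw [MonoidHom.mem_ker, MonoidHom.mem_range]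
    have e0 : (e.toMonoidHom.comp Thb) (QuotientGroup.mk ψ) = e (Th ψ) := rfl
    rw [e0, map_eq_one_iff _ e.injective]
    constructor
    · intro hψ
      obtain ⟨ρ, g, hg⟩ := hex ψ
      have h1 : Th ψ = ρ := hTh ⟨g, hg⟩
      rw [h1] at hψ
      subst hψ
      refine ⟨g, ?_⟩
      rw [hg, fU_one, mul_one]
      rfl
    · rintro ⟨g, hg⟩
      have h1 : (QuotientGroup.mk (cU g) : Cfsg.Out (PSU n F q)) = QuotientGroup.mk ψ := hg
      rw [QuotientGroup.eq] at h1
      have h2 : Th ((cU g)⁻¹ * ψ) = 1 := hInn _ h1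
      rw [map_mul, map_inv, hThc, inv_one, one_mul] at h2
      exact h2
  obtain ⟨φ₀, hφs, hφk⟩ := exists_pgu_quot hF n (by omega : 2 ≤ n)
  have hkerD : Δ.ker = φ₀.ker := by
    rw [hφk]
    ext g
    rw [MonoidHom.mem_ker, Subgroup.mem_sup_of_normal_right]
    constructor
    · intro hg
      have h1 : cU g ∈ Cfsg.Inn (PSU n F q) := (QuotientGroup.eq_one_iff _).1 hg
      obtain ⟨x, hx⟩ := h1
      obtain ⟨s, rfl⟩ := Pu_surj x
      have hx' : MulAut.conj (Pu s) = cU g := hx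
      rw [conj_Pu_eq] at hx'
      have h2 : cU ((suToGU n s)⁻¹ * g) = 1 := by
        rw [cU_mul, ← hx', ← cU_inv, inv_mul_cancel]
      have h3 := (cU_eq_one_iff hF (p := p) hn).1 h2
      refine ⟨suToGU n s, ?_, _, h3, by simp⟩
      rw [Subgroup.mem_subgroupOf, MonoidHom.mem_ker]
      apply Units.ext
      exact s.1.2
    · rintro ⟨y, hy, z, hz, rfl⟩
      rw [Subgroup.mem_subgroupOf, MonoidHom.mem_ker] at hy
      have hdet : y.1.1.det = 1 := congrArg Units.val hy
      let s : SUt n F q := ⟨⟨y.1.1, hdet⟩, y.2⟩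
      have hys : y = suToGU n s := by
        apply Subtype.ext
        apply Units.ext
        rfl
      have h1 : Δ y = 1 := by
        apply (QuotientGroup.eq_one_iff _).2
        refine ⟨Pu s, ?_⟩
        change MulAut.conj (Pu s) = cU y
        rw [conj_Pu_eq, ← hys]
      have h2 : Δ z = 1 := by
        apply (QuotientGroup.eq_one_iff _).2
        change cU z ∈ _
        rw [(cU_eq_one_iff hF (p := p) hn).2 hz]
        exact one_mem _
      rw [map_mul, h1, h2, one_mul]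
  rw [hkerE]
  let E : Δ.range ≃* Multiplicative (ZMod (Nat.gcd n (q + 1))) :=
    (QuotientGroup.quotientKerEquivRange Δ).symm.trans ((QuotientGroup.quotientMulEquivOfEq hkerD).trans (QuotientGroup.quotientKerEquivOfSurjective φ₀ hφs))
  refine ⟨isCyclic_of_surjective E.symm E.symm.surjective, ?_⟩
  rw [Nat.card_congr E.toEquiv]
  exact Nat.card_zmod _

end Main

end CfsgLib.PUA
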