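/-
Hilbert's Theorem 90 for the general unitary group and the field coset.
-/
import Cfsg.Agent.Lib.PSUAut.Order
import Cfsg.Agent.Lib.PSpAut.H90
import Cfsg.Agent.Lib.PSLn.Classes
import Cfsg.Agent.Lib.PSLn.Fixed
import Cfsg.Agent.Lib.ClassGeo.UFrames

set_option autoImplicit false
set_option linter.unusedSimpArgs false
set_option linter.unusedVariables false
set_option linter.unusedSectionVars false
set_option maxHeartbeats 1000000

namespace CfsgLib.PUA

open Module Matrix Cfsg CfsgLib.ClassGeo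

variable {F : Type*} [Field F] {n q : ℕ}

local notation "MM" => Matrix (Fin n) (Fin n) F

/-- The iterated norm in the general unitary group. -/
noncomputable def NGU (σ : RingAut F) (g : GUt n F q) : ℕ → GUt n F q
  | 0 => 1
  | (k + 1) => NGU σ g k * mapGU (σ ^ k) g

lemma NGU_val (σ : RingAut F) (g : GUt n F q) (k : ℕ) : (NGU σ g k).1 = CfsgLib.PSA.NG σ g.1 k := by
  induction k with
  | zero => rfl
  | succ k ih =>
    change (NGU σ g k).1 * (mapGU (σ ^ k) g).1 = _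
    rw [ih]
    rfl

lemma mapGU_aut_mul (σ τ : RingAut F) (g : GUt n F q) : mapGU (σ * τ) g = mapGU σ (mapGU τ g) :=
  Subtype.ext (CfsgLib.PSA.mapGL_mul σ τ g.1)

lemma mapGU_aut_one (g : GUt n F q) : mapGU (1 : RingAut F) g = g :=
  Subtype.ext (CfsgLib.PSA.mapGL_one g.1)

lemma NGU_succ' (σ : RingAut F) (g : GUt n F q) (k : ℕ) : NGU σ g (k + 1) = g * mapGU σ (NGU σ g k) := by
  apply Subtype.ext
  rw [NGU_val, CfsgLib.PSA.NG_succ']
  change _ = g.1 * (mapGU σ (NGU σ g k)).1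
  rw [mapGU_val, NGU_val]

lemma cU_fU_pow (σ : RingAut F) (g : GUt n F q) (k : ℕ) :
    (cU g * fU σ : MulAut (PSU n F q)) ^ k = cU (NGU σ g k) * fU (σ ^ k) := by
  induction k with
  | zero =>
    rw [pow_zero, pow_zero, fU_one]
    change 1 = cU 1 * 1
    rw [cU_one, one_mul]
  | succ k ih =>
    rw [pow_succ, ih, pow_succ, fU_mul, mul_assoc, ← mul_assoc (fU (σ ^ k)), fU_cU]
    change _ = cU (NGU σ g k * mapGU (σ ^ k) g) * _
    rw [cU_mul]
    simp only [mul_assoc]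

section Main

variable [Fintype F] (hF : Fintype.card F = q ^ 2)

/-- The norm of a scalar multiple. -/
lemma NGU_mul_scalar_val (σ : RingAut F) (g : GUt n F q) (μ : Fˣ) (hμ : μ ^ (q + 1) = 1) (k : ℕ) :
    (NGU σ (g * guScalar n μ hμ) k).1.1 = ((CfsgLib.PSN.NmU σ k μ : Fˣ) : F) • (NGU σ g k).1.1 := by
  induction k with
  | zero =>
    have : CfsgLib.PSN.NmU σ 0 μ = 1 := by
      apply Units.ext
      rw [CfsgLib.PSN.NmU_val]
      simp
    rw [this, Units.val_one, one_smul]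
    rfl
  | succ k ih =>
    have e1 : (NGU σ (g * guScalar n μ hμ) (k + 1)).1.1 = (NGU σ (g * guScalar n μ hμ) k).1.1 * (g.1.1 * ((μ : F) • (1 : MM))).map (((σ ^ k : RingAut F) : F ≃+* F) : F →+* F) := rfl
    have e2 : (NGU σ g (k + 1)).1.1 = (NGU σ g k).1.1 * (g.1.1).map (((σ ^ k : RingAut F) : F ≃+* F) : F →+* F) := rfl
    have e3 : (g.1.1 * ((μ : F) • (1 : MM))).map (((σ ^ k : RingAut F) : F ≃+* F) : F →+* F) = ((σ ^ k) (μ : F)) • (g.1.1).map (((σ ^ k : RingAut F) : F ≃+* F) : F →+* F) := by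
      rw [mul_smul_comm, mul_one]
      ext i j
      simp
    rw [e1, e2, ih, e3, CfsgLib.PSN.NmU_succ, smul_mul_assoc, mul_smul_comm, smul_smul]

include hF in
/-- Hilbert's Theorem 90 for the general unitary group. -/
theorem H90GU {K : Subfield F} (σ : RingAut F) (hK : ∀ a, a ∈ K ↔ σ a = a) {r : ℕ} (hr : orderOf σ = r) (hr0 : 0 < r)
    (hmoved : ∃ e : F, σ e = e ∧ e ^ q ≠ e) (d : GUt n F q) (hN : NGU σ d r = 1) : ∃ h : GUt n F q, d * mapGU σ h = h := by
  classical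
  have hN' : CfsgLib.PSA.NG σ d.1 r = 1 := by
    rw [← NGU_val, hN]
    rfl
  obtain ⟨h₀, hh₀⟩ := CfsgLib.PSA.hilbert90 σ hr hr0 d.1 hN'
  have h := stdH_hform n hF
  have hf := h.toF
  let em : (Fin n → K) → (Fin n → F) := fun x i => (x i : F)
  have hσem : ∀ x, (fun k => σ (em x k)) = em x := by
    intro x
    funext k
    exact (hK _).1 (x k).2
  have hdh : ∀ z, d.1.1 *ᵥ (fun k => σ ((h₀.1 *ᵥ em z) k)) = h₀.1 *ᵥ em z := by
    intro z
    have e : (fun k => σ ((h₀.1 *ᵥ em z) k)) = (h₀.1.map (σ : F →+* F)) *ᵥ em z := by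
      have := map_mulVec_fun σ h₀.1 (em z)
      rw [hσem] at this
      exact this.symm
    rw [e, mulVec_mulVec]
    have e3 := congrArg Units.val hh₀
    rw [Units.val_mul] at e3
    exact congrArg (fun M => M *ᵥ em z) e3
  let C : (Fin n → F) → (Fin n → F) → F := fun x y => stdH n hF (h₀.1 *ᵥ x) (h₀.1 *ᵥ y)
  have hCfix : ∀ x y, σ (C (em x) (em y)) = C (em x) (em y) := by
    intro x y
    simp only [C]
    rw [← stdH_map hF σ, ← gu_pres hF d, hdh, hdh]
  have hKq : ∀ a : K, ((qFrob hF).comp K.subtype) a ∈ K := by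
    intro a
    rw [hK]
    change σ (qFrob hF (a : F)) = qFrob hF (a : F)
    rw [qFrob_apply, map_pow, (hK _).1 a.2]
  let τK : K →+* K := ((qFrob hF).comp K.subtype).codRestrict K hKq
  have hτv : ∀ a : K, ((τK a : K) : F) = qFrob hF (a : F) := fun a => rfl
  have hem_add : ∀ x y, em (x + y) = em x + em y := fun x y => rfl
  have hem_smul : ∀ (c : K) x, em (c • x) = (c : F) • em x := fun c x => rfl
  let B₀ : (Fin n → K) →ₛₗ[τK] (Fin n → K) →ₗ[K] K := LinearMap.mk₂'ₛₗ τK (RingHom.id K)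
    (fun x y => (⟨C (em x) (em y), (hK _).2 (hCfix x y)⟩ : K))
    (fun x x' y => Subtype.ext (by
      change C (em (x + x')) (em y) = C (em x) (em y) + C (em x') (em y)
      simp only [C, hem_add, mulVec_add, map_add, LinearMap.add_apply]))
    (fun c x y => Subtype.ext (by
      change C (em (c • x)) (em y) = qFrob hF (c : F) * C (em x) (em y)
      simp only [C, hem_smul, mulVec_smul, LinearMap.map_smulₛₗ₂, smul_eq_mul]))
    (fun x y y' => Subtype.ext (by
      change C (em x) (em (y + y')) = C (em x) (em y) + C (em x) (em y')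
      simp only [C, hem_add, mulVec_add, map_add]))
    (fun c x y => Subtype.ext (by
      change C (em x) (em (c • y)) = (c : F) * C (em x) (em y)
      simp only [C, hem_smul, mulVec_smul, map_smul, smul_eq_mul]))
  have hB₀ : ∀ x y, ((B₀ x y : K) : F) = C (em x) (em y) := fun x y => rfl
  have hτne : τK ≠ RingHom.id K := by
    obtain ⟨e, hσe, he⟩ := hmoved
    intro h0
    have h1 := congrArg (fun f : K →+* K => ((f ⟨e, (hK e).2 hσe⟩ : K) : F)) h0
    apply he
    rw [← qFrob_apply hF]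
    exact h1
  have hτ2 : ∀ a, τK (τK a) = a := fun a => Subtype.ext (qFrob_qFrob hF (a : F))
  have hS : ∀ x y, τK (B₀ x y) = B₀ y x := fun x y => Subtype.ext (stdH_symm n hF _ _)
  have hh₀inv : ∀ x, (h₀⁻¹).1 *ᵥ (h₀.1 *ᵥ x) = x := by
    intro x
    rw [mulVec_mulVec, ← Units.val_mul, inv_mul_cancel, Units.val_one, one_mulVec]
  have hh₀inv' : ∀ x, h₀.1 *ᵥ ((h₀⁻¹).1 *ᵥ x) = x := by
    intro x
    rw [mulVec_mulVec, ← Units.val_mul, mul_inv_cancel, Units.val_one, one_mulVec]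
  have hemS : ∀ i : Fin n, em (Pi.single i 1) = Pi.single i 1 := by
    intro i
    funext k
    by_cases h : k = i
    · subst h
      simp [em]
    · simp [em, Pi.single_apply, h]
  have hsep : NondegOn B₀ (⊤ : Submodule K (Fin n → K)) := by
    intro u _ hu
    have h1 : ∀ i : Fin n, stdH n hF (h₀.1 *ᵥ em u) (h₀.1 *ᵥ Pi.single i 1) = 0 := by
      intro i
      have h2 := congrArg (fun z : K => (z : F)) (hu (Pi.single i 1) trivial)
      simp only [hB₀, hemS, C] at h2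
      exact h2
    have h3 : h₀.1 *ᵥ em u = 0 := by
      apply h.sep
      intro x
      have e : x = ∑ i, ((h₀⁻¹).1 *ᵥ x) i • (h₀.1 *ᵥ Pi.single i 1) := by
        conv_lhs => rw [← hh₀inv' x, pi_eq_sum_univ ((h₀⁻¹).1 *ᵥ x)]
        rw [mulVec_sum]
        refine Finset.sum_congr rfl fun i _ => ?_
        rw [mulVec_smul]
        congr 2
        funext k
        simp [Pi.single_apply, eq_comm]
      rw [e, map_sum]
      apply Finset.sum_eq_zero
      intro i _
      rw [map_smul, h1, smul_zero]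
    have h4 : em u = 0 := by
      rw [← hh₀inv (em u), h3, mulVec_zero]
    funext k
    apply Subtype.ext
    exact congrFun h4 k
  obtain ⟨b, -, hb⟩ := exists_orthonormal hτne hτ2 hS n ⊤ (by simp [finrank_top]) hsep
  let y : Fin n → (Fin n → F) := fun j => h₀.1 *ᵥ em (b j)
  have hy : ∀ i j, stdH n hF (y i) (y j) = if i = j then 1 else 0 := by
    intro i j
    have h1 := congrArg (fun z : K => (z : F)) (hb i j)
    change C (em (b i)) (em (b j)) = ((if i = j then 1 else 0 : K) : F) at h1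
    rw [show stdH n hF (y i) (y j) = C (em (b i)) (em (b j)) from rfl, h1]
    split_ifs <;> simp
  let φ : (Fin n → F) →ₗ[F] (Fin n → F) := Fintype.linearCombination F y
  have hφ : ∀ c, φ c = ∑ i, c i • y i := fun c => by
    simp [φ, Fintype.linearCombination_apply]
  have hform : ∀ c d, stdH n hF (φ c) (φ d) = stdH n hF c d := by
    intro c d
    rw [hφ, hφ]
    exact frame_form hF y hy c d
  have hinj : Function.Injective φ := by
    rw [← LinearMap.ker_eq_bot, LinearMap.ker_eq_bot']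
    intro c hc
    apply h.sep
    intro d
    rw [← hform, hc]
    simp
  let E : (Fin n → F) ≃ₗ[F] (Fin n → F) := LinearEquiv.ofInjectiveEndo φ hinj
  have hEa : ∀ x, E x = φ x := fun x => rfl
  let g : GL (Fin n) F := glLin.symm E
  have hga : ∀ x, (g : MM) *ᵥ x = E x := fun x => glLin_symm_mulVec E x
  have hgm : g ∈ GU n F q := by
    intro u v
    change hermForm n F q ((g : MM) *ᵥ u) ((g : MM) *ᵥ v) = _
    rw [hga, hga, ← stdH_apply n hF, ← stdH_apply n hF, hEa, hEa]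
    exact hform v u
  have hgs : ∀ j, (g : MM) *ᵥ Pi.single j 1 = y j := by
    intro j
    rw [hga, hEa, hφ]
    simp [Pi.single_apply]
  refine ⟨⟨g, hgm⟩, ?_⟩
  apply Subtype.ext
  apply Units.ext
  change d.1.1 * (g : MM).map (σ : F →+* F) = (g : MM)
  apply Matrix.ext_of_mulVec_single
  intro j
  have hsingle : (fun k => σ ((Pi.single j 1 : Fin n → F) k)) = (Pi.single j 1 : Fin n → F) := by
    funext k
    by_cases hk : k = j
    · subst hk
      simp
    · simp [Pi.single_apply, hk]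
  have e1 := map_mulVec_fun σ (g : MM) (Pi.single j 1)
  rw [hsingle] at e1
  rw [← mulVec_mulVec, e1, hgs]
  exact hdh (b j)

lemma exists_moved {p f : ℕ} [hp : Fact p.Prime] (hq : q = p ^ f) (hf : 1 ≤ f) (hF : Fintype.card F = q ^ 2) (σ : RingAut F) {r : ℕ}
    (hr : orderOf σ = r) (hodd : Odd r) : ∃ e : F, σ e = e ∧ e ^ q ≠ e := by
  classical
  have hF' : Fintype.card F = p ^ (2 * f) := by rw [hF, hq, ← pow_mul, mul_comm]
  obtain ⟨hdvd, K, hK, hcard⟩ := CfsgLib.PSN.fixed_subfield hF' (by omega) σ hr hodd.pos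
  have hrf : r ∣ f := Nat.Coprime.dvd_of_dvd_mul_left (Nat.coprime_two_right.mpr hodd) hdvd
  obtain ⟨f₁, rfl⟩ := hrf
  have hf₁ : 1 ≤ f₁ := by
    by_contra h0
    have : f₁ = 0 := by omega
    subst this
    simp at hf
  have hdiv : 2 * (r * f₁) / r = 2 * f₁ := by
    rw [show 2 * (r * f₁) = r * (2 * f₁) by ring]
    exact Nat.mul_div_cancel_left _ hodd.pos
  rw [hdiv] at hcard
  obtain ⟨Q, hQ⟩ : ∃ Q, Q = p ^ f₁ := ⟨_, rfl⟩
  have hQ2 : 2 ≤ Q := by
    rw [hQ]
    calc 2 ≤ p := hp.out.two_le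
      _ = p ^ 1 := (pow_one p).symm
      _ ≤ p ^ f₁ := Nat.pow_le_pow_right hp.out.pos hf₁
  haveI : Fintype K := Fintype.ofFinite K
  have hcard' : Fintype.card K = Q ^ 2 := by
    rw [← Nat.card_eq_fintype_card, hcard, hQ, ← pow_mul, mul_comm]
  by_contra hno
  push Not at hno
  have hQ3 : ∀ a : K, a ^ (Q ^ 2) = a := by
    intro a
    rw [← hcard', FiniteField.pow_card]
  have hpow2 : ∀ (t : ℕ) (a : K), a ^ (Q ^ (2 * t)) = a := by
    intro t a
    induction t with
    | zero => simp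
    | succ t ih =>
      rw [show 2 * (t + 1) = 2 * t + 2 by ring, pow_add, pow_mul, ih, hQ3]
  obtain ⟨t, ht⟩ := hodd
  have hqQ : q = Q ^ (2 * t) * Q := by
    rw [hq, hQ, ht]
    ring
  have h1 : ∀ a : K, a ^ Q = a := by
    intro a
    have h2 := hno (a : F) ((hK _).1 a.2)
    have h3 : a ^ q = a := Subtype.ext (by simpa using h2)
    rw [hqQ, pow_mul, hpow2] at h3
    exact h3
  have h2 : ∀ x : Kˣ, x ^ (Q - 1) = 1 := by
    intro x
    apply Units.ext
    have h3 := h1 (x : K)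
    have h4 : (x : K) ^ (Q - 1) * x = 1 * x := by
      rw [← pow_succ, one_mul, show Q - 1 + 1 = Q by omega, h3]
    rw [Units.val_pow_eq_pow_val]
    exact mul_right_cancel₀ x.ne_zero h4
  have h3 := (FiniteField.forall_pow_eq_one_iff K (Q - 1)).1 h2
  rw [hcard'] at h3
  have h4 := Nat.le_of_dvd (by omega) h3
  have h5 : Q ≤ Q ^ 2 - 1 := by
    have : Q * 2 ≤ Q ^ 2 := by
      rw [sq]
      exact Nat.mul_le_mul_left _ hQ2
    omega
  omega

include hF in
/-- Scalars of norm one fixed by `σ` are norms from scalars of norm one. -/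
lemma exists_norm_unit (σ : RingAut F) (hmoved : ∃ e : F, σ e = e ∧ e ^ q ≠ e) {r : ℕ} (hr : orderOf σ = r) (hr0 : 0 < r) (l : Fˣ)
    (hl : l ^ (q + 1) = 1) (hσl : σ (l : F) = l) : ∃ μ : Fˣ, μ ^ (q + 1) = 1 ∧ CfsgLib.PSN.NmU σ r μ = l := by
  have hcq2 : ∀ x : F, (x ^ q) ^ q = x := by
    intro x
    rw [← pow_mul, ← sq, ← hF, FiniteField.pow_card]
  have hl' : (l : F) ^ (q + 1) = 1 := by
    rw [← Units.val_pow_eq_pow_val, hl, Units.val_one]
  have key : ∀ c : F, σ c = c → (σ (c + l * c ^ q) = c + l * c ^ q) ∧ (c + l * c ^ q = l * (c + l * c ^ q) ^ q) := by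
    intro c hc
    constructor
    · rw [map_add, map_mul, map_pow, hc, hσl]
    · have e1 : (c + l * c ^ q) ^ q = c ^ q + (l : F) ^ q * c := by
        rw [← qFrob_apply hF, map_add, map_mul, qFrob_apply, qFrob_apply, qFrob_apply, hcq2]
      rw [e1, mul_add, ← mul_assoc, ← pow_succ', hl', one_mul, add_comm]
  obtain ⟨y, hy0, hσy, hyl⟩ : ∃ y : F, y ≠ 0 ∧ σ y = y ∧ y = l * y ^ q := by
    by_cases h1 : 1 + (l : F) = 0
    · obtain ⟨e, hσe, he⟩ := hmoved
      obtain ⟨a, b⟩ := key e hσe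
      refine ⟨_, ?_, a, b⟩
      have hl1 : (l : F) = -1 := by linear_combination h1
      rw [hl1]
      intro h0
      apply he
      linear_combination -h0
    · obtain ⟨a, b⟩ := key 1 (map_one σ)
      refine ⟨_, ?_, a, b⟩
      simpa using h1
  obtain ⟨w, hw⟩ := CfsgLib.PSN.NmU_surj σ hr hr0 (Units.mk0 y hy0) hσy
  refine ⟨w * (w ^ q)⁻¹, ?_, ?_⟩
  · apply Units.ext
    simp only [Units.val_pow_eq_pow_val, Units.val_mul, Units.val_inv_eq_inv_val, Units.val_one]
    have hw0 : (w : F) ≠ 0 := w.ne_zero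
    have e1 : ((w : F) * ((w : F) ^ q)⁻¹) ^ (q + 1) = (w : F) ^ (q + 1) * (((w : F) ^ q) ^ (q + 1))⁻¹ := by
      rw [mul_pow, inv_pow]
    have e2 : ((w : F) ^ q) ^ (q + 1) = (w : F) * (w : F) ^ q := by
      rw [pow_succ, hcq2]
    rw [e1, e2, pow_succ, mul_comm ((w : F) ^ q) (w : F), mul_inv_cancel₀ (mul_ne_zero hw0 (pow_ne_zero _ hw0))]
  · rw [map_mul, map_inv, map_pow, hw]
    apply Units.ext
    simp only [Units.val_mul, Units.val_inv_eq_inv_val, Units.val_pow_eq_pow_val, Units.val_mk0]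
    have hyq : y ^ q ≠ 0 := pow_ne_zero _ hy0
    rw [mul_inv_eq_iff_eq_mul₀ hyq]
    exact hyl

include hF in
/-- Elements of order dividing `r` in a field coset are conjugate to the field automorphism. -/
theorem field_coset {p : ℕ} [hp : Fact p.Prime] [CharP F p] (hn : 3 ≤ n) {K : Subfield F} (σ : RingAut F)
    (hK : ∀ a, a ∈ K ↔ σ a = a) {r : ℕ} (hr : orderOf σ = r) (hr0 : 0 < r) (hmoved : ∃ e : F, σ e = e ∧ e ^ q ≠ e) (g : GUt n F q)
    (hp' : (cU g * fU σ : MulAut (PSU n F q)) ^ r = 1) :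
    ∃ h : GUt n F q, (cU g * fU σ : MulAut (PSU n F q)) = cU h * fU σ * (cU h)⁻¹ := by
  have hσr : σ ^ r = 1 := by
    rw [← hr]
    exact pow_orderOf_eq_one σ
  rw [cU_fU_pow, hσr, fU_one, mul_one] at hp'
  have hc := (cU_eq_one_iff hF (p := p) hn).1 hp'
  obtain ⟨l, hl, hNl⟩ := center_GU_scalar hF n (by omega) _ hc
  have hfix : σ (l : F) = l := by
    have e1 : NGU σ g (r + 1) = NGU σ g r * mapGU (σ ^ r) g := rfl
    rw [NGU_succ', hσr, mapGU_aut_one, hNl] at e1
    have e2 : g.1.1 * ((l : F) • (1 : MM)).map (σ : F →+* F) = ((l : F) • (1 : MM)) * g.1.1 := congrArg (fun z : GUt n F q => z.1.1) e1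
    have e3 : ((l : F) • (1 : MM)).map (σ : F →+* F) = (σ (l : F)) • (1 : MM) := by
      ext i j
      by_cases hij : i = j <;> simp [Matrix.one_apply, hij]
    rw [e3, mul_smul_comm, mul_one, smul_mul_assoc, one_mul] at e2
    have e4 := congrArg (fun M : MM => M * (g.1⁻¹).1) e2
    simp only [smul_mul_assoc] at e4
    have e5 : g.1.1 * (g.1⁻¹).1 = 1 := by
      rw [← Units.val_mul, mul_inv_cancel, Units.val_one]
    rw [e5] at e4
    have e6 := congrFun (congrFun e4 ⟨0, by omega⟩) ⟨0, by omega⟩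
    simpa using e6
  obtain ⟨μ, hμ, hNμ⟩ := exists_norm_unit hF σ hmoved hr hr0 l⁻¹ (by rw [inv_pow, hl, inv_one]) (by
    rw [Units.val_inv_eq_inv_val, map_inv₀, hfix])
  have hN : NGU σ (g * guScalar n μ hμ) r = 1 := by
    apply Subtype.ext
    apply Units.ext
    rw [NGU_mul_scalar_val, hNμ, hNl, guScalar_coe, smul_smul, Units.val_inv_eq_inv_val, inv_mul_cancel₀ l.ne_zero, one_smul]
    rfl
  obtain ⟨h, hh⟩ := H90GU hF σ hK hr hr0 hmoved (g * guScalar n μ hμ) hN
  refine ⟨h, ?_⟩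
  have e1 : (cU g : MulAut (PSU n F q)) = cU (g * guScalar n μ hμ) := by
    rw [cU_mul, (cU_eq_one_iff hF (p := p) hn).2 (guScalar_mem_center n μ hμ), mul_one]
  have e2 : g * guScalar n μ hμ = h * (mapGU σ h)⁻¹ := eq_mul_inv_of_mul_eq hh
  rw [e1, e2, cU_inv, mul_assoc, fU_cU, cU_mul, ← map_inv, mul_assoc]

include hF in
/-- Inner-diagonal automorphisms are normal in the automorphism group. -/
theorem conj_cU {p : ℕ} [hp : Fact p.Prime] [CharP F p] (hn : 3 ≤ n) (h32 : ¬ (n = 3 ∧ q = 2)) (α : MulAut (PSU n F q)) (g : GUt n F q) :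
    ∃ g' : GUt n F q, α * cU g * α⁻¹ = cU g' := by
  obtain ⟨k, ρ, hk, hind⟩ := exists_induced (p := p) hF hn h32 α
  have hα := semilinear_eq hk hind
  refine ⟨⟨k, hk⟩ * mapGU ρ g * (⟨k, hk⟩ : GUt n F q)⁻¹, ?_⟩
  rw [hα, cU_mul, cU_mul, ← cU_inv]
  have e := fU_cU ρ g
  obtain ⟨K, hK⟩ : ∃ K : MulAut (PSU n F q), K = cU ⟨k, hk⟩ := ⟨_, rfl⟩
  rw [← hK]
  calc K * fU ρ * cU g * (K * fU ρ)⁻¹ = K * (fU ρ * cU g) * (fU ρ)⁻¹ * K⁻¹ := by group
    _ = K * (cU (mapGU ρ g) * fU ρ) * (fU ρ)⁻¹ * K⁻¹ := by rw [e]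
    _ = K * cU (mapGU ρ g) * K⁻¹ := by group

include hF in
lemma fU_injective {p : ℕ} [hp : Fact p.Prime] [CharP F p] (hn : 3 ≤ n) : Function.Injective (fUHom : RingAut F →* MulAut (PSU n F q)) := by
  rw [injective_iff_map_eq_one]
  intro σ hσ
  have h1 : (cU (1 : GUt n F q) : MulAut (PSU n F q)) = fU σ := by
    rw [cU_one]
    exact hσ.symm
  exact field_part hF (p := p) hn h1

include hF in
lemma orderOf_fU {p : ℕ} [hp : Fact p.Prime] [CharP F p] (hn : 3 ≤ n) (σ : RingAut F) :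
    orderOf (fU σ : MulAut (PSU n F q)) = orderOf σ :=
  orderOf_injective (fUHom : RingAut F →* MulAut (PSU n F q)) (fU_injective hF (p := p) hn) σ

include hF in
/-- The main theorem on cosets of field automorphisms. -/
theorem coset_conj {p f : ℕ} [hp : Fact p.Prime] (hq : q = p ^ f) (hf : 1 ≤ f) (hn : 3 ≤ n) (h32 : ¬ (n = 3 ∧ q = 2)) (x δ : MulAut (PSU n F q))
    (hx : Cfsg.IsFieldAutClassPSU x) {r : ℕ} (hr : r.Prime) (hxr : orderOf x = r) (hδ : δ ∈ Cfsg.inndiagPSU n F q) :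
    orderOf (δ * x) = r ↔ Cfsg.IsConjUnder (Cfsg.inndiagPSU n F q) x (δ * x) := by
  classical
  have hF' : Fintype.card F = p ^ (2 * f) := by rw [hF, hq, ← pow_mul, mul_comm]
  haveI : CharP F p := charP_card' hF' (by omega)
  constructor
  · intro hord
    obtain ⟨α, φ, σ, -, hodd, hσ, he'⟩ := hx
    have hφ := std_eq_fU hσ
    have he : α * x * α⁻¹ = fU σ := he'.trans hφ
    have e1 : orderOf (α * x * α⁻¹) = r := by
      rw [CfsgLib.PSN.conj_inv_mem, hxr]
    rw [he, orderOf_fU hF (p := p) hn] at e1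
    obtain ⟨d, rfl⟩ := mem_inndiag.1 hδ
    obtain ⟨d', hd'⟩ := conj_cU hF (p := p) hn h32 α d
    have e2 : (cU d' * fU σ : MulAut (PSU n F q)) ^ r = 1 := by
      have e3 : (cU d' * fU σ : MulAut (PSU n F q)) = MulAut.conj α (cU d * x) := by
        rw [← hd', ← he, MulAut.conj_apply]
        group
      rw [e3, ← map_pow, ← hord, pow_orderOf_eq_one, map_one]
    obtain ⟨-, K, hK, -⟩ := CfsgLib.PSN.fixed_subfield hF' (by omega) σ e1 hr.pos
    have hmoved := exists_moved hq hf hF σ e1 (e1 ▸ hodd)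
    obtain ⟨h, hh⟩ := field_coset hF (p := p) hn σ hK e1 hr.pos hmoved d' e2
    obtain ⟨k, hk⟩ := conj_cU hF (p := p) hn h32 α⁻¹ h
    exact ⟨cU k, mem_inndiag.2 ⟨k, rfl⟩, CfsgLib.PSN.transport he hd' hh hk⟩
  · rintro ⟨k, -, e⟩
    rw [e, CfsgLib.PSN.conj_inv_mem, hxr]

end Main

end CfsgLib.PUA
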