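/-
Centralisers of field automorphisms and class splitting for `PSU_n(q)`.
-/
import Cfsg.Agent.Lib.PSUAut.Coset

set_option autoImplicit false
set_option linter.unusedSimpArgs false
set_option linter.unusedVariables false
set_option linter.unusedSectionVars false
set_option maxHeartbeats 1000000

namespace CfsgLib.PUA

open Module Matrix Cfsg CfsgLib.ClassGeo

variable {F : Type*} [Field F] {n q : ℕ}

local notation "MM" => Matrix (Fin n) (Fin n) F

/-- The units of norm one. -/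
abbrev UU (F : Type*) [Field F] (q : ℕ) : Subgroup Fˣ := (powMonoidHom (q + 1) : Fˣ →* Fˣ).ker

lemma card_UU [Fintype F] {q : ℕ} (hF : Fintype.card F = q ^ 2) : Nat.card (UU F q) = q + 1 := by
  classical
  have hq2 := qfrob_two_le hF
  have hker := IsCyclic.card_powMonoidHom_ker (G := Fˣ) (q + 1)
  have hcard : Nat.card Fˣ = q ^ 2 - 1 := by
    rw [Nat.card_eq_fintype_card, Fintype.card_units, hF]
  have hfac : q ^ 2 - 1 = (q + 1) * (q - 1) := by
    obtain ⟨k, rfl⟩ : ∃ k, q = k + 1 := ⟨q - 1, by omega⟩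
    simp only [Nat.add_sub_cancel]
    have : (k + 1) ^ 2 = (k + 1 + 1) * k + 1 := by ring
    omega
  rw [hker, hcard, hfac]
  exact Nat.gcd_eq_right (Nat.dvd_mul_right _ _)

section Main

variable [Fintype F] (hF : Fintype.card F = q ^ 2)

/-- The determinant with values in the norm-one units. -/
noncomputable def guD : GUt n F q →* UU F q :=
  (guDet n).codRestrict (UU F q) (fun g => by
    rw [MonoidHom.mem_ker]
    apply Units.ext
    change ((guDet n g : Fˣ) : F) ^ (q + 1) = 1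
    rw [guDet_apply]
    exact det_norm_of_isom hF n _ g.2)

lemma guD_val (g : GUt n F q) : ((guD hF g : UU F q) : Fˣ) = guDet n g := rfl

lemma guD_surj (hn : 1 ≤ n) : Function.Surjective (guD hF : GUt n F q →* UU F q) := by
  intro u
  obtain ⟨g, hg⟩ := exists_gu_det hF n hn (u : Fˣ) (MonoidHom.mem_ker.mp u.2)
  exact ⟨g, Subtype.ext hg⟩

lemma guD_scalar (c : UU F q) : guD hF (guScalar n (c : Fˣ) (show (c : Fˣ) ^ (q + 1) = 1 from MonoidHom.mem_ker.mp c.2)) = c ^ n := by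
  apply Subtype.ext
  rw [guD_val]
  exact guDet_guScalar n (c : Fˣ) _

lemma inn_iff' {k : MulAut (PSU n F q)} : k ∈ Cfsg.Inn (PSU n F q) ↔ ∃ g : GUt n F q, guD hF g = 1 ∧ k = cU g := by
  constructor
  · rintro ⟨x, rfl⟩
    obtain ⟨s, rfl⟩ := Pu_surj x
    refine ⟨suToGU n s, ?_, conj_Pu_eq s⟩
    apply Subtype.ext
    apply Units.ext
    rw [guD_val, guDet_apply]
    exact s.1.2
  · rintro ⟨g, hg, rfl⟩
    have hdet : g.1.1.det = 1 := by
      rw [← guDet_apply, ← guD_val hF, hg]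
      rfl
    let s : SUt n F q := ⟨⟨g.1.1, hdet⟩, g.2⟩
    have hgs : g = suToGU n s := by
      apply Subtype.ext
      apply Units.ext
      rfl
    refine ⟨Pu s, ?_⟩
    change MulAut.conj (Pu s) = cU g
    rw [conj_Pu_eq, ← hgs]

/-- The determinants of elements centralising `x`. -/
noncomputable def multC (x : MulAut (PSU n F q)) : Subgroup (UU F q) :=
  ((Subgroup.centralizer {x}).comap (cUHom : GUt n F q →* MulAut (PSU n F q))).map (guD hF)

lemma mem_multC {x : MulAut (PSU n F q)} {u : UU F q} :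
    u ∈ multC hF x ↔ ∃ g : GUt n F q, cU g * x = x * cU g ∧ guD hF g = u := by
  constructor
  · rintro ⟨g, hg, rfl⟩
    have h1 : cUHom g ∈ Subgroup.centralizer {x} := hg
    rw [Subgroup.mem_centralizer_singleton_iff] at h1
    exact ⟨g, h1, rfl⟩
  · rintro ⟨g, hg, rfl⟩
    refine ⟨g, ?_, rfl⟩
    change cUHom g ∈ Subgroup.centralizer {x}
    rw [Subgroup.mem_centralizer_singleton_iff]
    exact hg

/-- Two conjugates are inner-conjugate iff their determinants agree modulo the centraliser. -/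
lemma split_key (x : MulAut (PSU n F q)) (g g' : GUt n F q) :
    Cfsg.IsConjUnder (Cfsg.Inn (PSU n F q)) (cU g * x * (cU g)⁻¹) (cU g' * x * (cU g')⁻¹) ↔
      ((guD hF g : UU F q) : UU F q ⧸ multC hF x) = ((guD hF g' : UU F q) : UU F q ⧸ multC hF x) := by
  rw [QuotientGroup.eq]
  constructor
  · rintro ⟨k, hk, e⟩
    obtain ⟨A, hA, rfl⟩ := (inn_iff' hF).1 hk
    rw [mem_multC]
    refine ⟨(A * g)⁻¹ * g', ?_, ?_⟩
    · rw [cU_mul, ← cU_inv, cU_mul]
      have e2 : x = (cU A * cU g)⁻¹ * (cU g' * x * (cU g')⁻¹) * (cU A * cU g) := by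
        rw [e]
        group
      nth_rewrite 2 [e2]
      group
    · rw [map_mul, map_inv, map_mul, hA, one_mul]
  · intro h
    obtain ⟨c, hc, hdet⟩ := (mem_multC hF).1 h
    let A := g' * c⁻¹ * g⁻¹
    have hA : guD hF A = 1 := by
      simp only [A, map_mul, map_inv]
      rw [hdet]
      simp only [_root_.mul_inv_rev, inv_inv]
      rw [mul_comm (_ : UU F q)]
      simp [mul_comm, mul_assoc]
    refine ⟨cU A, (inn_iff' hF).2 ⟨A, hA, rfl⟩, ?_⟩
    have hg' : g' = A * g * c := by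
      simp [A]
    rw [hg', cU_mul, cU_mul]
    have hx : cU c * x * (cU c)⁻¹ = x := by
      rw [hc, mul_inv_cancel_right]
    calc cU A * cU g * cU c * x * (cU A * cU g * cU c)⁻¹ = cU A * (cU g * (cU c * x * (cU c)⁻¹) * (cU g)⁻¹) * (cU A)⁻¹ := by group
      _ = _ := by rw [hx]

/-- The number of inner classes in an inner-diagonal class. -/
theorem split_count (hn : 1 ≤ n) (x : MulAut (PSU n F q)) :
    Cfsg.splitClassCount (Cfsg.inndiagPSU n F q) (Cfsg.Inn (PSU n F q)) x = (multC hF x).index := by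
  classical
  have hex : ∀ y : {y : MulAut (PSU n F q) // Cfsg.IsConjUnder (Cfsg.inndiagPSU n F q) x y}, ∃ g : GUt n F q, y.1 = cU g * x * (cU g)⁻¹ := by
    rintro ⟨y, h, hh, e⟩
    obtain ⟨g, rfl⟩ := mem_inndiag.1 hh
    exact ⟨g, e⟩
  choose G hG using hex
  let Φ : Quot (fun y z : {y : MulAut (PSU n F q) // Cfsg.IsConjUnder (Cfsg.inndiagPSU n F q) x y} => Cfsg.IsConjUnder (Cfsg.Inn (PSU n F q)) y.1 z.1) → UU F q ⧸ multC hF x :=
    Quot.lift (fun y => ((guD hF (G y) : UU F q) : UU F q ⧸ multC hF x)) (by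
      intro y z h
      have h1 : Cfsg.IsConjUnder (Cfsg.Inn (PSU n F q)) (cU (G y) * x * (cU (G y))⁻¹) (cU (G z) * x * (cU (G z))⁻¹) := by
        rw [← hG, ← hG]
        exact h
      exact (split_key hF x _ _).1 h1)
  have hbij : Function.Bijective Φ := by
    constructor
    · intro a b
      obtain ⟨y, rfl⟩ := Quot.exists_rep a
      obtain ⟨z, rfl⟩ := Quot.exists_rep b
      intro h
      apply Quot.sound
      have h1 := (split_key hF x (G y) (G z)).2 h
      rw [← hG, ← hG] at h1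
      exact h1
    · intro u
      obtain ⟨u, rfl⟩ := QuotientGroup.mk_surjective u
      obtain ⟨g, hg⟩ := guD_surj hF (n := n) hn u
      let y : {y : MulAut (PSU n F q) // Cfsg.IsConjUnder (Cfsg.inndiagPSU n F q) x y} :=
        ⟨cU g * x * (cU g)⁻¹, cU g, mem_inndiag.2 ⟨_, rfl⟩, rfl⟩
      refine ⟨Quot.mk _ y, ?_⟩
      change ((guD hF (G y) : UU F q) : UU F q ⧸ multC hF x) = _
      have h1 : Cfsg.IsConjUnder (Cfsg.Inn (PSU n F q)) (cU (G y) * x * (cU (G y))⁻¹) (cU g * x * (cU g)⁻¹) := by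
        rw [← hG]
        exact ⟨1, Subgroup.one_mem _, by simp [y]⟩
      have h2 := (split_key hF x _ _).1 h1
      rw [h2, hg]
  exact Nat.card_congr (Equiv.ofBijective Φ hbij)

section Sub

variable {F₀ : Type*} [Field F₀] [Fintype F₀] {q₀ : ℕ} (hF₀ : Fintype.card F₀ = q₀ ^ 2) (ι : F₀ →+* F)

include hF hF₀ in
/-- The commuting elements can be made fixed by multiplying by a scalar of norm one. -/
theorem comm_aux (hn : 1 ≤ n) (σ : RingAut F) {r : ℕ} (hr : orderOf σ = r) (hr0 : 0 < r)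
    (hι : ∀ a, σ a = a ↔ ∃ b, ι b = a) (hιq : ∀ b, ι b ^ q = ι (b ^ q₀)) (g : GUt n F q) {l : Fˣ} (hl : l ^ (q + 1) = 1)
    (hl' : mapGU σ g = g * guScalar n l hl) :
    ∃ (c : Fˣ) (h : c ^ (q + 1) = 1), mapGU σ (g * guScalar n c h) = g * guScalar n c h := by
  have hσr : σ ^ r = 1 := by
    rw [← hr]
    exact pow_orderOf_eq_one σ
  have hlv : (l : F) ^ (q + 1) = 1 := by
    rw [← Units.val_pow_eq_pow_val, hl, Units.val_one]
  have hpow : ∀ k : ℕ, (mapGU (σ ^ k) g).1.1 = ((CfsgLib.PSN.NmU σ k l : Fˣ) : F) • g.1.1 := by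
    intro k
    induction k with
    | zero =>
      have : CfsgLib.PSN.NmU σ 0 l = 1 := by
        apply Units.ext
        rw [CfsgLib.PSN.NmU_val]
        simp
      rw [this, Units.val_one, one_smul, pow_zero, mapGU_aut_one]
    | succ k ih =>
      rw [pow_succ, mapGU_aut_mul, hl', map_mul, Subgroup.coe_mul, Units.val_mul, ih, CfsgLib.PSN.NmU_succ, smul_mul_assoc]
      have e : (mapGU (σ ^ k) (guScalar n l hl)).1.1 = ((σ ^ k) (l : F)) • (1 : MM) := by
        change ((l : F) • (1 : MM)).map (((σ ^ k : RingAut F) : F ≃+* F) : F →+* F) = _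
        ext i j
        by_cases hij : i = j <;> simp [Matrix.one_apply, hij]
      rw [e, mul_smul_comm, mul_one, smul_smul]
  have hginv : ∀ a : F, a • g.1.1 = g.1.1 → a = 1 := by
    intro a ha
    have e4 := congrArg (fun M : MM => M * (g.1⁻¹).1) ha
    simp only [smul_mul_assoc] at e4
    have e5 : g.1.1 * (g.1⁻¹).1 = 1 := by
      rw [← Units.val_mul, mul_inv_cancel, Units.val_one]
    rw [e5] at e4
    have e6 := congrFun (congrFun e4 ⟨0, by omega⟩) ⟨0, by omega⟩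
    simpa using e6
  have h5 := hpow r
  rw [hσr, mapGU_aut_one] at h5
  have h6 : ((CfsgLib.PSN.NmU σ r l : Fˣ) : F) = 1 := hginv _ h5.symm
  rw [CfsgLib.PSN.NmU_val] at h6
  obtain ⟨b, hb0, hb⟩ := CfsgLib.PSN.hilbert90_scalar σ hr hr0 (l : F) h6
  have hcq2 : ∀ x : F, (x ^ q) ^ q = x := by
    intro x
    rw [← pow_mul, ← sq, ← hF, FiniteField.pow_card]
  -- the norm of `b` is fixed
  obtain ⟨t, ht⟩ : ∃ t, t = b ^ (q + 1) := ⟨_, rfl⟩
  have ht0 : t ≠ 0 := by
    rw [ht]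
    exact pow_ne_zero _ hb0
  have hσt : σ t = t := by
    have e1 : (l : F) ^ (q + 1) * (σ b) ^ (q + 1) = b ^ (q + 1) := by
      rw [← mul_pow, hb]
    rw [hlv, one_mul] at e1
    rw [ht, map_pow, e1]
  have htq : t ^ q = t := by
    have e : b ^ (q + 1) = b ^ q * b := pow_succ b q
    rw [ht, e, mul_pow, hcq2, mul_comm]
  obtain ⟨t₀, ht₀⟩ := (hι t).1 hσt
  have ht₀0 : t₀ ≠ 0 := by
    rintro rfl
    rw [map_zero] at ht₀
    exact ht0 ht₀.symm
  have ht₀q : qFrob hF₀ t₀ = t₀ := by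
    rw [qFrob_apply]
    apply ι.injective
    rw [← hιq, ht₀, htq]
  obtain ⟨s₀, hs₀⟩ := herm_norm_surj (qFrob hF₀) (qFrob_ne hF₀) (qFrob_qFrob hF₀) t₀⁻¹ (inv_ne_zero ht₀0) (by rw [map_inv₀, ht₀q])
  rw [qFrob_apply] at hs₀
  obtain ⟨s, hs⟩ : ∃ s, s = ι s₀ := ⟨_, rfl⟩
  have hσs : σ s = s := (hι s).2 ⟨s₀, hs.symm⟩
  have hsq : s ^ (q + 1) = t⁻¹ := by
    rw [pow_succ, hs, hιq, ← map_mul, mul_comm, hs₀, map_inv₀, ht₀]
  have hs0 : s ≠ 0 := by
    intro h0
    rw [h0, zero_pow (by omega)] at hsq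
    exact inv_ne_zero ht0 hsq.symm
  have hc0 : b * s ≠ 0 := mul_ne_zero hb0 hs0
  have hcn : Units.mk0 (b * s) hc0 ^ (q + 1) = 1 := by
    apply Units.ext
    rw [Units.val_pow_eq_pow_val, Units.val_mk0, mul_pow, hsq, ← ht, mul_inv_cancel₀ ht0, Units.val_one]
  refine ⟨Units.mk0 (b * s) hc0, hcn, ?_⟩
  apply Subtype.ext
  apply Units.ext
  rw [map_mul, Subgroup.coe_mul, Units.val_mul, hl', Subgroup.coe_mul, Subgroup.coe_mul, Units.val_mul, Units.val_mul]
  have e : (mapGU σ (guScalar n (Units.mk0 (b * s) hc0) hcn)).1.1 = (σ (b * s)) • (1 : MM) := by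
    change ((b * s : F) • (1 : MM)).map ((σ : F ≃+* F) : F →+* F) = _
    ext i j
    by_cases hij : i = j <;> simp [Matrix.one_apply, hij]
  rw [e]
  change g.1.1 * ((l : F) • (1 : MM)) * ((σ (b * s)) • (1 : MM)) = g.1.1 * ((b * s : F) • (1 : MM))
  rw [map_mul, hσs, mul_smul_comm, mul_smul_comm, mul_smul_comm, mul_one, mul_one, smul_smul]
  congr 1
  linear_combination s * hb

include hF hF₀ in
/-- The commuting elements can be made fixed by multiplying by a scalar of norm one. -/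
theorem comm_field {p : ℕ} [hp : Fact p.Prime] [CharP F p] (hn : 3 ≤ n) (σ : RingAut F) {r : ℕ} (hr : orderOf σ = r) (hr0 : 0 < r)
    (hι : ∀ a, σ a = a ↔ ∃ b, ι b = a) (hιq : ∀ b, ι b ^ q = ι (b ^ q₀)) (g : GUt n F q)
    (hc : (cU g * fU σ : MulAut (PSU n F q)) = fU σ * cU g) :
    ∃ (c : Fˣ) (h : c ^ (q + 1) = 1), mapGU σ (g * guScalar n c h) = g * guScalar n c h := by
  rw [fU_cU] at hc
  have h1 : cU (g⁻¹ * mapGU σ g) = (1 : MulAut (PSU n F q)) := by
    have h2 := mul_right_cancel hc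
    rw [cU_mul, ← h2, ← cU_mul, inv_mul_cancel, cU_one]
  obtain ⟨l, hl, hgl⟩ := center_GU_scalar hF n (by omega) _ ((cU_eq_one_iff hF (p := p) hn).1 h1)
  have hl' : mapGU σ g = g * guScalar n l hl := by
    rw [← hgl, mul_inv_cancel_left]
  exact comm_aux hF hF₀ ι (by omega) σ hr hr0 hι hιq g hl hl'

/-- A matrix with orthonormal columns is unitary. -/
lemma mem_GU_of_basis (g : GL (Fin n) F) (h : ∀ i j, stdH n hF ((g : MM) *ᵥ Pi.single i 1) ((g : MM) *ᵥ Pi.single j 1) = if i = j then 1 else 0) : g ∈ GU n F q := by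
  classical
  have hsum : ∀ c : Fin n → F, (g : MM) *ᵥ c = ∑ i, c i • ((g : MM) *ᵥ Pi.single i 1) := by
    intro c
    conv_lhs => rw [pi_eq_sum_univ c]
    rw [mulVec_sum]
    refine Finset.sum_congr rfl fun i _ => ?_
    rw [mulVec_smul]
    congr 2
    funext k
    simp [Pi.single_apply, eq_comm]
  intro u v
  change hermForm n F q ((g : MM) *ᵥ u) ((g : MM) *ᵥ v) = _
  rw [← stdH_apply n hF, ← stdH_apply n hF, hsum u, hsum v]
  exact frame_form hF _ h v u

lemma herm_iota (hιq : ∀ b, ι b ^ q = ι (b ^ q₀)) (x y : Fin n → F₀) :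
    hermForm n F q (fun k => ι (x k)) (fun k => ι (y k)) = ι (hermForm n F₀ q₀ x y) := by
  simp only [hermForm, map_sum, map_mul, hιq]

lemma iota_mulVec (M : Matrix (Fin n) (Fin n) F₀) (x : Fin n → F₀) :
    M.map ι *ᵥ (fun k => ι (x k)) = fun k => ι ((M *ᵥ x) k) := by
  funext k
  exact (RingHom.map_mulVec ι M x k).symm

lemma iota_single (j : Fin n) : (fun k => ι ((Pi.single j 1 : Fin n → F₀) k)) = (Pi.single j 1 : Fin n → F) := by
  funext k
  by_cases hk : k = j
  · subst hk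
    simp
  · simp [Pi.single_apply, hk]

/-- The map from the unitary group of the subfield. -/
noncomputable def mapI (hιq : ∀ b, ι b ^ q = ι (b ^ q₀)) : GUt n F₀ q₀ →* GUt n F q where
  toFun g₀ := ⟨Matrix.GeneralLinearGroup.map ι g₀.1, by
    classical
    apply mem_GU_of_basis hF
    intro i j
    have e : ∀ l : Fin n, ((Matrix.GeneralLinearGroup.map ι g₀.1 : GL (Fin n) F) : MM) *ᵥ Pi.single l 1 = fun k => ι ((g₀.1.1 *ᵥ Pi.single l 1) k) := by
      intro l
      rw [← iota_single ι l]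
      exact iota_mulVec ι g₀.1.1 _
    rw [e, e, stdH_apply, herm_iota ι hιq]
    have h2 := g₀.2 (Pi.single j 1) (Pi.single i 1)
    have h3 : hermForm n F₀ q₀ (g₀.1.1 *ᵥ Pi.single j 1) (g₀.1.1 *ᵥ Pi.single i 1) = hermForm n F₀ q₀ (Pi.single j 1) (Pi.single i 1) := h2
    rw [h3, ← stdH_apply n hF₀, stdH_single hF₀ n i j]
    split_ifs <;> simp⟩
  map_one' := Subtype.ext (map_one _)
  map_mul' a b := Subtype.ext (map_mul _ _ _)

lemma mapI_val (hιq : ∀ b, ι b ^ q = ι (b ^ q₀)) (g₀ : GUt n F₀ q₀) : (mapI hF hF₀ ι hιq g₀).1.1 = g₀.1.1.map ι := rfl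

lemma cU_comm_fU_of_fixed (σ : RingAut F) {g : GUt n F q} (hg : mapGU σ g = g) :
    (cU g * fU σ : MulAut (PSU n F q)) = fU σ * cU g := by
  rw [fU_cU, hg]

include hF hF₀ in
/-- The centraliser of a field automorphism in the inner-diagonal group. -/
theorem centralizer_iso {p : ℕ} [hp : Fact p.Prime] [CharP F p] (hn : 3 ≤ n) (σ : RingAut F) {r : ℕ} (hr : orderOf σ = r) (hr0 : 0 < r)
    (hι : ∀ a, σ a = a ↔ ∃ b, ι b = a) (hιq : ∀ b, ι b ^ q = ι (b ^ q₀)) :
    Nonempty (↥(Cfsg.inndiagPSU n F q ⊓ Subgroup.centralizer {(fU σ : MulAut (PSU n F q))}) ≃* Cfsg.PGU n F₀ q₀) := by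
  classical
  let Ψ : GUt n F₀ q₀ →* MulAut (PSU n F q) := cUHom.comp (mapI hF hF₀ ι hιq)
  have hΨ : ∀ g₀, Ψ g₀ = cU (mapI hF hF₀ ι hιq g₀) := fun _ => rfl
  have hfix : ∀ g₀ : GUt n F₀ q₀, mapGU σ (mapI hF hF₀ ι hιq g₀) = mapI hF hF₀ ι hιq g₀ := by
    intro g₀
    apply Subtype.ext
    apply Units.ext
    ext i j
    exact (hι _).2 ⟨_, rfl⟩
  have hrange : Ψ.range = Cfsg.inndiagPSU n F q ⊓ Subgroup.centralizer {(fU σ : MulAut (PSU n F q))} := by
    ext β
    rw [Subgroup.mem_inf, MonoidHom.mem_range, Subgroup.mem_centralizer_singleton_iff]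
    constructor
    · rintro ⟨g₀, rfl⟩
      exact ⟨mem_inndiag.2 ⟨_, rfl⟩, cU_comm_fU_of_fixed σ (hfix g₀)⟩
    · rintro ⟨h1, h2⟩
      obtain ⟨g, rfl⟩ := mem_inndiag.1 h1
      obtain ⟨c, hc, hfixg⟩ := comm_field hF hF₀ ι (p := p) hn σ hr hr0 hι hιq g h2
      obtain ⟨g₀, hg₀⟩ := CfsgLib.PSN.descend_GL ι σ hι (g * guScalar n c hc).1 (congrArg Subtype.val hfixg)
      have hg₀' : g₀.1.map ι = (g * guScalar n c hc).1.1 := congrArg Units.val hg₀
      have hmem : g₀ ∈ GU n F₀ q₀ := by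
        intro u v
        change hermForm n F₀ q₀ (g₀.1 *ᵥ u) (g₀.1 *ᵥ v) = hermForm n F₀ q₀ u v
        apply ι.injective
        rw [← herm_iota ι hιq, ← herm_iota ι hιq, ← iota_mulVec, ← iota_mulVec, hg₀']
        exact (g * guScalar n c hc).2 _ _
      refine ⟨⟨g₀, hmem⟩, ?_⟩
      rw [hΨ]
      have e : mapI hF hF₀ ι hιq ⟨g₀, hmem⟩ = g * guScalar n c hc := Subtype.ext hg₀
      rw [e, cU_mul, (cU_eq_one_iff hF (p := p) hn).2 (guScalar_mem_center n c hc), mul_one]
  have hker : Ψ.ker = (Geo.scalars (Fin n) F₀).subgroupOf (GU n F₀ q₀) := by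
    ext g₀
    rw [MonoidHom.mem_ker, Subgroup.mem_subgroupOf, Geo.mem_scalars_iff]
    constructor
    · intro h
      obtain ⟨l, hl, hgl⟩ := center_GU_scalar hF n (by omega) _ ((cU_eq_one_iff hF (p := p) hn).1 (show cU (mapI hF hF₀ ι hιq g₀) = 1 from h))
      have hent : ∀ i j, ι (g₀.1.1 i j) = ((l : F) • (1 : MM)) i j := by
        intro i j
        have := congrFun (congrFun (congrArg (fun x : GUt n F q => x.1.1) hgl) i) j
        exact this
      let i₀ : Fin n := ⟨0, by omega⟩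
      have h0 : g₀.1.1 i₀ i₀ ≠ 0 := by
        intro h0
        have := hent i₀ i₀
        rw [h0, map_zero] at this
        simp only [Matrix.smul_apply, Matrix.one_apply_eq, smul_eq_mul, mul_one] at this
        exact l.ne_zero this.symm
      refine ⟨Units.mk0 _ h0, ?_⟩
      ext i j
      apply ι.injective
      rw [hent i j]
      by_cases hij : i = j
      · subst hij
        have := hent i₀ i₀
        simp only [Matrix.smul_apply, Matrix.one_apply_eq, smul_eq_mul, mul_one] at this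
        simp only [Matrix.smul_apply, Matrix.one_apply_eq, smul_eq_mul, mul_one, Units.val_mk0]
        exact this.symm
      · simp [hij]
    · rintro ⟨c, hc⟩
      change cU (mapI hF hF₀ ι hιq g₀) = 1
      apply (cU_eq_one_iff hF (p := p) hn).2
      rw [Subgroup.mem_center_iff]
      intro k
      apply Subtype.ext
      apply Units.ext
      change k.1.1 * g₀.1.1.map ι = g₀.1.1.map ι * k.1.1
      rw [hc]
      have e : ((c : F₀) • (1 : Matrix (Fin n) (Fin n) F₀)).map ι = (ι c) • (1 : MM) := by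
        ext i j
        by_cases hij : i = j <;> simp [Matrix.one_apply, hij]
      rw [e]
      simp
  have e1 := QuotientGroup.quotientKerEquivRange Ψ
  have e2 : (GUt n F₀ q₀ ⧸ Ψ.ker) ≃* Cfsg.PGU n F₀ q₀ := QuotientGroup.quotientMulEquivOfEq hker
  have e3 : Ψ.range ≃* ↥(Cfsg.inndiagPSU n F q ⊓ Subgroup.centralizer {(fU σ : MulAut (PSU n F q))}) := MulEquiv.subgroupCongr hrange
  exact ⟨(e3.symm.trans e1.symm).trans e2⟩

include hF₀ in
/-- The number of norm-one units fixed by `σ`. -/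
lemma card_fix_UU (σ : RingAut F) (hι : ∀ a, σ a = a ↔ ∃ b, ι b = a) (hιq : ∀ b, ι b ^ q = ι (b ^ q₀)) :
    Nat.card ((CfsgLib.PSN.fixU σ).comap (UU F q).subtype) = q₀ + 1 := by
  classical
  rw [← card_UU hF₀]
  symm
  refine Nat.card_congr (Equiv.ofBijective (fun b : UU F₀ q₀ => (⟨⟨Units.map (ι : F₀ →* F) b.1, ?_⟩, ?_⟩ : (CfsgLib.PSN.fixU σ).comap (UU F q).subtype)) ⟨?_, ?_⟩)
  · rw [MonoidHom.mem_ker]
    apply Units.ext
    change (ι (b.1 : F₀)) ^ (q + 1) = 1
    have h1 : (b.1 : F₀) ^ (q₀ + 1) = 1 := by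
      have := congrArg Units.val (MonoidHom.mem_ker.mp b.2)
      simpa using this
    rw [pow_succ, hιq, ← map_mul, ← pow_succ, h1, map_one]
  · exact (hι _).2 ⟨_, rfl⟩
  · intro a b hab
    have h1 : ι ((a.1 : F₀)) = ι ((b.1 : F₀)) := congrArg (fun z : (CfsgLib.PSN.fixU σ).comap (UU F q).subtype => ((z.1.1 : Fˣ) : F)) hab
    exact Subtype.ext (Units.ext (ι.injective h1))
  · rintro ⟨⟨v, hv⟩, hfix⟩
    obtain ⟨b, hb⟩ := (hι _).1 (show σ (v : F) = v from hfix)
    have hb0 : b ≠ 0 := by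
      rintro rfl
      rw [map_zero] at hb
      exact v.ne_zero hb.symm
    have h1 : (v : F) ^ (q + 1) = 1 := by
      have := congrArg Units.val (MonoidHom.mem_ker.mp hv)
      simpa using this
    have h2 : b ^ (q₀ + 1) = 1 := by
      apply ι.injective
      rw [pow_succ, map_mul, ← hιq, hb, ← pow_succ, h1, map_one]
    have h3 : Units.mk0 b hb0 ^ (q₀ + 1) = 1 := by
      apply Units.ext
      rw [Units.val_pow_eq_pow_val, Units.val_mk0, h2, Units.val_one]
    refine ⟨⟨Units.mk0 b hb0, MonoidHom.mem_ker.mpr h3⟩, ?_⟩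
    apply Subtype.ext
    apply Subtype.ext
    apply Units.ext
    exact hb

include hF in
/-- Diagonal elements fixed by `σ` with a given determinant. -/
lemma exists_fixed_det (hn : 1 ≤ n) (σ : RingAut F) (c : Fˣ) (hc : c ^ (q + 1) = 1) (hσ : σ (c : F) = c) :
    ∃ g : GUt n F q, guDet n g = c ∧ mapGU σ g = g := by
  classical
  have hq2 := qfrob_two_le hF
  let i₀ : Fin n := ⟨0, by omega⟩
  let d : Fin n → F := Function.update 1 i₀ (c : F)
  have hd : ∀ i, d i ^ (q + 1) = 1 := by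
    intro i
    by_cases h : i = i₀
    · simp only [d, h, Function.update_self]
      rw [← Units.val_pow_eq_pow_val, hc, Units.val_one]
    · simp [d, h]
  have hdσ : ∀ i, σ (d i) = d i := by
    intro i
    by_cases h : i = i₀
    · simp only [d, h, Function.update_self]
      exact hσ
    · simp [d, h]
  have hdet : (Matrix.diagonal d).det = c := by
    rw [Matrix.det_diagonal]
    rw [Finset.prod_eq_single i₀]
    · simp [d]
    · intro b _ hb
      simp [d, hb]
    · simp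
  refine ⟨⟨Matrix.GeneralLinearGroup.mkOfDetNeZero (Matrix.diagonal d) (by rw [hdet]; exact c.ne_zero), ?_⟩, ?_, ?_⟩
  · intro u v
    change hermForm n F q ((Matrix.diagonal d) *ᵥ u) ((Matrix.diagonal d) *ᵥ v) = _
    simp only [hermForm, Matrix.mulVec_diagonal, mul_pow]
    refine Finset.sum_congr rfl fun i _ => ?_
    linear_combination (u i * v i ^ q) * hd i
  · apply Units.ext
    rw [guDet_apply]
    exact hdet
  · apply Subtype.ext
    apply Units.ext
    ext i j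
    change σ ((Matrix.diagonal d) i j) = (Matrix.diagonal d) i j
    by_cases hij : i = j
    · subst hij
      simp [hdσ]
    · simp [hij]

include hF hF₀ in
/-- The determinants of the centraliser of a field automorphism. -/
theorem multC_fU {p : ℕ} [hp : Fact p.Prime] [CharP F p] (hn : 3 ≤ n) (σ : RingAut F) {r : ℕ} (hr : orderOf σ = r) (hr0 : 0 < r)
    (hι : ∀ a, σ a = a ↔ ∃ b, ι b = a) (hιq : ∀ b, ι b ^ q = ι (b ^ q₀)) :
    multC hF (fU σ : MulAut (PSU n F q)) = (CfsgLib.PSN.fixU σ).comap (UU F q).subtype ⊔ (powMonoidHom n : UU F q →* UU F q).range := by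
  apply le_antisymm
  · intro u hu
    obtain ⟨g, hg, rfl⟩ := (mem_multC hF).1 hu
    obtain ⟨c, hc, hfix⟩ := comm_field hF hF₀ ι (p := p) hn σ hr hr0 hι hιq g hg
    rw [Subgroup.mem_sup]
    let c' : UU F q := ⟨c, MonoidHom.mem_ker.mpr hc⟩
    refine ⟨guD hF (g * guScalar n c hc), ?_, (c'⁻¹) ^ n, ⟨c'⁻¹, rfl⟩, ?_⟩
    · change σ ((guDet n (g * guScalar n c hc) : Fˣ) : F) = ((guDet n (g * guScalar n c hc) : Fˣ) : F)
      rw [guDet_apply]
      have h1 := RingHom.map_det (σ : F →+* F) (g * guScalar n c hc).1.1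
      have h2 : ((σ : F →+* F).mapMatrix (g * guScalar n c hc).1.1) = (g * guScalar n c hc).1.1 := congrArg (fun z : GUt n F q => z.1.1) hfix
      rw [h2] at h1
      exact h1
    · have e : guD hF (guScalar n c hc) = c' ^ n := guD_scalar hF c'
      rw [map_mul, e, inv_pow, mul_inv_cancel_right]
  · refine sup_le ?_ ?_
    · intro v hv
      obtain ⟨g, hg, hfix⟩ := exists_fixed_det hF (n := n) (by omega : 1 ≤ n) σ v.1 (MonoidHom.mem_ker.mp v.2) hv
      exact (mem_multC hF).2 ⟨g, cU_comm_fU_of_fixed σ hfix, Subtype.ext hg⟩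
    · rintro _ ⟨v, rfl⟩
      refine (mem_multC hF).2 ⟨guScalar n (v : Fˣ) (show (v : Fˣ) ^ (q + 1) = 1 from MonoidHom.mem_ker.mp v.2), ?_, guD_scalar hF v⟩
      rw [(cU_eq_one_iff hF (p := p) hn).2 (guScalar_mem_center n _ _), one_mul, mul_one]

end Sub

include hF in
/-- The main theorem on field automorphisms. -/
theorem field_class {p f : ℕ} [hp : Fact p.Prime] (hq : q = p ^ f) (hf : 1 ≤ f) (hn : 3 ≤ n) (h32 : ¬ (n = 3 ∧ q = 2))
    (x : MulAut (PSU n F q)) (hx : Cfsg.IsFieldAutClassPSU x) {r : ℕ} (hr : r.Prime) (hro : Odd r) (hxr : orderOf x = r)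
    (F₀ : Type*) [Field F₀] [Fintype F₀] (hF₀ : Fintype.card F₀ = p ^ (2 * (f / r))) :
    r ∣ f ∧ Nonempty (↥(Cfsg.inndiagPSU n F q ⊓ Subgroup.centralizer {x}) ≃* Cfsg.PGU n F₀ (p ^ (f / r))) ∧
      Cfsg.splitClassCount (Cfsg.inndiagPSU n F q) (Cfsg.Inn (PSU n F q)) x = Nat.gcd n ((q + 1) / (p ^ (f / r) + 1)) := by
  classical
  have hF' : Fintype.card F = p ^ (2 * f) := by rw [hF, hq, ← pow_mul, mul_comm]
  haveI : CharP F p := charP_card' hF' (by omega)
  obtain ⟨α, φ, σ, -, -, hσ, he'⟩ := hx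
  have hφ := std_eq_fU hσ
  have he : α * x * α⁻¹ = fU σ := he'.trans hφ
  have hord : orderOf σ = r := by
    have e1 : orderOf (α * x * α⁻¹) = r := by
      rw [CfsgLib.PSN.conj_inv_mem, hxr]
    rwa [he, orderOf_fU hF (p := p) hn] at e1
  obtain ⟨hdvd, -⟩ := CfsgLib.PSN.fixed_subfield hF' (by omega) σ hord hr.pos
  have hrf : r ∣ f := Nat.Coprime.dvd_of_dvd_mul_left (Nat.coprime_two_right.mpr hro) hdvd
  have hdiv : 2 * f / r = 2 * (f / r) := Nat.mul_div_assoc 2 hrf
  obtain ⟨ι, hι⟩ := CfsgLib.PSN.exists_embedding hF' (by omega) σ hord hr.pos F₀ (by rw [hdiv]; exact hF₀)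
  obtain ⟨q₀, hq₀⟩ : ∃ q₀, q₀ = p ^ (f / r) := ⟨_, rfl⟩
  rw [← hq₀]
  have hF₀q : Fintype.card F₀ = q₀ ^ 2 := by
    rw [hF₀, hq₀, ← pow_mul, mul_comm]
  have hιq : ∀ b : F₀, ι b ^ q = ι (b ^ q₀) := by
    have h2 : ∀ b : F₀, b ^ (q₀ ^ 2) = b := by
      intro b
      rw [← hF₀q, FiniteField.pow_card]
    have hpow2 : ∀ (t : ℕ) (a : F₀), a ^ (q₀ ^ (2 * t)) = a := by
      intro t a
      induction t with
      | zero => simp
      | succ t ih =>
        rw [show 2 * (t + 1) = 2 * t + 2 by ring, pow_add, pow_mul, ih, h2]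
    obtain ⟨t, ht⟩ := hro
    have hqQ : q = q₀ ^ (2 * t) * q₀ := by
      rw [hq, hq₀, ← pow_mul, ← pow_add]
      congr 1
      have h3 : r * (f / r) = f := Nat.mul_div_cancel' hrf
      obtain ⟨m, hm⟩ : ∃ m, m = f / r := ⟨_, rfl⟩
      rw [← hm] at h3 ⊢
      rw [← h3, ht]
      ring
    intro b
    rw [← map_pow]
    congr 1
    rw [hqQ, pow_mul, hpow2]
  refine ⟨hrf, ?_, ?_⟩
  · obtain ⟨E⟩ := centralizer_iso hF hF₀q ι (p := p) hn σ hord hr.pos hι hιq
    have hmap : (Cfsg.inndiagPSU n F q ⊓ Subgroup.centralizer {x}).map (MulAut.conj α).toMonoidHom = Cfsg.inndiagPSU n F q ⊓ Subgroup.centralizer {(fU σ : MulAut (PSU n F q))} := by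
      ext β
      simp only [Subgroup.mem_map, Subgroup.mem_inf, Subgroup.mem_centralizer_singleton_iff]
      constructor
      · rintro ⟨γ, ⟨h1, h2⟩, rfl⟩
        obtain ⟨g, rfl⟩ := mem_inndiag.1 h1
        obtain ⟨g', hg'⟩ := conj_cU hF (p := p) hn h32 α g
        refine ⟨mem_inndiag.2 ⟨g', hg'⟩, ?_⟩
        change α * cU g * α⁻¹ * fU σ = fU σ * (α * cU g * α⁻¹)
        rw [← he]
        calc α * cU g * α⁻¹ * (α * x * α⁻¹) = α * (cU g * x) * α⁻¹ := by group
          _ = α * (x * cU g) * α⁻¹ := by rw [h2]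
          _ = _ := by group
      · rintro ⟨h1, h2⟩
        obtain ⟨g, rfl⟩ := mem_inndiag.1 h1
        obtain ⟨g', hg'⟩ := conj_cU hF (p := p) hn h32 α⁻¹ g
        refine ⟨cU g', ⟨mem_inndiag.2 ⟨g', rfl⟩, ?_⟩, ?_⟩
        · rw [← hg']
          have hx' : x = α⁻¹ * fU σ * α := by
            rw [← he]
            group
          rw [hx']
          calc α⁻¹ * cU g * α⁻¹⁻¹ * (α⁻¹ * fU σ * α) = α⁻¹ * (cU g * fU σ) * α := by group
            _ = α⁻¹ * (fU σ * cU g) * α := by rw [h2]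
            _ = _ := by group
        · change α * cU g' * α⁻¹ = cU g
          rw [← hg']
          group
    have e1 := MulEquiv.subgroupMap (MulAut.conj α) (Cfsg.inndiagPSU n F q ⊓ Subgroup.centralizer {x})
    exact ⟨e1.trans ((MulEquiv.subgroupCongr hmap).trans E)⟩
  · have hH : ∀ h, α * h * α⁻¹ ∈ Cfsg.inndiagPSU n F q ↔ h ∈ Cfsg.inndiagPSU n F q := by
      intro h
      constructor
      · intro h1
        obtain ⟨g, hg⟩ := mem_inndiag.1 h1
        obtain ⟨g', hg'⟩ := conj_cU hF (p := p) hn h32 α⁻¹ g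
        refine mem_inndiag.2 ⟨g', ?_⟩
        rw [← hg', ← hg]
        group
      · intro h1
        obtain ⟨g, rfl⟩ := mem_inndiag.1 h1
        obtain ⟨g', hg'⟩ := conj_cU hF (p := p) hn h32 α g
        exact mem_inndiag.2 ⟨g', hg'⟩
    have hK : ∀ h, α * h * α⁻¹ ∈ Cfsg.Inn (PSU n F q) ↔ h ∈ Cfsg.Inn (PSU n F q) := by
      intro h
      constructor
      · intro h1
        have := (Cfsg.innNormal (PSU n F q)).conj_mem _ h1 α⁻¹
        simpa [mul_assoc] using this
      · intro h1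
        exact (Cfsg.innNormal (PSU n F q)).conj_mem _ h1 α
    rw [CfsgLib.PSN.splitClassCount_conj _ _ α hH hK x, he, split_count hF (by omega), multC_fU hF hF₀q ι (p := p) hn σ hord hr.pos hι hιq,
      CfsgLib.PSN.index_sup_pow, card_UU hF, card_fix_UU hF₀q ι σ hι hιq]

end Main

end CfsgLib.PUA
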