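/-
The centraliser in `Inndiag(PSU_n(q))` of the field automorphism attached to `x ↦ x^q`: it is the
projective similarity group of the dot product over the subfield with `q` elements.
-/
import Mathlib
import Cfsg.Agent.Lib.PSUAut.Class
import Cfsg.Agent.Lib.PSLn.GraphCentType

set_option autoImplicit false
set_option linter.unusedSimpArgs false
set_option linter.unusedVariables false
set_option linter.unusedSectionVars false
set_option maxHeartbeats 1000000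

namespace CfsgLib.PUA.GC

open Module Matrix Cfsg CfsgLib.ClassGeo CfsgLib.PUA

open CfsgLib.PSN.GC (sim_iff cM cM_mulVec cM_symm_cM cM_cM_symm sim_of sim_symm scalar_of scG_val)

/-- Projective similarity groups of similar forms agree. -/
theorem pgo_congr {F : Type*} [Field F] {ι ι' : Type} [Fintype ι] [DecidableEq ι] [Fintype ι'] [DecidableEq ι']
    {Q₁ : (ι → F) → F} {Q₂ : (ι' → F) → F} (P : (ι → F) ≃ₗ[F] (ι' → F)) (κ : F) (hκ : κ ≠ 0)
    (hP : ∀ v, Q₂ (P v) = κ * Q₁ v) :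
    Nonempty (Cfsg.projQuot (Cfsg.Geo.quadSimilarityGroup (F := F) Q₁) ≃* Cfsg.projQuot (Cfsg.Geo.quadSimilarityGroup (F := F) Q₂)) := by
  have hS := sim_symm (Q₁ := Q₁) (Q₂ := Q₂) P κ hκ hP
  let f : Cfsg.Geo.quadSimilarityGroup (F := F) Q₂ →* Cfsg.Geo.quadSimilarityGroup (F := F) Q₁ :=
    MonoidHom.codRestrict ((cM P.symm).comp (Cfsg.Geo.quadSimilarityGroup (F := F) Q₂).subtype) _
      (fun x => sim_of P.symm κ⁻¹ (inv_ne_zero hκ) hS x.2)
  let Φ := (QuotientGroup.mk' ((Cfsg.Geo.scalars ι F).subgroupOf (Cfsg.Geo.quadSimilarityGroup (F := F) Q₁))).comp f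
  have hsurj : Function.Surjective Φ := by
    intro y
    obtain ⟨x, rfl⟩ := QuotientGroup.mk'_surjective _ y
    refine ⟨⟨cM P x.1, sim_of P κ hκ hP x.2⟩, ?_⟩
    have e : f ⟨cM P x.1, sim_of P κ hκ hP x.2⟩ = x := Subtype.ext (cM_symm_cM P x.1)
    change QuotientGroup.mk' _ (f _) = _
    rw [e]
  have hker : Φ.ker = (Cfsg.Geo.scalars ι' F).subgroupOf (Cfsg.Geo.quadSimilarityGroup (F := F) Q₂) := by
    ext x
    rw [MonoidHom.mem_ker, Subgroup.mem_subgroupOf]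
    have e : Φ x = 1 ↔ f x ∈ (Cfsg.Geo.scalars ι F).subgroupOf (Cfsg.Geo.quadSimilarityGroup (F := F) Q₁) :=
      QuotientGroup.eq_one_iff _
    rw [e, Subgroup.mem_subgroupOf]
    constructor
    · intro h
      have h4 := scalar_of P h
      have e2 : ((f x : Cfsg.Geo.quadSimilarityGroup (F := F) Q₁) : GL ι F) = cM P.symm x.1 := rfl
      rw [e2, cM_cM_symm] at h4
      exact h4
    · intro h
      exact scalar_of P.symm h
  exact ⟨((QuotientGroup.quotientMulEquivOfEq hker).symm.trans (QuotientGroup.quotientKerEquivOfSurjective Φ hsurj)).symm⟩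

variable {F : Type*} [Field F] {n q : ℕ}

local notation "MM" => Matrix (Fin n) (Fin n) F

section gu

variable (σ : RingAut F) (hσ : ∀ a, σ a = a ^ q)

include hσ in
lemma herm_eq (u v : Fin n → F) : hermForm n F q u v = u ⬝ᵥ (fun k => σ (v k)) := by
  simp [hermForm, dotProduct, hσ]

include hσ in
lemma herm_mat (M : MM) (u v : Fin n → F) :
    hermForm n F q (M *ᵥ u) (M *ᵥ v) = u ⬝ᵥ ((Mᵀ * M.map (σ : F →+* F)) *ᵥ (fun k => σ (v k))) := by
  rw [herm_eq σ hσ, ← map_mulVec_fun σ M v, ← Matrix.mulVec_mulVec, Matrix.dotProduct_mulVec u,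
    Matrix.vecMul_transpose]

include hσ in
lemma gu_iff (g : GL (Fin n) F) : g ∈ GU n F q ↔ (g : MM)ᵀ * (g : MM).map (σ : F →+* F) = 1 := by
  constructor
  · intro h
    ext i j
    have h1 : hermForm n F q ((g : MM) *ᵥ Pi.single i 1) ((g : MM) *ᵥ Pi.single j 1) = hermForm n F q (Pi.single i 1) (Pi.single j 1) := h _ _
    rw [herm_mat σ hσ, herm_eq σ hσ] at h1
    have e : (fun k => σ ((Pi.single j 1 : Fin n → F) k)) = (Pi.single j 1 : Fin n → F) := by
      funext k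
      by_cases hk : k = j
      · subst hk
        simp
      · simp [Pi.single_apply, hk]
    rw [e] at h1
    simpa [Matrix.mulVec_single, Matrix.one_apply, Pi.single_apply, eq_comm] using h1
  · intro h u v
    change hermForm n F q ((g : MM) *ᵥ u) ((g : MM) *ᵥ v) = hermForm n F q u v
    rw [herm_mat σ hσ, h, Matrix.one_mulVec, ← herm_eq σ hσ]

end gu

lemma entries_scalar {F₀ : Type*} [Field F₀] (ι : F₀ →+* F) (A : Matrix (Fin n) (Fin n) F₀) (κ : F) (hκ : κ ≠ 0)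
    (h : A.map ι = κ • 1) (i₀ : Fin n) : ∃ c : F₀ˣ, A = (c : F₀) • 1 ∧ ι (c : F₀) = κ := by
  classical
  have h1 : ∀ i j, ι (A i j) = if i = j then κ else 0 := by
    intro i j
    have := congrFun (congrFun h i) j
    simpa [Matrix.one_apply] using this
  have h3 : ι (A i₀ i₀) = κ := by
    rw [h1, if_pos rfl]
  have h4 : A i₀ i₀ ≠ 0 := by
    intro h0
    rw [h0, map_zero] at h3
    exact hκ h3.symm
  refine ⟨Units.mk0 _ h4, ?_, h3⟩
  ext i j
  apply ι.injective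
  rw [h1]
  by_cases hij : i = j
  · subst hij
    simp [h3]
  · simp [hij]

lemma map_smul_one' {F₀ : Type*} [Field F₀] (ι : F₀ →+* F) (c : F₀) :
    (((c : F₀) • (1 : Matrix (Fin n) (Fin n) F₀)).map ι : Matrix (Fin n) (Fin n) F) = ι c • 1 := by
  classical
  ext i j
  by_cases hij : i = j
  · subst hij
    simp
  · simp [hij]

section cent

variable [Fintype F] (hF : Fintype.card F = q ^ 2)

include hF in
lemma cU_eq_of_smul {p : ℕ} [hp : Fact p.Prime] [CharP F p] (hn : 3 ≤ n) (G G' : GUt n F q) (c : F)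
    (h : G'.1.1 = c • G.1.1) : (cU G' : MulAut (PSU n F q)) = cU G := by
  have hz : (G⁻¹ * G').1.1 = c • (1 : MM) := by
    change (G⁻¹).1.1 * G'.1.1 = _
    rw [h, Matrix.mul_smul]
    congr 1
    exact congrArg (fun x : GUt n F q => x.1.1) (inv_mul_cancel G)
  have hc : G⁻¹ * G' ∈ Subgroup.center (GUt n F q) := by
    rw [Subgroup.mem_center_iff]
    intro y
    apply Subtype.ext
    apply Units.ext
    change y.1.1 * (G⁻¹ * G').1.1 = (G⁻¹ * G').1.1 * y.1.1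
    rw [hz, Matrix.mul_smul, Matrix.smul_mul, Matrix.mul_one, Matrix.one_mul]
  have e : G' = G * (G⁻¹ * G') := by group
  rw [e, cU_mul, (cU_eq_one_iff hF (p := p) hn).2 hc, mul_one]

variable {F₀ : Type*} [Field F₀] (ι : F₀ →+* F) (σ : RingAut F) (hσ : ∀ a, σ a = a ^ q)
  (hι : ∀ a, σ a = a ↔ ∃ b, ι b = a)

include hF hσ hι in
lemma exists_lift (hn : 3 ≤ n) [NeZero n] (h2₀ : (2 : F₀) ≠ 0) (hne : (σ : F →+* F) ≠ RingHom.id F) (hσ2 : ∀ a, σ (σ a) = a)
    (x : GL (Fin n) F₀)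
    (hx : x ∈ Cfsg.Geo.quadSimilarityGroup (F := F₀) (fun v : Fin n → F₀ => v ⬝ᵥ v)) :
    ∃ (G : GUt n F q) (μ : F), μ ≠ 0 ∧ G.1.1 = μ • (x.1.map ι) := by
  classical
  obtain ⟨c, hc⟩ := (sim_iff h2₀ x).1 hx
  have hc0 : ι (c : F₀) ≠ 0 := (map_ne_zero ι).2 c.ne_zero
  obtain ⟨t, ht⟩ := herm_norm_surj (σ : F →+* F) hne hσ2 (ι (c : F₀))⁻¹ (inv_ne_zero hc0) (by
    change σ _ = _
    rw [← map_inv₀]
    exact (hι _).2 ⟨_, rfl⟩)
  have ht' : t * σ t = (ι (c : F₀))⁻¹ := ht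
  have ht0 : t ≠ 0 := by
    intro h0
    rw [h0, zero_mul] at ht'
    exact inv_ne_zero hc0 ht'.symm
  obtain ⟨M, hM⟩ : ∃ M : MM, M = x.1.map ι := ⟨_, rfl⟩
  have hMσ : M.map (σ : F →+* F) = M := by
    ext i j
    rw [hM]
    exact (hι _).2 ⟨_, rfl⟩
  have hMM : Mᵀ * M = ι (c : F₀) • 1 := by
    have e1 : ((x : Matrix (Fin n) (Fin n) F₀)ᵀ * (x : Matrix (Fin n) (Fin n) F₀)).map ι = ((c : F₀) • (1 : Matrix (Fin n) (Fin n) F₀)).map ι := by rw [hc]
    rw [map_smul_one', Matrix.map_mul, Matrix.transpose_map] at e1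
    have e2 : (x.1.map ι) = M := hM.symm
    have e3 : ((x : Matrix (Fin n) (Fin n) F₀).map ι) = M := hM.symm
    rw [e3] at e1
    exact e1
  let G₀ : GL (Fin n) F := CfsgLib.PSN.scG (Units.mk0 t ht0) * Matrix.GeneralLinearGroup.map ι x
  have hG₀ : (G₀ : MM) = t • M := by
    change ((CfsgLib.PSN.scG (Units.mk0 t ht0) : GL (Fin n) F) : MM) * (x.1.map ι) = _
    rw [scG_val, ← hM, Matrix.smul_mul, Matrix.one_mul]
    rfl
  have hmem : G₀ ∈ GU n F q := by
    rw [gu_iff σ hσ, hG₀]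
    have e4 : (t • M).map (σ : F →+* F) = σ t • M := by
      ext i j
      have := congrFun (congrFun hMσ i) j
      simp only [Matrix.map_apply, Matrix.smul_apply, smul_eq_mul] at this ⊢
      rw [map_mul]
      simp only [RingEquiv.coe_toRingHom] at this ⊢
      rw [this]
    rw [e4, Matrix.transpose_smul, Matrix.smul_mul, Matrix.mul_smul, hMM, smul_smul, smul_smul, ht', mul_comm,
      mul_inv_cancel₀ hc0, one_smul]
  exact ⟨⟨G₀, hmem⟩, t, ht0, by rw [← hM]; exact hG₀⟩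

include hF hσ hι in
theorem main_cent {p : ℕ} [hp : Fact p.Prime] [CharP F p] (hn : 3 ≤ n) [NeZero n] (h2₀ : (2 : F₀) ≠ 0)
    (hne : (σ : F →+* F) ≠ RingHom.id F) (hσ2 : ∀ a, σ (σ a) = a) (hr : orderOf σ = 2) :
    Nonempty (↥(Cfsg.inndiagPSU n F q ⊓ Subgroup.centralizer {(fU σ : MulAut (PSU n F q))}) ≃*
      Cfsg.projQuot (Cfsg.Geo.quadSimilarityGroup (F := F₀) (fun v : Fin n → F₀ => v ⬝ᵥ v))) := by
  classical
  have hL := fun x : Cfsg.Geo.quadSimilarityGroup (F := F₀) (fun v : Fin n → F₀ => v ⬝ᵥ v) =>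
    exists_lift hF ι σ hσ hι hn h2₀ hne hσ2 x.1 x.2
  choose G μ hμ hG using hL
  have hi₀ : Fin n := ⟨0, by omega⟩
  let Ψ₀ : Cfsg.Geo.quadSimilarityGroup (F := F₀) (fun v : Fin n → F₀ => v ⬝ᵥ v) →* MulAut (PSU n F q) :=
    MonoidHom.mk' (fun x => cU (G x)) (by
      intro a b
      change (cU (G (a * b)) : MulAut (PSU n F q)) = cU (G a) * cU (G b)
      rw [← cU_mul]
      apply cU_eq_of_smul hF (p := p) hn _ _ (μ (a * b) * (μ a * μ b)⁻¹)
      have e1 : (G a * G b).1.1 = (μ a * μ b) • (a.1.1.map ι * b.1.1.map ι) := by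
        change (G a).1.1 * (G b).1.1 = _
        rw [hG, hG, Matrix.smul_mul, Matrix.mul_smul, smul_smul]
      have e2 : ((a * b).1.1.map ι : MM) = a.1.1.map ι * b.1.1.map ι := Matrix.map_mul
      rw [hG, e2, e1, smul_smul, mul_assoc, inv_mul_cancel₀ (mul_ne_zero (hμ a) (hμ b)), mul_one])
  have hΨ₀ : ∀ x, Ψ₀ x = cU (G x) := fun x => rfl
  have hcomm : ∀ x, Ψ₀ x ∈ Cfsg.inndiagPSU n F q ⊓ Subgroup.centralizer {(fU σ : MulAut (PSU n F q))} := by
    intro x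
    refine ⟨mem_inndiag.2 ⟨_, rfl⟩, ?_⟩
    change Ψ₀ x ∈ Subgroup.centralizer {(fU σ : MulAut (PSU n F q))}
    rw [Subgroup.mem_centralizer_singleton_iff, hΨ₀, fU_cU]
    congr 1
    symm
    apply cU_eq_of_smul hF (p := p) hn _ _ (σ (μ x) * (μ x)⁻¹)
    have e1 : (mapGU σ (G x)).1.1 = ((G x).1.1).map (σ : F →+* F) := rfl
    rw [e1, hG, smul_smul, mul_assoc, inv_mul_cancel₀ (hμ x), mul_one]
    ext i j
    have : σ (ι (x.1.1 i j)) = ι (x.1.1 i j) := (hι _).2 ⟨_, rfl⟩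
    simp [this]
  let Ψ := MonoidHom.codRestrict Ψ₀ _ hcomm
  have hsurj : Function.Surjective Ψ := by
    rintro ⟨β, hβ1, hβ2⟩
    obtain ⟨g, rfl⟩ := mem_inndiag.1 hβ1
    have hβ2' : cU g ∈ Subgroup.centralizer {(fU σ : MulAut (PSU n F q))} := hβ2
    rw [Subgroup.mem_centralizer_singleton_iff, fU_cU] at hβ2'
    have e1 : (cU (mapGU σ g) : MulAut (PSU n F q)) = cU g := (mul_right_cancel hβ2').symm
    have e2 : (cU (g⁻¹ * mapGU σ g) : MulAut (PSU n F q)) = 1 := by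
      rw [cU_mul, e1, ← cU_mul, inv_mul_cancel, cU_one]
    have hz := (cU_eq_one_iff hF (p := p) hn).1 e2
    obtain ⟨l, hl, he⟩ := center_GU_scalar hF n (by omega) _ hz
    have hl' : (l : F) ^ (q + 1) = 1 := by
      rw [← Units.val_pow_eq_pow_val, hl, Units.val_one]
    have hgl : ((g.1.1 : MM)).map (σ : F →+* F) = (l : F) • g.1.1 := by
      have e3 : mapGU σ g = g * guScalar n l hl := by
        rw [← he, mul_inv_cancel_left]
      have e4 := congrArg (fun y : GUt n F q => y.1.1) e3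
      change ((g.1.1 : MM)).map (σ : F →+* F) = g.1.1 * ((l : F) • (1 : MM)) at e4
      rw [e4, Matrix.mul_smul, Matrix.mul_one]
    -- Hilbert 90
    obtain ⟨b, hb0, hb⟩ := CfsgLib.PSN.hilbert90_scalar σ hr (by norm_num) (l : F) (by
      rw [Finset.prod_range_succ, Finset.prod_range_one, pow_zero, pow_one]
      change (l : F) * σ (l : F) = 1
      rw [hσ, ← hl', pow_succ]
      ring)
    let h : GL (Fin n) F := CfsgLib.PSN.scG (Units.mk0 b hb0) * g.1
    have hh : (h : MM) = b • g.1.1 := by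
      change ((CfsgLib.PSN.scG (Units.mk0 b hb0) : GL (Fin n) F) : MM) * g.1.1 = _
      rw [scG_val, Matrix.smul_mul, Matrix.one_mul]
      rfl
    have hfix : Matrix.GeneralLinearGroup.map (σ : F →+* F) h = h := by
      apply Units.ext
      change ((h : MM)).map (σ : F →+* F) = h
      rw [hh]
      have e5 : (b • (g.1.1 : MM)).map (σ : F →+* F) = σ b • ((g.1.1 : MM)).map (σ : F →+* F) := by
        ext i j
        simp
      rw [e5, hgl, smul_smul, mul_comm, hb]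
    obtain ⟨g₀, hg₀⟩ := CfsgLib.PSN.descend_GL ι σ hι h hfix
    have hg₀' : g₀.1.map ι = b • g.1.1 := by
      have := congrArg (fun y : GL (Fin n) F => (y : MM)) hg₀
      change g₀.1.map ι = (h : MM) at this
      rw [this, hh]
    have hgg : (g.1.1 : MM)ᵀ * g.1.1 = ((l : F))⁻¹ • 1 := by
      have e6 := (gu_iff σ hσ g.1).1 g.2
      rw [hgl, Matrix.mul_smul] at e6
      rw [← e6, smul_smul, inv_mul_cancel₀ l.ne_zero, one_smul]
    have hmem : g₀ ∈ Cfsg.Geo.quadSimilarityGroup (F := F₀) (fun v : Fin n → F₀ => v ⬝ᵥ v) := by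
      rw [sim_iff h2₀]
      have hκ : b * b * ((l : F))⁻¹ ≠ 0 := mul_ne_zero (mul_ne_zero hb0 hb0) (inv_ne_zero l.ne_zero)
      have e7 : ((g₀ : Matrix (Fin n) (Fin n) F₀)ᵀ * (g₀ : Matrix (Fin n) (Fin n) F₀)).map ι = (b * b * ((l : F))⁻¹) • 1 := by
        rw [Matrix.map_mul, Matrix.transpose_map]
        have e8 : ((g₀ : Matrix (Fin n) (Fin n) F₀)).map ι = b • g.1.1 := hg₀'
        rw [e8, Matrix.transpose_smul, Matrix.smul_mul, Matrix.mul_smul, hgg, smul_smul, smul_smul, mul_assoc]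
      obtain ⟨c, hc, -⟩ := entries_scalar ι _ _ hκ e7 hi₀
      exact ⟨c, hc⟩
    refine ⟨⟨g₀, hmem⟩, Subtype.ext ?_⟩
    change (cU (G ⟨g₀, hmem⟩) : MulAut (PSU n F q)) = cU g
    apply cU_eq_of_smul hF (p := p) hn _ _ (μ ⟨g₀, hmem⟩ * b)
    rw [hG]
    change μ ⟨g₀, hmem⟩ • g₀.1.map ι = _
    rw [hg₀', smul_smul]
  have hker : Ψ.ker = (Cfsg.Geo.scalars (Fin n) F₀).subgroupOf (Cfsg.Geo.quadSimilarityGroup (F := F₀) (fun v : Fin n → F₀ => v ⬝ᵥ v)) := by
    ext x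
    rw [MonoidHom.mem_ker, Subgroup.mem_subgroupOf, Cfsg.Geo.mem_scalars_iff]
    have e0 : Ψ x = 1 ↔ (cU (G x) : MulAut (PSU n F q)) = 1 := by
      constructor
      · intro h
        exact congrArg Subtype.val h
      · intro h
        exact Subtype.ext h
    rw [e0]
    constructor
    · intro h
      have hz := (cU_eq_one_iff hF (p := p) hn).1 h
      obtain ⟨l, hl, he⟩ := center_GU_scalar hF n (by omega) _ hz
      have e1 : (G x).1.1 = (l : F) • 1 := by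
        rw [he]
        rfl
      rw [hG] at e1
      have e2 : x.1.1.map ι = ((μ x)⁻¹ * (l : F)) • 1 := by
        rw [← smul_smul, ← e1, smul_smul, inv_mul_cancel₀ (hμ x), one_smul]
      obtain ⟨c, hc, -⟩ := entries_scalar ι _ _ (mul_ne_zero (inv_ne_zero (hμ x)) l.ne_zero) e2 hi₀
      exact ⟨c, hc⟩
    · rintro ⟨c, hc⟩
      have e1 : (cU (G x) : MulAut (PSU n F q)) = cU (1 : GUt n F q) := by
        apply cU_eq_of_smul hF (p := p) hn _ _ (μ x * ι (c : F₀))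
        rw [hG]
        have e2 : ((x.1 : GL (Fin n) F₀) : Matrix (Fin n) (Fin n) F₀).map ι = ι (c : F₀) • 1 := by
          rw [hc, map_smul_one']
        rw [e2, smul_smul]
        rfl
      rw [e1, cU_one]
  exact ⟨(QuotientGroup.quotientKerEquivOfSurjective Ψ hsurj).symm.trans (QuotientGroup.quotientMulEquivOfEq hker)⟩

end cent

end CfsgLib.PUA.GC

namespace CfsgLib.PUA.GC

open Module Matrix Cfsg CfsgLib.ClassGeo CfsgLib.PUA CfsgLib.PSN.GC CfsgLib.ClassGeo.DiscType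

/-- The dot product in dimension `2m` with `(-1)^m` a square is of plus type, up to a factor. -/
theorem dot_plus {F₀ : Type*} [Field F₀] [Fintype F₀] (h2 : (2 : F₀) ≠ 0) {m : ℕ} (hm1 : 1 ≤ m)
    (hsq : IsSquare ((-1 : F₀) ^ m)) :
    ∃ P : (Fin (2 * m) → F₀) ≃ₗ[F₀] (Fin m ⊕ Fin m → F₀), ∀ v, quadFormPlus m F₀ (P v) = 2⁻¹ * (v ⬝ᵥ v) := by
  have hS : (dotB (2 * m) F₀).IsSymm := dotB_symm
  have hQ : (QuadraticMap.polarBilin (qOf h2 (dotB (2 * m) F₀) hS)).Nondegenerate := by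
    rw [polarBilin_qOf]
    exact dotB_nd
  have hV : finrank F₀ (Fin (2 * m) → F₀) = 2 * m := by simp
  have hκ : ∀ v : Fin (2 * m) → F₀, qOf h2 (dotB (2 * m) F₀) hS v = 2⁻¹ * (v ⬝ᵥ v) := by
    intro v
    rw [qOf_apply, dotB_apply]
    field_simp
  have hgd : (-1 : F₀) ^ m * gd (dotB (2 * m) F₀) (Pi.basisFun F₀ (Fin (2 * m))) = (-1) ^ m := by
    rw [gd_dotB, mul_one]
  rcases CfsgLib.H9.QuadClass.exists_iso_std hm1 hV _ hQ with ⟨g, hg⟩ | ⟨ζ, hroot, g, hg⟩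
  · exact ⟨g, fun v => by rw [← hg, hκ]⟩
  · exact (minus_not_square h2 _ hS hm1 hV (Pi.basisFun F₀ (Fin (2 * m))) (by rw [hgd]; exact hsq) hroot g hg).elim

theorem main_2710 {F : Type*} [Field F] [Fintype F] {q : ℕ} (hodd : Odd q) (hF : Fintype.card F = q ^ 2) {m : ℕ} (hm : 2 ≤ m)
    (h4 : 4 ∣ 2 * m) (F₀ : Type*) [Field F₀] [Fintype F₀] (hF₀ : Fintype.card F₀ = q) (σ : F ≃+* F) (hσ : ∀ a : F, σ a = a ^ q)
    (φ : MulAut (Cfsg.PSU (2 * m) F q)) (hφ : Cfsg.IsFieldAutPSUOf σ φ) :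
    Nonempty (↥(Cfsg.inndiagPSU (2 * m) F q ⊓ Subgroup.centralizer {φ}) ≃* Cfsg.PGO F₀ (Cfsg.quadFormPlus m F₀)) := by
  classical
  obtain rfl : φ = fU σ := std_eq_fU hφ
  haveI : NeZero (2 * m) := ⟨by omega⟩
  have h2₀ : (2 : F₀) ≠ 0 := two_ne_of_odd (by rw [hF₀]; exact hodd)
  obtain ⟨p, hp⟩ := CharP.exists F₀
  obtain ⟨k, hprime, hcard⟩ := FiniteField.card F₀ p
  haveI : Fact p.Prime := ⟨hprime⟩
  have hq : q = p ^ (k : ℕ) := by rw [← hF₀, hcard]
  have hF' : Fintype.card F = p ^ (2 * (k : ℕ)) := by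
    rw [hF, hq, ← pow_mul, mul_comm]
  have hf : 1 ≤ 2 * (k : ℕ) := by
    have := k.pos
    omega
  haveI : CharP F p := charP_card' hF' hf
  have hne : (σ : F →+* F) ≠ RingHom.id F := by
    intro h
    apply qFrob_ne hF
    ext a
    rw [qFrob_apply, ← hσ]
    exact congrArg (fun f : F →+* F => f a) h
  have hσ2 : ∀ a, σ (σ a) = a := by
    intro a
    rw [hσ, hσ, ← pow_mul, ← sq, ← hF, FiniteField.pow_card]
  have hr1 : σ ≠ 1 := by
    intro h
    apply hne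
    ext a
    rw [h]
    rfl
  have hr2 : σ ^ 2 = 1 := by
    ext a
    rw [sq]
    exact hσ2 a
  have hr : orderOf σ = 2 := orderOf_eq_prime hr2 hr1
  obtain ⟨ι, hι⟩ := CfsgLib.PSN.exists_embedding hF' hf σ hr (by norm_num) F₀ (by
    rw [hF₀, hq, Nat.mul_div_cancel_left _ (by norm_num)])
  obtain ⟨e⟩ := main_cent hF ι σ hσ hι (p := p) (n := 2 * m) (by omega) h2₀ hne hσ2 hr
  have hmeven : Even m := by
    obtain ⟨c, hc⟩ := h4
    exact ⟨c, by omega⟩
  obtain ⟨P, hP⟩ := dot_plus h2₀ (m := m) (by omega) (by rw [hmeven.neg_one_pow]; exact ⟨1, by simp⟩)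
  obtain ⟨e2⟩ := pgo_congr (Q₁ := fun v : Fin (2 * m) → F₀ => v ⬝ᵥ v) (Q₂ := Cfsg.quadFormPlus m F₀) P 2⁻¹ (inv_ne_zero h2₀) hP
  exact ⟨e.trans e2⟩

end CfsgLib.PUA.GC
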