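/-
Transfer of involutory graph automorphisms: the automorphisms `cU y * fU σ` of `PSU_n(q)` of order two
correspond to the involutory graph automorphisms of `PSL_n(q)`.
-/
import Mathlib
import Cfsg.Agent.Lib.PSUAut.GraphCent
import Cfsg.Agent.Lib.PSLn.GraphInv2
import Cfsg.Agent.Lib.PSLn.GraphField

set_option autoImplicit false
set_option linter.unusedSimpArgs false
set_option linter.unusedVariables false
set_option linter.unusedSectionVars false
set_option maxHeartbeats 1000000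

namespace CfsgLib.PUA.GT

open Module Matrix Cfsg CfsgLib.ClassGeo CfsgLib.PUA CfsgLib.PUA.GC

open CfsgLib.PSN (cG gT scG gA cG_mul cG_inv cG_one cG_scG scalar_of_cG_one' gT_mul gT_gT gT_one)
open CfsgLib.PSN.GC (scG_val)
open CfsgLib.PSN.GI (gT_inv gam)

section Tr

variable {n : ℕ} {K L : Type*} [Field K] [Field L]

/-- The transpose on invertible matrices. -/
noncomputable def Tr (x : GL (Fin n) K) : GL (Fin n) K := (gT x)⁻¹

lemma Tr_val (x : GL (Fin n) K) : ((Tr x : GL (Fin n) K) : Matrix (Fin n) (Fin n) K) = (x : Matrix (Fin n) (Fin n) K)ᵀ := rfl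

lemma Tr_mul (a b : GL (Fin n) K) : Tr (a * b) = Tr b * Tr a := by
  rw [Tr, gT_mul, _root_.mul_inv_rev]
  rfl

lemma Tr_inv (a : GL (Fin n) K) : Tr a⁻¹ = (Tr a)⁻¹ := by
  rw [Tr, Tr, gT_inv]

lemma Tr_Tr (a : GL (Fin n) K) : Tr (Tr a) = a := by
  apply Units.ext
  rw [Tr_val, Tr_val, Matrix.transpose_transpose]

lemma Tr_scG (c : Kˣ) : Tr (scG c : GL (Fin n) K) = scG c := by
  apply Units.ext
  rw [Tr_val]
  change (((c : K) • (1 : Matrix (Fin n) (Fin n) K)))ᵀ = (c : K) • 1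
  rw [Matrix.transpose_smul, Matrix.transpose_one]

lemma Tr_map (f : K →+* L) (x : GL (Fin n) K) :
    Tr (Matrix.GeneralLinearGroup.map f x) = Matrix.GeneralLinearGroup.map f (Tr x) := by
  apply Units.ext
  rw [Tr_val]
  change ((x : Matrix (Fin n) (Fin n) K).map f)ᵀ = ((x : Matrix (Fin n) (Fin n) K)ᵀ).map f
  rw [Matrix.transpose_map]

lemma map_scG (f : K →+* L) (c : Kˣ) :
    Matrix.GeneralLinearGroup.map f (scG c : GL (Fin n) K) = scG (Units.map (f : K →* L) c) := by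
  apply Units.ext
  change (((c : K) • (1 : Matrix (Fin n) (Fin n) K))).map f = (f c) • 1
  exact CfsgLib.PUA.GC.map_smul_one' f (c : K)

end Tr

variable {F : Type*} [Field F] {n q : ℕ}

local notation "MM" => Matrix (Fin n) (Fin n) F

section core

variable [Fintype F] (hF : Fintype.card F = q ^ 2) (σ : RingAut F) (hσ : ∀ a, σ a = a ^ q)

/-- Entrywise action of the field automorphism. -/
noncomputable def sg (σ : RingAut F) : GL (Fin n) F →* GL (Fin n) F := Matrix.GeneralLinearGroup.map (σ : F →+* F)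

lemma sg_val (x : GL (Fin n) F) : ((sg σ x : GL (Fin n) F) : MM) = (x : MM).map (σ : F →+* F) := rfl

include hσ in
lemma gu_iff' (k : GL (Fin n) F) : k ∈ GU n F q ↔ Tr k * sg σ k = 1 := by
  rw [gu_iff σ hσ]
  constructor
  · intro h
    apply Units.ext
    exact h
  · intro h
    exact congrArg (fun y : GL (Fin n) F => (y : MM)) h

lemma sg_sg (hσ2 : ∀ a, σ (σ a) = a) (x : GL (Fin n) F) : sg σ (sg σ x) = x := by
  apply Units.ext
  rw [sg_val, sg_val]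
  ext i j
  simp [hσ2]

lemma sg_Tr (x : GL (Fin n) F) : sg σ (Tr x) = Tr (sg σ x) := (Tr_map _ x).symm

lemma sg_scG (c : Fˣ) : sg σ (scG c : GL (Fin n) F) = scG (Units.map ((σ : F →+* F) : F →* F) c) := map_scG _ c

variable {F₀ : Type*} [Field F₀] (ι : F₀ →+* F) (hι : ∀ a, σ a = a ↔ ∃ b, ι b = a)

/-- The inclusion of matrices over the subfield. -/
noncomputable def io (ι : F₀ →+* F) : GL (Fin n) F₀ →* GL (Fin n) F := Matrix.GeneralLinearGroup.map ι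

lemma io_val (x : GL (Fin n) F₀) : ((io ι x : GL (Fin n) F) : MM) = (x : Matrix (Fin n) (Fin n) F₀).map ι := rfl

include hι in
lemma sg_io (x : GL (Fin n) F₀) : sg σ (io ι x) = io ι x := by
  apply Units.ext
  rw [sg_val, io_val]
  ext i j
  exact (hι _).2 ⟨_, rfl⟩

lemma Tr_io (x : GL (Fin n) F₀) : Tr (io ι x) = io ι (Tr x) := Tr_map _ x

include hF in
lemma cU_eq_of_cG {p : ℕ} [hp : Fact p.Prime] [CharP F p] (hn : 3 ≤ n) [NeZero n] {a b : GUt n F q}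
    (h : cG a.1 = (cG b.1 : MulAut (CfsgLib.PSN.PSn n F))) : (cU a : MulAut (PSU n F q)) = cU b := by
  have h1 : cG (a.1⁻¹ * b.1) = (1 : MulAut (CfsgLib.PSN.PSn n F)) := by
    rw [cG_mul, ← h, ← cG_mul, inv_mul_cancel, cG_one]
  obtain ⟨l, hl⟩ := scalar_of_cG_one' (by omega) h1
  have e : b.1 = a.1 * scG l := by
    rw [← hl, mul_inv_cancel_left]
  symm
  apply cU_eq_of_smul hF (p := p) hn a b (l : F)
  have := congrArg (fun y : GL (Fin n) F => (y : MM)) e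
  change (b.1 : MM) = (a.1 : MM) * ((scG l : GL (Fin n) F) : MM) at this
  rw [this, scG_val, Matrix.mul_smul, Matrix.mul_one]

include hF in
lemma cG_of_cU {p : ℕ} [hp : Fact p.Prime] [CharP F p] (hn : 3 ≤ n) [NeZero n] {a b : GUt n F q}
    (h : (cU a : MulAut (PSU n F q)) = cU b) : cG a.1 = (cG b.1 : MulAut (CfsgLib.PSN.PSn n F)) := by
  have h1 : (cU (a⁻¹ * b) : MulAut (PSU n F q)) = 1 := by
    rw [cU_mul, ← h, ← cU_mul, inv_mul_cancel, cU_one]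
  have hz := (cU_eq_one_iff hF (p := p) hn).1 h1
  obtain ⟨l, hl, he⟩ := center_GU_scalar hF n (by omega) _ hz
  have e : (a⁻¹ * b).1 = scG l := by
    rw [he]
    apply Units.ext
    rw [scG_val, guScalar_coe]
  have e2 : b.1 = a.1 * scG l := by
    rw [← e]
    change b.1 = a.1 * (a.1⁻¹ * b.1)
    rw [mul_inv_cancel_left]
  rw [e2, cG_mul, cG_scG, mul_one]

include hF hσ in
/-- Up to scalars, a matrix unitary up to scalars is unitary. -/
lemma unitarize (hn : 2 ≤ n) [NeZero n] (hne : (σ : F →+* F) ≠ RingHom.id F) (hσ2 : ∀ a, σ (σ a) = a) (k₀ : GL (Fin n) F)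
    (h : cG (Tr k₀ * sg σ k₀) = (1 : MulAut (CfsgLib.PSN.PSn n F))) :
    ∃ y : GUt n F q, cG y.1 = (cG k₀ : MulAut (CfsgLib.PSN.PSn n F)) := by
  obtain ⟨e, he⟩ := scalar_of_cG_one' hn h
  -- `e` is fixed
  have e1 : sg σ (Tr k₀ * sg σ k₀) = Tr (Tr k₀ * sg σ k₀) := by
    rw [map_mul, sg_sg σ hσ2, sg_Tr, Tr_mul, Tr_Tr]
  rw [he, sg_scG, Tr_scG] at e1
  have hfix : σ (e : F) = e := by
    have e2 := congrArg (fun y : GL (Fin n) F => (y : MM)) e1
    simp only [scG_val] at e2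
    have i₀ : Fin n := ⟨0, by omega⟩
    have e3 := congrFun (congrFun e2 i₀) i₀
    simpa using e3
  have he0 : (e : F) ≠ 0 := e.ne_zero
  obtain ⟨t, ht⟩ := herm_norm_surj (σ : F →+* F) hne hσ2 (e : F)⁻¹ (inv_ne_zero he0) (by
    change σ _ = _
    rw [map_inv₀, hfix])
  have ht' : t * σ t = (e : F)⁻¹ := ht
  have ht0 : t ≠ 0 := by
    intro h0
    rw [h0, zero_mul] at ht'
    exact inv_ne_zero he0 ht'.symm
  obtain ⟨T, hT⟩ : ∃ T : Fˣ, (T : F) = t := ⟨Units.mk0 t ht0, rfl⟩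
  have hmem : scG T * k₀ ∈ GU n F q := by
    rw [gu_iff' σ hσ, Tr_mul, Tr_scG, map_mul, sg_scG]
    have e4 : Tr k₀ * scG T * (scG (Units.map ((σ : F →+* F) : F →* F) T) * sg σ k₀) = (scG T * scG (Units.map ((σ : F →+* F) : F →* F) T)) * (Tr k₀ * sg σ k₀) := by
      calc _ = scG T * (Tr k₀ * scG (Units.map ((σ : F →+* F) : F →* F) T) * sg σ k₀) := by
            rw [← CfsgLib.PSN.GI.scG_central T (Tr k₀)]
            simp only [mul_assoc]
        _ = scG T * (scG (Units.map ((σ : F →+* F) : F →* F) T) * Tr k₀ * sg σ k₀) := by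
            rw [← CfsgLib.PSN.GI.scG_central _ (Tr k₀)]
        _ = _ := by simp only [mul_assoc]
    rw [e4, he]
    apply Units.ext
    simp only [Units.val_mul, scG_val, Matrix.smul_mul, Matrix.one_mul, smul_smul]
    have e5 : (T : F) * ((Units.map ((σ : F →+* F) : F →* F) T : Fˣ) : F) = (e : F)⁻¹ := by
      change (T : F) * σ (T : F) = _
      rw [hT]
      exact ht'
    rw [e5, inv_mul_cancel₀ he0, one_smul]
    rfl
  refine ⟨⟨_, hmem⟩, ?_⟩
  change cG (scG T * k₀) = _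
  rw [cG_mul, cG_scG, one_mul]

/-- The graph automorphism attached to a unitary matrix. -/
noncomputable def gmU (σ : RingAut F) (y : GUt n F q) : MulAut (PSU n F q) := cU y * fU σ

lemma gmU_sq (hσσ : σ * σ = 1) (y : GUt n F q) : gmU σ y * gmU σ y = cU (y * mapGU σ y) := by
  rw [gmU, mul_assoc, ← mul_assoc (fU σ), fU_cU, cU_mul]
  simp only [mul_assoc]
  rw [← fU_mul, hσσ, fU_one, mul_one]

lemma gmU_conj (k y : GUt n F q) : cU k * gmU σ y * (cU k)⁻¹ = gmU σ (k * y * (mapGU σ k)⁻¹) := by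
  have e : (fU σ : MulAut (PSU n F q)) * (cU k)⁻¹ = cU (mapGU σ k)⁻¹ * fU σ := by
    rw [cU_inv, fU_cU, map_inv]
  rw [gmU, gmU, mul_assoc (cU k), mul_assoc (cU y), e, cU_mul, cU_mul]
  simp only [mul_assoc]

lemma gmU_eq (y y' : GUt n F q) (h : (cU y : MulAut (PSU n F q)) = cU y') : gmU σ y = gmU σ y' := by
  rw [gmU, gmU, h]

lemma cU_of_gmU {y y' : GUt n F q} (h : gmU σ y = gmU σ y') : (cU y : MulAut (PSU n F q)) = cU y' :=
  mul_right_cancel h

/-- Matching of a unitary matrix with a matrix over the subfield. -/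
def Rp [NeZero n] (σ : RingAut F) (ι : F₀ →+* F) (y : GUt n F q) (A : GL (Fin n) F₀) (h : GL (Fin n) F) : Prop :=
  cG (Tr h * sg σ h) = (cG (io ι A) : MulAut (CfsgLib.PSN.PSn n F)) ∧
    cG y.1 = (cG (h * (sg σ h)⁻¹) : MulAut (CfsgLib.PSN.PSn n F))

lemma cG_sg_congr [NeZero n] (hn : 2 ≤ n) {a b : GL (Fin n) F} (h : cG a = (cG b : MulAut (CfsgLib.PSN.PSn n F))) :
    cG (sg σ a) = (cG (sg σ b) : MulAut (CfsgLib.PSN.PSn n F)) := by
  have h1 : cG (b⁻¹ * a) = (1 : MulAut (CfsgLib.PSN.PSn n F)) := by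
    rw [cG_mul, h, ← cG_mul, inv_mul_cancel, cG_one]
  obtain ⟨l, hl⟩ := scalar_of_cG_one' hn h1
  have e : a = b * scG l := by
    rw [← hl, mul_inv_cancel_left]
  rw [e, map_mul, sg_scG, cG_mul, cG_scG, mul_one]

/-- The core computation, conjugate automorphisms give congruent matrices. -/
lemma scalar_of_io [NeZero n] (hn : 2 ≤ n) {Z Z' : GL (Fin n) F₀}
    (h : cG (io ι Z) = (cG (io ι Z') : MulAut (CfsgLib.PSN.PSn n F))) : ∃ l : F₀ˣ, Z = Z' * scG l := by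
  have h1 : cG (io ι (Z'⁻¹ * Z)) = (1 : MulAut (CfsgLib.PSN.PSn n F)) := by
    rw [map_mul, map_inv, cG_mul, h, ← cG_mul, inv_mul_cancel, cG_one]
  obtain ⟨c, hc⟩ := scalar_of_cG_one' hn h1
  have e1 : ((Z'⁻¹ * Z : GL (Fin n) F₀) : Matrix (Fin n) (Fin n) F₀).map ι = (c : F) • 1 := by
    have := congrArg (fun y : GL (Fin n) F => (y : MM)) hc
    simp only [scG_val] at this
    exact this
  obtain ⟨c₀, hc₀, -⟩ := entries_scalar ι _ _ c.ne_zero e1 ⟨0, by omega⟩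
  refine ⟨c₀, ?_⟩
  have e2 : Z'⁻¹ * Z = scG c₀ := by
    apply Units.ext
    rw [hc₀, scG_val]
  rw [← e2, mul_inv_cancel_left]

include hι in
/-- Matrices fixed up to a scalar descend. -/
lemma descend_scalar [NeZero n] (hn : 2 ≤ n) (hr : orderOf σ = 2) (hσ2 : ∀ a, σ (σ a) = a) (w : GL (Fin n) F)
    (h : cG (w * (sg σ w)⁻¹) = (1 : MulAut (CfsgLib.PSN.PSn n F))) :
    ∃ (x₀ : GL (Fin n) F₀) (b : Fˣ), io ι x₀ = scG b * w := by
  obtain ⟨l, hl⟩ := scalar_of_cG_one' hn h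
  have e1 : w = scG l * sg σ w := mul_inv_eq_iff_eq_mul.1 hl
  have e2 : sg σ w = scG (Units.map ((σ : F →+* F) : F →* F) l) * w := by
    have := congrArg (sg σ) e1
    rwa [map_mul, sg_sg σ hσ2, sg_scG] at this
  have e3 : (l : F) * σ (l : F) = 1 := by
    have e4 : (scG l * scG (Units.map ((σ : F →+* F) : F →* F) l)) * w = w := by
      rw [mul_assoc, ← e2, ← e1]
    have e5 : scG l * scG (Units.map ((σ : F →+* F) : F →* F) l) = (1 : GL (Fin n) F) := mul_eq_right.1 e4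
    have e6 := congrArg (fun y : GL (Fin n) F => (y : MM)) e5
    simp only [Units.val_mul, scG_val, Matrix.smul_mul, Matrix.one_mul, smul_smul, Units.val_one] at e6
    have e7 := congrFun (congrFun e6 ⟨0, by omega⟩) ⟨0, by omega⟩
    simpa using e7
  obtain ⟨b, hb0, hb⟩ := CfsgLib.PSN.hilbert90_scalar σ hr (by norm_num) (σ (l : F)) (by
    rw [Finset.prod_range_succ, Finset.prod_range_one, pow_zero, pow_one]
    change σ (l : F) * σ (σ (l : F)) = 1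
    rw [hσ2, mul_comm, e3])
  have hb' : σ (l : F) * σ b = b := hb
  refine ?_
  obtain ⟨B, hB⟩ : ∃ B : Fˣ, (B : F) = b := ⟨Units.mk0 b hb0, rfl⟩
  have hfix : Matrix.GeneralLinearGroup.map (σ : F →+* F) (scG B * w) = scG B * w := by
    change sg σ (scG B * w) = _
    rw [map_mul, sg_scG, e2, ← mul_assoc]
    congr 1
    apply Units.ext
    simp only [Units.val_mul, scG_val, Matrix.smul_mul, Matrix.one_mul, smul_smul]
    congr 1
    change σ (B : F) * σ (l : F) = (B : F)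
    rw [hB, mul_comm]
    exact hb'
  obtain ⟨g₀, hg₀⟩ := CfsgLib.PSN.descend_GL ι σ hι _ hfix
  exact ⟨g₀, B, hg₀⟩

lemma cG_inv' [NeZero n] (g : GL (Fin n) F) : (cG g⁻¹ : MulAut (CfsgLib.PSN.PSn n F)) = (cG g)⁻¹ := (cG_inv g).symm

lemma grp2 {G : Type*} [Group G] (H H' Hs Hs' K Ks : G) (e3 : K * (H * Hs⁻¹) * Ks⁻¹ = H' * Hs'⁻¹) :
    H'⁻¹ * K * H * (Hs'⁻¹ * Ks * Hs)⁻¹ = 1 := by
  calc H'⁻¹ * K * H * (Hs'⁻¹ * Ks * Hs)⁻¹ = H'⁻¹ * (K * (H * Hs⁻¹) * Ks⁻¹) * Hs' := by group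
    _ = 1 := by rw [e3]; group

lemma grp3 {G : Type*} [Group G] (T T' Hs Hs' Ks Kt : G) (hgu : Ks * Kt = 1) :
    Hs'⁻¹ * Ks * Hs * (T * Hs)⁻¹ * (T * (Kt * T'⁻¹)) = (T' * Hs')⁻¹ := by
  calc Hs'⁻¹ * Ks * Hs * (T * Hs)⁻¹ * (T * (Kt * T'⁻¹)) = Hs'⁻¹ * (Ks * Kt) * T'⁻¹ := by group
    _ = _ := by rw [hgu]; group

lemma grp1 {G : Type*} [Group G] (T S T' S' a t : G) (h3 : a * (T * S)⁻¹ * t = (T' * S')⁻¹) :
    T⁻¹ * (t * T') * (S' * a * S⁻¹) = 1 := by
  have h5 : T' * S' = t⁻¹ * (T * S) * a⁻¹ := by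
    have : T' * S' = ((T' * S')⁻¹)⁻¹ := (inv_inv _).symm
    rw [this, ← h3]
    group
  calc T⁻¹ * (t * T') * (S' * a * S⁻¹) = T⁻¹ * t * (T' * S') * a * S⁻¹ := by group
    _ = 1 := by rw [h5]; group

include hF hσ hι in
/-- Congruent matrices give conjugate automorphisms. -/
theorem conj_forward {p : ℕ} [hp : Fact p.Prime] [CharP F p] (hn : 3 ≤ n) [NeZero n] (hne : (σ : F →+* F) ≠ RingHom.id F)
    (hσ2 : ∀ a, σ (σ a) = a) {y y' : GUt n F q} {A A' : GL (Fin n) F₀} {h h' : GL (Fin n) F}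
    (R : Rp σ ι y A h) (R' : Rp σ ι y' A' h') {h₀ : GL (Fin n) F₀} {l : F₀ˣ} (e : h₀ * A⁻¹ * Tr h₀ = A'⁻¹ * scG l) :
    ∃ k : GUt n F q, (cU y' : MulAut (PSU n F q)) = cU (k * y * (mapGU σ k)⁻¹) := by
  obtain ⟨hS, hy⟩ := R
  obtain ⟨hS', hy'⟩ := R'
  have hn2 : 2 ≤ n := by omega
  obtain ⟨z, hz⟩ : ∃ z, z = io ι h₀ := ⟨_, rfl⟩
  have e' : cG z * (cG (Tr h * sg σ h))⁻¹ * cG (Tr z) = ((cG (Tr h' * sg σ h'))⁻¹ : MulAut (CfsgLib.PSN.PSn n F)) := by
    have e1 := congrArg (fun x => (cG (io ι x) : MulAut (CfsgLib.PSN.PSn n F))) e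
    simp only [map_mul, map_inv, cG_mul, cG_inv'] at e1
    rw [hS, hS', hz, Tr_io, e1]
    simp only [io, map_scG, cG_scG, mul_one]
  obtain ⟨k₀, hk₀⟩ : ∃ k₀, k₀ = h' * z * h⁻¹ := ⟨_, rfl⟩
  have hTk : Tr k₀ = (Tr h)⁻¹ * (Tr z * Tr h') := by
    rw [hk₀, Tr_mul, Tr_mul, Tr_inv]
  have hsk : sg σ k₀ = sg σ h' * z * (sg σ h)⁻¹ := by
    rw [hk₀, map_mul, map_mul, map_inv, hz, sg_io σ ι hι]
  have hun : cG (Tr k₀ * sg σ k₀) = (1 : MulAut (CfsgLib.PSN.PSn n F)) := by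
    rw [hTk, hsk]
    simp only [cG_mul, cG_inv'] at e' ⊢
    exact grp1 _ _ _ _ _ _ e'
  obtain ⟨k, hk⟩ := unitarize hF σ hσ hn2 hne hσ2 k₀ hun
  refine ⟨k, cU_eq_of_cG hF (p := p) hn ?_⟩
  change cG y'.1 = cG (k.1 * y.1 * (sg σ k.1)⁻¹)
  rw [cG_mul, cG_mul, cG_inv', hk, hy, hy', cG_sg_congr σ hn2 hk, hsk, hk₀]
  simp only [cG_mul, cG_inv']
  group

include hF hι in
/-- Conjugate automorphisms give congruent matrices. -/
theorem conj_back {p : ℕ} [hp : Fact p.Prime] [CharP F p] (hσ : ∀ a, σ a = a ^ q) (hn : 3 ≤ n) [NeZero n] (hr : orderOf σ = 2)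
    (hσ2 : ∀ a, σ (σ a) = a) {y y' : GUt n F q} {A A' : GL (Fin n) F₀} {h h' : GL (Fin n) F}
    (R : Rp σ ι y A h) (R' : Rp σ ι y' A' h') (k : GUt n F q)
    (he : cG y'.1 = (cG (k.1 * y.1 * (sg σ k.1)⁻¹) : MulAut (CfsgLib.PSN.PSn n F))) :
    ∃ (x₀ : GL (Fin n) F₀) (l : F₀ˣ), x₀ * A⁻¹ * Tr x₀ = A'⁻¹ * scG l ∧
      (cG (io ι x₀) : MulAut (CfsgLib.PSN.PSn n F)) = (cG h')⁻¹ * cG k.1 * cG h := by
  obtain ⟨hS, hy⟩ := R
  obtain ⟨hS', hy'⟩ := R'
  have hn2 : 2 ≤ n := by omega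
  obtain ⟨w, hw⟩ : ∃ w, w = h'⁻¹ * k.1 * h := ⟨_, rfl⟩
  have hsw : sg σ w = (sg σ h')⁻¹ * sg σ k.1 * sg σ h := by
    rw [hw, map_mul, map_mul, map_inv]
  have hTw : Tr w = Tr h * (Tr k.1 * (Tr h')⁻¹) := by
    rw [hw, Tr_mul, Tr_mul, Tr_inv]
  have hw1 : cG (w * (sg σ w)⁻¹) = (1 : MulAut (CfsgLib.PSN.PSn n F)) := by
    rw [hsw, hw]
    simp only [cG_mul, cG_inv'] at he
    rw [hy, hy'] at he
    simp only [cG_mul, cG_inv'] at he ⊢
    exact grp2 _ _ _ _ _ _ he.symm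
  obtain ⟨x₀, b, hx⟩ := descend_scalar σ ι hι hn2 hr hσ2 w hw1
  have hP1 : (cG (io ι x₀) : MulAut (CfsgLib.PSN.PSn n F)) = cG w := by
    rw [hx, cG_mul, cG_scG, one_mul]
  have hP2 : (cG (io ι x₀) : MulAut (CfsgLib.PSN.PSn n F)) = cG (sg σ w) := by
    conv_lhs => rw [← sg_io σ ι hι x₀, hx, map_mul, sg_scG, cG_mul, cG_scG, one_mul]
  have hP3 : (cG (io ι (Tr x₀)) : MulAut (CfsgLib.PSN.PSn n F)) = cG (Tr w) := by
    rw [← Tr_io, hx, Tr_mul, Tr_scG, cG_mul, cG_scG, mul_one]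
  have hgu : (cG (sg σ k.1) : MulAut (CfsgLib.PSN.PSn n F)) * cG (Tr k.1) = 1 := by
    have e1 := (gu_iff' σ hσ k.1).1 k.2
    have e2 : cG (Tr k.1) * (cG (sg σ k.1) : MulAut (CfsgLib.PSN.PSn n F)) = 1 := by
      rw [← cG_mul, e1, cG_one]
    exact mul_eq_one_comm.1 e2
  have hrel : cG (io ι (x₀ * A⁻¹ * Tr x₀)) = (cG (io ι A'⁻¹) : MulAut (CfsgLib.PSN.PSn n F)) := by
    rw [map_mul, map_mul, map_inv, map_inv, cG_mul, cG_mul, cG_inv', cG_inv', hP2, hP3, ← hS, ← hS', hsw, hTw]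
    simp only [cG_mul, cG_inv']
    exact grp3 _ _ _ _ _ _ hgu
  obtain ⟨l, hl⟩ := scalar_of_io ι hn2 hrel
  refine ⟨x₀, l, hl, ?_⟩
  rw [hP1, hw]
  simp only [cG_mul, cG_inv']

include hF hσ hι in
/-- The equivalence of classes. -/
theorem conj_iff {p : ℕ} [hp : Fact p.Prime] [CharP F p] (hn : 3 ≤ n) [NeZero n] (hne : (σ : F →+* F) ≠ RingHom.id F)
    (hr : orderOf σ = 2) (hσ2 : ∀ a, σ (σ a) = a) {y y' : GUt n F q} {A A' : GL (Fin n) F₀} {h h' : GL (Fin n) F}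
    (R : Rp σ ι y A h) (R' : Rp σ ι y' A' h') :
    Cfsg.IsConjUnder (Cfsg.inndiagPSU n F q) (gmU σ y) (gmU σ y') ↔ Cfsg.IsConjUnder (Cfsg.inndiagPSL n F₀) (CfsgLib.PSN.GI.gam A⁻¹) (CfsgLib.PSN.GI.gam A'⁻¹) := by
  have hn2 : 2 ≤ n := by omega
  constructor
  · rintro ⟨β, hβ, e⟩
    obtain ⟨k, rfl⟩ := mem_inndiag.1 hβ
    rw [gmU_conj] at e
    have e1 := cG_of_cU hF (p := p) hn (cU_of_gmU σ e)
    obtain ⟨x₀, l, hx, -⟩ := conj_back hF σ ι hι hσ hn hr hσ2 R R' k e1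
    exact CfsgLib.PSN.GI.conj_of_rel hn2 hx
  · intro H
    obtain ⟨h₀, l, e⟩ := CfsgLib.PSN.GI.rel_of_conj hn2 H
    obtain ⟨k, hk⟩ := conj_forward hF σ hσ ι hι (p := p) hn hne hσ2 R R' e
    refine ⟨cU k, mem_inndiag.2 ⟨k, rfl⟩, ?_⟩
    rw [gmU_conj]
    exact gmU_eq σ _ _ hk

include hF hσ hι in
/-- The centralisers correspond. -/
theorem cent_transfer {p : ℕ} [hp : Fact p.Prime] [CharP F p] (hn : 3 ≤ n) [NeZero n] (hne : (σ : F →+* F) ≠ RingHom.id F)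
    (hr : orderOf σ = 2) (hσ2 : ∀ a, σ (σ a) = a) {y : GUt n F q} {A : GL (Fin n) F₀} {h : GL (Fin n) F}
    (R : Rp σ ι y A h) :
    Nonempty (↥(Cfsg.inndiagPSU n F q ⊓ Subgroup.centralizer {gmU σ y}) ≃*
      ↥(Cfsg.inndiagPSL n F₀ ⊓ Subgroup.centralizer {CfsgLib.PSN.GI.gam A⁻¹})) := by
  classical
  have hn2 : 2 ≤ n := by omega
  obtain ⟨hS, hy⟩ := id R
  -- the group of matrices over the subfield
  let D : Subgroup (GL (Fin n) F₀) := Subgroup.comap (CfsgLib.PSN.cGHom : GL (Fin n) F₀ →* MulAut (CfsgLib.PSN.PSn n F₀))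
    (Subgroup.centralizer {CfsgLib.PSN.GI.gam A⁻¹})
  have hD : ∀ x : D, (cG x.1 : MulAut (CfsgLib.PSN.PSn n F₀)) ∈ Subgroup.centralizer {CfsgLib.PSN.GI.gam A⁻¹} := fun x => x.2
  -- the lift
  have hL : ∀ x : D, ∃ L : GUt n F q, cG L.1 = (cG (h * io ι x.1 * h⁻¹) : MulAut (CfsgLib.PSN.PSn n F)) := by
    intro x
    apply unitarize hF σ hσ hn2 hne hσ2
    obtain ⟨c, hc⟩ := (CfsgLib.PSN.GI.cent_gam_iff hn2 A x.1).1 (hD x)
    have e1 : Tr x.1 * A * x.1 = scG c * A := by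
      apply Units.ext
      rw [Units.val_mul, Units.val_mul, Units.val_mul, Tr_val, hc, scG_val, Matrix.smul_mul, Matrix.one_mul]
    have e2 : (cG (io ι (Tr x.1)) : MulAut (CfsgLib.PSN.PSn n F)) * cG (io ι A) * cG (io ι x.1) = cG (io ι A) := by
      rw [← cG_mul, ← cG_mul, ← map_mul, ← map_mul, e1, map_mul, cG_mul]
      simp only [io, map_scG, cG_scG, one_mul]
    rw [Tr_mul, Tr_mul, Tr_inv, map_mul, map_mul, map_inv, sg_io σ ι hι, Tr_io]
    simp only [cG_mul, cG_inv']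
    rw [cG_mul] at hS
    rw [← hS] at e2
    calc _ = (cG (Tr h))⁻¹ * (cG (io ι (Tr x.1)) * (cG (Tr h) * cG (sg σ h)) * cG (io ι x.1)) * (cG (sg σ h))⁻¹ := by group
      _ = 1 := by rw [e2]; group
  choose L hLv using hL
  let Ψ₀ : D →* MulAut (PSU n F q) :=
    MonoidHom.mk' (fun x => cU (L x)) (by
      intro a b
      change (cU (L (a * b)) : MulAut (PSU n F q)) = cU (L a) * cU (L b)
      rw [← cU_mul]
      apply cU_eq_of_cG hF (p := p) hn
      change cG (L (a * b)).1 = cG ((L a).1 * (L b).1)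
      rw [hLv, cG_mul _ (L b).1, hLv, hLv]
      change cG (h * io ι (a.1 * b.1) * h⁻¹) = _
      simp only [map_mul, cG_mul, cG_inv']
      group)
  have hΨ₀ : ∀ x, Ψ₀ x = cU (L x) := fun x => rfl
  have hmem : ∀ x, Ψ₀ x ∈ Cfsg.inndiagPSU n F q ⊓ Subgroup.centralizer {gmU σ y} := by
    intro x
    refine ⟨mem_inndiag.2 ⟨_, rfl⟩, ?_⟩
    change Ψ₀ x ∈ Subgroup.centralizer {gmU σ y}
    rw [Subgroup.mem_centralizer_singleton_iff, hΨ₀, ← mul_inv_eq_iff_eq_mul, gmU_conj]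
    apply gmU_eq
    apply cU_eq_of_cG hF (p := p) hn
    change cG ((L x).1 * y.1 * (sg σ (L x).1)⁻¹) = _
    rw [cG_mul, cG_mul, cG_inv', hLv, hy, cG_sg_congr σ hn2 (hLv x), map_mul, map_mul, map_inv, sg_io σ ι hι]
    simp only [cG_mul, cG_inv']
    group
  let Ψ₂ := MonoidHom.codRestrict Ψ₀ _ hmem
  have hsurj₂ : Function.Surjective Ψ₂ := by
    rintro ⟨β, hβ1, hβ2⟩
    obtain ⟨k, rfl⟩ := mem_inndiag.1 hβ1
    have hβ2' : cU k ∈ Subgroup.centralizer {gmU σ y} := hβ2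
    rw [Subgroup.mem_centralizer_singleton_iff, ← mul_inv_eq_iff_eq_mul, gmU_conj] at hβ2'
    have e1 := cG_of_cU hF (p := p) hn (cU_of_gmU σ hβ2')
    obtain ⟨x₀, l, hx, hP⟩ := conj_back hF σ ι hι hσ hn hr hσ2 R R k e1.symm
    have hx₀ : x₀ ∈ D := by
      change cG x₀ ∈ Subgroup.centralizer {CfsgLib.PSN.GI.gam A⁻¹}
      rw [Subgroup.mem_centralizer_singleton_iff, ← mul_inv_eq_iff_eq_mul, CfsgLib.PSN.GI.gam_conj]
      have e2 : x₀ * A⁻¹ * (gT x₀)⁻¹ = A⁻¹ * scG l := hx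
      rw [e2]
      exact ((CfsgLib.PSN.GI.gam_eq_iff hn2).2 ⟨l, rfl⟩).symm
    refine ⟨⟨x₀, hx₀⟩, Subtype.ext ?_⟩
    change (cU (L ⟨x₀, hx₀⟩) : MulAut (PSU n F q)) = cU k
    apply cU_eq_of_cG hF (p := p) hn
    rw [hLv]
    simp only [cG_mul, cG_inv']
    rw [hP]
    group
  -- the projection over the subfield
  let Ψ₁ : D →* ↥(Cfsg.inndiagPSL n F₀ ⊓ Subgroup.centralizer {CfsgLib.PSN.GI.gam A⁻¹}) :=
    MonoidHom.codRestrict ((CfsgLib.PSN.cGHom : GL (Fin n) F₀ →* MulAut (CfsgLib.PSN.PSn n F₀)).comp D.subtype) _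
      (fun x => ⟨CfsgLib.PSN.mem_inndiag.2 ⟨_, rfl⟩, hD x⟩)
  have hsurj₁ : Function.Surjective Ψ₁ := by
    rintro ⟨β, hβ1, hβ2⟩
    obtain ⟨g, rfl⟩ := CfsgLib.PSN.mem_inndiag.1 hβ1
    exact ⟨⟨g, hβ2⟩, Subtype.ext rfl⟩
  have hker : Ψ₂.ker = Ψ₁.ker := by
    ext x
    rw [MonoidHom.mem_ker, MonoidHom.mem_ker]
    have e₂ : Ψ₂ x = 1 ↔ (cU (L x) : MulAut (PSU n F q)) = 1 := ⟨fun h => congrArg Subtype.val h, fun h => Subtype.ext h⟩
    have e₁ : Ψ₁ x = 1 ↔ (cG x.1 : MulAut (CfsgLib.PSN.PSn n F₀)) = 1 := ⟨fun h => congrArg Subtype.val h, fun h => Subtype.ext h⟩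
    rw [e₂, e₁]
    constructor
    · intro h1
      have h2 : (cU (L x) : MulAut (PSU n F q)) = cU 1 := by rw [h1, cU_one]
      have h3 := cG_of_cU hF (p := p) hn h2
      have h4 : (cG (1 : GUt n F q).1 : MulAut (CfsgLib.PSN.PSn n F)) = 1 := cG_one
      rw [h4, hLv] at h3
      simp only [cG_mul, cG_inv'] at h3
      have h5 : (cG (io ι x.1) : MulAut (CfsgLib.PSN.PSn n F)) = cG (io ι (1 : GL (Fin n) F₀)) := by
        rw [map_one, cG_one]
        calc (cG (io ι x.1) : MulAut (CfsgLib.PSN.PSn n F)) = (cG h)⁻¹ * (cG h * cG (io ι x.1) * (cG h)⁻¹) * cG h := by group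
          _ = 1 := by rw [h3]; group
      obtain ⟨l, hl⟩ := scalar_of_io ι hn2 h5
      rw [hl, one_mul, cG_scG]
    · intro h1
      obtain ⟨l, hl⟩ := scalar_of_cG_one' hn2 h1
      have h2 : (cU (L x) : MulAut (PSU n F q)) = cU 1 := by
        apply cU_eq_of_cG hF (p := p) hn
        have h4 : (cG (1 : GUt n F q).1 : MulAut (CfsgLib.PSN.PSn n F)) = 1 := cG_one
        rw [h4, hLv, hl]
        simp only [cG_mul, cG_inv', io, map_scG, cG_scG, mul_one]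
        group
      rw [h2, cU_one]
  exact ⟨(QuotientGroup.quotientKerEquivOfSurjective Ψ₂ hsurj₂).symm.trans
    ((QuotientGroup.quotientMulEquivOfEq hker).trans (QuotientGroup.quotientKerEquivOfSurjective Ψ₁ hsurj₁))⟩

/-- Hermitian matrices factor. -/
theorem herm_factor (hne : (σ : F →+* F) ≠ RingHom.id F) (hσ2 : ∀ a, σ (σ a) = a) (M : GL (Fin n) F)
    (hM : Tr (sg σ M) = M) : ∃ h : GL (Fin n) F, Tr h * sg σ h = M := by
  classical
  have hMt : ((M : MM).map (σ : F →+* F))ᵀ = (M : MM) := congrArg (fun y : GL (Fin n) F => (y : MM)) hM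
  let B : (Fin n → F) →ₛₗ[(σ : F →+* F)] (Fin n → F) →ₗ[F] F :=
    LinearMap.mk₂'ₛₗ (σ : F →+* F) (RingHom.id F) (fun x y => (fun k => σ (x k)) ⬝ᵥ ((M : MM) *ᵥ y))
      (by
        intro x x' y
        have e : (fun k => σ ((x + x') k)) = (fun k => σ (x k)) + (fun k => σ (x' k)) := by
          funext k
          simp
        rw [e, add_dotProduct])
      (by
        intro c x y
        have e : (fun k => σ ((c • x) k)) = (σ c) • (fun k => σ (x k)) := by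
          funext k
          simp
        rw [e, smul_dotProduct]
        rfl)
      (by
        intro x y y'
        rw [Matrix.mulVec_add, dotProduct_add])
      (by
        intro c x y
        rw [Matrix.mulVec_smul, dotProduct_smul]
        rfl)
  have hB : ∀ x y, B x y = (fun k => σ (x k)) ⬝ᵥ ((M : MM) *ᵥ y) := fun x y => rfl
  have hS : ∀ x y, (σ : F →+* F) (B x y) = B y x := by
    intro x y
    rw [hB, hB]
    change σ _ = _
    have e1 : σ ((fun k => σ (x k)) ⬝ᵥ ((M : MM) *ᵥ y)) = x ⬝ᵥ (fun k => σ (((M : MM) *ᵥ y) k)) := by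
      simp only [dotProduct, map_sum, map_mul, hσ2]
    rw [e1, ← map_mulVec_fun σ (M : MM) y, Matrix.dotProduct_mulVec, dotProduct_comm, ← Matrix.mulVec_transpose, hMt]
  have hN : NondegOn B (⊤ : Submodule F (Fin n → F)) := by
    intro u _ hu
    funext i
    have e1 := hu (((M⁻¹ : GL (Fin n) F) : MM) *ᵥ Pi.single i 1) trivial
    rw [hB, Matrix.mulVec_mulVec, Units.mul_inv, Matrix.one_mulVec] at e1
    have e2 : σ (u i) = 0 := by simpa using e1
    simpa using e2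
  obtain ⟨b, -, hb⟩ := exists_orthonormal hne hσ2 hS n (⊤ : Submodule F (Fin n → F)) (by simp) hN
  let N : MM := Matrix.of fun k j => b j k
  have hN1 : ∀ j, N *ᵥ Pi.single j 1 = b j := by
    intro j
    funext k
    simp [N, Matrix.mulVec_single]
  have hN2 : ∀ i, N.map (σ : F →+* F) *ᵥ Pi.single i 1 = fun k => σ (b i k) := by
    intro i
    funext k
    simp [N, Matrix.mulVec_single]
  have hform : ∀ u v : Fin n → F, (N.map (σ : F →+* F) *ᵥ u) ⬝ᵥ ((M : MM) *ᵥ (N *ᵥ v)) = u ⬝ᵥ (((N.map (σ : F →+* F))ᵀ * (M : MM) * N) *ᵥ v) := by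
    intro u v
    rw [← Matrix.mulVec_mulVec, ← Matrix.mulVec_mulVec, Matrix.dotProduct_mulVec u, Matrix.vecMul_transpose]
  have hX : (N.map (σ : F →+* F))ᵀ * (M : MM) * N = 1 := by
    ext i j
    have e1 := hform (Pi.single i 1) (Pi.single j 1)
    rw [hN1, hN2, ← hB, hb] at e1
    simpa [Matrix.mulVec_single, Matrix.one_apply] using e1.symm
  let N' : GL (Fin n) F := ⟨N, (N.map (σ : F →+* F))ᵀ * (M : MM), mul_eq_one_comm.1 hX, hX⟩
  refine ⟨sg σ N'⁻¹, ?_⟩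
  have e2 : Tr (sg σ N') * M * N' = 1 := by
    apply Units.ext
    exact hX
  rw [sg_sg σ hσ2, map_inv, Tr_inv]
  have e3 : M = (Tr (sg σ N'))⁻¹ * N'⁻¹ := by
    have : M = (Tr (sg σ N'))⁻¹ * (Tr (sg σ N') * M * N') * N'⁻¹ := by group
    rw [this, e2]
    group
  exact e3.symm

include hF hσ hι in
/-- Existence of a unitary matrix matching a given form. -/
theorem exists_rep [NeZero n] (hn : 2 ≤ n) (hne : (σ : F →+* F) ≠ RingHom.id F) (hσ2 : ∀ a, σ (σ a) = a) (A : GL (Fin n) F₀)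
    (hA : (A : Matrix (Fin n) (Fin n) F₀)ᵀ = A ∨ (A : Matrix (Fin n) (Fin n) F₀)ᵀ = -(A : Matrix (Fin n) (Fin n) F₀)) :
    ∃ (y : GUt n F q) (h : GL (Fin n) F), Rp σ ι y A h := by
  -- a Hermitian multiple
  have hmult : ∃ κ : Fˣ, Tr (sg σ (scG κ * io ι A)) = scG κ * io ι A := by
    rcases hA with hA | hA
    · refine ⟨1, ?_⟩
      have e1 : (scG 1 : GL (Fin n) F) = 1 := by
        apply Units.ext
        rw [scG_val]
        simp
      rw [e1, one_mul, sg_io σ ι hι, Tr_io]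
      congr 1
      apply Units.ext
      exact hA
    · have hex : ∃ t, σ t ≠ t := by
        by_contra hcon
        push Not at hcon
        apply hne
        ext a
        exact hcon a
      obtain ⟨t, ht⟩ := hex
      have hτ : t - σ t ≠ 0 := sub_ne_zero.2 (Ne.symm ht)
      refine ⟨Units.mk0 _ hτ, ?_⟩
      apply Units.ext
      rw [Tr_val, sg_val, Units.val_mul, scG_val, io_val, Matrix.smul_mul, Matrix.one_mul]
      have e1 : (((Units.mk0 _ hτ : Fˣ) : F) • (A : Matrix (Fin n) (Fin n) F₀).map ι).map (σ : F →+* F) = σ (t - σ t) • (A : Matrix (Fin n) (Fin n) F₀).map ι := by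
        ext i j
        have : σ (ι ((A : Matrix (Fin n) (Fin n) F₀) i j)) = ι ((A : Matrix (Fin n) (Fin n) F₀) i j) := (hι _).2 ⟨_, rfl⟩
        simp [this]
      rw [e1, Matrix.transpose_smul, ← Matrix.transpose_map, hA]
      ext i j
      simp [hσ2]
      ring
  obtain ⟨κ, hκ⟩ := hmult
  obtain ⟨h, hh⟩ := herm_factor σ hne hσ2 _ hκ
  have hS : cG (Tr h * sg σ h) = (cG (io ι A) : MulAut (CfsgLib.PSN.PSn n F)) := by
    rw [hh, cG_mul, cG_scG, one_mul]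
  obtain ⟨k₀, hk₀⟩ : ∃ k₀, k₀ = h * (sg σ h)⁻¹ := ⟨_, rfl⟩
  have hun : cG (Tr k₀ * sg σ k₀) = (1 : MulAut (CfsgLib.PSN.PSn n F)) := by
    have e1 : Tr (sg σ h) * h = scG (Units.map ((σ : F →+* F) : F →* F) κ) * io ι A := by
      have e2 := congrArg (sg σ) hh
      rw [map_mul, sg_sg σ hσ2, sg_Tr, map_mul, sg_scG, sg_io σ ι hι] at e2
      exact e2
    have e3 : (cG (Tr (sg σ h)) : MulAut (CfsgLib.PSN.PSn n F)) * cG h = cG (Tr h) * cG (sg σ h) := by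
      rw [← cG_mul, ← cG_mul, e1, hh, cG_mul, cG_mul, cG_scG, cG_scG]
    rw [hk₀, Tr_mul, Tr_inv, map_mul, map_inv, sg_sg σ hσ2]
    simp only [cG_mul, cG_inv']
    calc _ = (cG (Tr (sg σ h)))⁻¹ * (cG (Tr h) * cG (sg σ h)) * (cG h)⁻¹ := by group
      _ = 1 := by rw [← e3]; group
  obtain ⟨y, hy⟩ := unitarize hF σ hσ hn hne hσ2 k₀ hun
  exact ⟨y, h, hS, by rw [hy, hk₀]⟩

include hF in
/-- The graph automorphisms attached to a matched matrix are involutions. -/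
theorem gmU_invol {p : ℕ} [hp : Fact p.Prime] [CharP F p] (hn : 3 ≤ n) [NeZero n] (hne : (σ : F →+* F) ≠ RingHom.id F)
    (hσ2 : ∀ a, σ (σ a) = a) (hr : orderOf σ = 2) {y : GUt n F q} {A : GL (Fin n) F₀} {h : GL (Fin n) F}
    (R : Rp σ ι y A h) : orderOf (gmU σ y) = 2 ∧ Cfsg.IsGraphAutClassPSU (gmU σ y) := by
  have hn2 : 2 ≤ n := by omega
  have hσσ : σ * σ = 1 := by
    ext a
    exact hσ2 a
  refine ⟨?_, hn, cU y, fU σ, σ, by rw [hr]; exact even_two, isInner_cU y, isField_fU σ, rfl⟩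
  apply orderOf_eq_prime
  · rw [sq, gmU_sq σ hσσ]
    have e1 : (cU (y * mapGU σ y) : MulAut (PSU n F q)) = cU 1 := by
      apply cU_eq_of_cG hF (p := p) hn
      change cG (y.1 * sg σ y.1) = cG (1 : GL (Fin n) F)
      rw [cG_mul, R.2, cG_sg_congr σ hn2 R.2, map_mul, map_inv, sg_sg σ hσ2, cG_one]
      simp only [cG_mul, cG_inv']
      group
    rw [e1, cU_one]
  · intro h1
    have h2 : FR (gmU σ y) σ := ⟨y, rfl⟩
    have h3 : FR (gmU σ y) 1 := ⟨1, by rw [h1, cU_one, fU_one, one_mul]⟩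
    have h4 := FR_unique hF (p := p) hn h2 h3
    apply hne
    rw [h4]
    rfl

include hF hσ hι in
/-- Every involutory graph automorphism comes from a matched matrix. -/
theorem exhaust_rep {p f : ℕ} [hp : Fact p.Prime] [CharP F p] (hF' : Fintype.card F = p ^ f) (hf : 1 ≤ f) (hn : 3 ≤ n) [NeZero n]
    (hne : (σ : F →+* F) ≠ RingHom.id F) (hσ2 : ∀ a, σ (σ a) = a) (hr : orderOf σ = 2) {γ : MulAut (PSU n F q)}
    (hγ : Cfsg.IsGraphAutClassPSU γ) (hγ2 : orderOf γ = 2) :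
    ∃ (y : GUt n F q) (A : GL (Fin n) F₀) (h : GL (Fin n) F), γ = gmU σ y ∧ Rp σ ι y A h ∧
      ((A : Matrix (Fin n) (Fin n) F₀)ᵀ = A ∨ (A : Matrix (Fin n) (Fin n) F₀)ᵀ = -(A : Matrix (Fin n) (Fin n) F₀)) := by
  classical
  have hn2 : 2 ≤ n := by omega
  obtain ⟨-, δ, φ, σ', hev, hδ, hφ, rfl⟩ := hγ
  obtain ⟨y, rfl⟩ := inner_eq_cU hδ
  obtain rfl : φ = fU σ' := std_eq_fU hφ
  have hσσ : σ * σ = 1 := by
    ext a
    exact hσ2 a
  have hone : (cU y * fU σ') * (cU y * fU σ') = (1 : MulAut (PSU n F q)) := by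
    have h3 := pow_orderOf_eq_one (cU y * fU σ' : MulAut (PSU n F q))
    rw [hγ2, sq] at h3
    exact h3
  have hσ'σ' : σ' * σ' = 1 := by
    have h1 : FR ((cU y * fU σ') * (cU y * fU σ') : MulAut (PSU n F q)) (σ' * σ') := FR_mul ⟨y, rfl⟩ ⟨y, rfl⟩
    have h3 : FR ((cU y * fU σ') * (cU y * fU σ') : MulAut (PSU n F q)) 1 := ⟨1, by rw [hone, cU_one, fU_one, one_mul]⟩
    exact FR_unique hF (p := p) hn h1 h3
  have hσ'1 : σ' ≠ 1 := by
    rintro rfl
    rw [orderOf_one] at hev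
    exact absurd hev (by decide)
  have hσ1 : σ ≠ 1 := by
    intro h1
    apply hne
    rw [h1]
    rfl
  obtain rfl : σ' = σ := CfsgLib.PSN.invol_unique hF' hf hσ'1 hσ'σ' hσ1 hσσ
  refine ?_
  have hsq : cU (y * mapGU σ' y) = (1 : MulAut (PSU n F q)) := by
    rw [← gmU_sq σ' hσσ]
    exact hone
  have e1 : (cG (y.1 * sg σ' y.1) : MulAut (CfsgLib.PSN.PSn n F)) = 1 := by
    have h2 : (cU (y * mapGU σ' y) : MulAut (PSU n F q)) = cU 1 := by rw [hsq, cU_one]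
    have h3 := cG_of_cU hF (p := p) hn h2
    exact h3.trans cG_one
  obtain ⟨l, hl⟩ := scalar_of_cG_one' hn2 e1
  have hgu := (gu_iff' σ' hσ y.1).1 y.2
  -- `y = l yᵀ`
  have e2 : y.1 = scG l * Tr y.1 := by
    have h5 : sg σ' y.1 = (Tr y.1)⁻¹ := eq_inv_of_mul_eq_one_right hgu
    rw [h5] at hl
    exact mul_inv_eq_iff_eq_mul.1 hl
  have e3 : (l : F) * l = 1 := by
    have e4 : Tr y.1 = y.1 * scG l := by
      have := congrArg Tr e2
      rwa [Tr_mul, Tr_scG, Tr_Tr] at this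
    have e5 : y.1 = scG l * (scG l * y.1) := by
      rw [CfsgLib.PSN.GI.scG_central l y.1, ← e4]
      exact e2
    have e6 : (scG l * scG l) * y.1 = y.1 := by
      rw [mul_assoc]
      exact e5.symm
    have e7 : scG l * scG l = (1 : GL (Fin n) F) := mul_eq_right.1 e6
    have e8 := congrArg (fun y : GL (Fin n) F => (y : MM)) e7
    simp only [Units.val_mul, scG_val, Matrix.smul_mul, Matrix.one_mul, smul_smul, Units.val_one] at e8
    have e9 := congrFun (congrFun e8 ⟨0, by omega⟩) ⟨0, by omega⟩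
    simpa using e9
  have hlpm : (l : F) = 1 ∨ (l : F) = -1 := mul_self_eq_one_iff.1 e3
  have hlfix : σ' (l : F) = l := by
    rcases hlpm with h1 | h1 <;> rw [h1] <;> simp
  have hl0 : (l : F)⁻¹ ≠ 0 := inv_ne_zero l.ne_zero
  obtain ⟨t, ht⟩ := herm_norm_surj (σ' : F →+* F) hne hσ2 (l : F)⁻¹ hl0 (by
    change σ' _ = _
    rw [map_inv₀, hlfix])
  have ht' : t * σ' t = (l : F)⁻¹ := ht
  have ht0 : t ≠ 0 := by
    intro h0
    rw [h0, zero_mul] at ht'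
    exact hl0 ht'.symm
  obtain ⟨T, hT⟩ : ∃ T : Fˣ, (T : F) = t := ⟨Units.mk0 t ht0, rfl⟩
  obtain ⟨y', hy'⟩ : ∃ y' : GL (Fin n) F, y' = scG T * y.1 := ⟨_, rfl⟩
  have hyy : y' * sg σ' y' = 1 := by
    rw [hy', map_mul, sg_scG]
    calc scG T * y.1 * (scG (Units.map ((σ' : F →+* F) : F →* F) T) * sg σ' y.1)
        = scG T * (y.1 * scG (Units.map ((σ' : F →+* F) : F →* F) T)) * sg σ' y.1 := by simp only [mul_assoc]
      _ = scG T * (scG (Units.map ((σ' : F →+* F) : F →* F) T) * y.1) * sg σ' y.1 := by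
          rw [CfsgLib.PSN.GI.scG_central _ y.1]
      _ = scG T * scG (Units.map ((σ' : F →+* F) : F →* F) T) * (y.1 * sg σ' y.1) := by simp only [mul_assoc]
      _ = 1 := by
          rw [hl]
          apply Units.ext
          simp only [Units.val_mul, scG_val, Matrix.smul_mul, Matrix.one_mul, smul_smul, Units.val_one]
          have e5 : (T : F) * ((Units.map ((σ' : F →+* F) : F →* F) T : Fˣ) : F) * (l : F) = 1 := by
            change (T : F) * σ' (T : F) * (l : F) = 1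
            rw [hT, ht', inv_mul_cancel₀ l.ne_zero]
          rw [e5, one_smul]
  have hNG : CfsgLib.PSN.NG σ' y' 2 = 1 := by
    rw [← hyy]
    simp only [CfsgLib.PSN.NG, pow_zero, pow_one, one_mul]
    congr 1
  obtain ⟨h, hh⟩ := CfsgLib.PSN.hilbert90 σ' hr (by norm_num) y' hNG
  have hh' : y' * sg σ' h = h := hh
  have hy'h : y' = h * (sg σ' h)⁻¹ := eq_mul_inv_of_mul_eq hh'
  have hy1 : cG y.1 = (cG (h * (sg σ' h)⁻¹) : MulAut (CfsgLib.PSN.PSn n F)) := by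
    rw [← hy'h, hy', cG_mul, cG_scG, one_mul]
  -- symmetry of `y'`
  have hsym : y' = scG l * Tr y' := by
    rw [hy', Tr_mul, Tr_scG, ← mul_assoc, ← e2, CfsgLib.PSN.GI.scG_central]
  obtain ⟨S, hS⟩ : ∃ S, S = Tr h * sg σ' h := ⟨_, rfl⟩
  have hsgS : sg σ' S = Tr (sg σ' h) * h := by
    rw [hS, map_mul, sg_sg σ' hσ2, sg_Tr]
  have hrel : Tr (sg σ' h) * h = scG l * S := by
    have e5 : h * (sg σ' h)⁻¹ = scG l * ((Tr (sg σ' h))⁻¹ * Tr h) := by
      rw [← hy'h]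
      conv_lhs => rw [hsym, hy'h]
      rw [Tr_mul, Tr_inv]
    calc Tr (sg σ' h) * h = Tr (sg σ' h) * (h * (sg σ' h)⁻¹) * sg σ' h := by group
      _ = Tr (sg σ' h) * (scG l * ((Tr (sg σ' h))⁻¹ * Tr h)) * sg σ' h := by rw [e5]
      _ = (Tr (sg σ' h) * scG l) * ((Tr (sg σ' h))⁻¹ * Tr h) * sg σ' h := by simp only [mul_assoc]
      _ = (scG l * Tr (sg σ' h)) * ((Tr (sg σ' h))⁻¹ * Tr h) * sg σ' h := by rw [CfsgLib.PSN.GI.scG_central]
      _ = scG l * S := by rw [hS]; group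
  obtain ⟨b, hb0, hb⟩ := CfsgLib.PSN.hilbert90_scalar σ' hr (by norm_num) (l : F) (by
    rw [Finset.prod_range_succ, Finset.prod_range_one, pow_zero, pow_one]
    change (l : F) * σ' (l : F) = 1
    rw [hlfix, e3])
  have hb' : (l : F) * σ' b = b := hb
  obtain ⟨B, hB⟩ : ∃ B : Fˣ, (B : F) = b := ⟨Units.mk0 b hb0, rfl⟩
  have hfix : Matrix.GeneralLinearGroup.map (σ' : F →+* F) (scG B * S) = scG B * S := by
    change sg σ' (scG B * S) = _
    rw [map_mul, sg_scG, hsgS, hrel, ← mul_assoc]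
    congr 1
    apply Units.ext
    simp only [Units.val_mul, scG_val, Matrix.smul_mul, Matrix.one_mul, smul_smul]
    congr 1
    change σ' (B : F) * (l : F) = (B : F)
    rw [hB, mul_comm]
    exact hb'
  obtain ⟨A₀, hA₀⟩ := CfsgLib.PSN.descend_GL ι σ' hι _ hfix
  have hA₀' : io ι A₀ = scG B * S := hA₀
  refine ⟨y, A₀, h, rfl, ⟨?_, hy1⟩, ?_⟩
  · rw [← hS, hA₀', cG_mul, cG_scG, one_mul]
  · have hTS : Tr S = scG l * S := by
      rw [hS, Tr_mul, Tr_Tr, ← sg_Tr, sg_Tr, ← hS]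
      rw [← hsgS, hsgS, hrel]
    have hT0 : io ι (Tr A₀) = scG l * io ι A₀ := by
      rw [← Tr_io, hA₀', Tr_mul, Tr_scG, hTS, mul_assoc, ← CfsgLib.PSN.GI.scG_central B S]
    have hm : ((A₀ : Matrix (Fin n) (Fin n) F₀)ᵀ).map ι = (l : F) • (A₀ : Matrix (Fin n) (Fin n) F₀).map ι := by
      have := congrArg (fun y : GL (Fin n) F => (y : MM)) hT0
      change ((Tr A₀ : GL (Fin n) F₀) : Matrix (Fin n) (Fin n) F₀).map ι = ((scG l : GL (Fin n) F) : MM) * ((A₀ : Matrix (Fin n) (Fin n) F₀).map ι) at this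
      rw [scG_val, Matrix.smul_mul, Matrix.one_mul] at this
      exact this
    rcases hlpm with h1 | h1
    · left
      apply Matrix.map_injective ι.injective
      change ((A₀ : Matrix (Fin n) (Fin n) F₀)ᵀ).map ι = (A₀ : Matrix (Fin n) (Fin n) F₀).map ι
      rw [hm, h1, one_smul]
    · right
      apply Matrix.map_injective ι.injective
      change ((A₀ : Matrix (Fin n) (Fin n) F₀)ᵀ).map ι = (-(A₀ : Matrix (Fin n) (Fin n) F₀)).map ι
      rw [hm, h1, neg_smul, one_smul]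
      ext i j
      simp

end core

end CfsgLib.PUA.GT
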