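/-
Classes of involutory graph automorphisms of `PSU_{2m}(q)`, `q` odd, from those of `PSL_{2m}(q)`.
-/
import Mathlib
import Cfsg.Agent.Lib.PSUAut.GraphTransfer

set_option autoImplicit false
set_option linter.unusedSimpArgs false
set_option linter.unusedVariables false
set_option linter.unusedSectionVars false
set_option maxHeartbeats 1000000

namespace CfsgLib.PUA.GT

open Module Matrix Cfsg CfsgLib.ClassGeo CfsgLib.PUA CfsgLib.PUA.GC CfsgLib.PSN.GI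

lemma graph_rep {n : ℕ} {K : Type*} [Field K] (hn : 2 ≤ n) [NeZero n] {γ : MulAut (Matrix.ProjectiveSpecialLinearGroup (Fin n) K)}
    (hγ : Cfsg.IsGraphAutClassPSL γ) (hγ2 : orderOf γ = 2) :
    ∃ A : GL (Fin n) K, γ = gam A⁻¹ ∧ ((A : Matrix (Fin n) (Fin n) K)ᵀ = A ∨ (A : Matrix (Fin n) (Fin n) K)ᵀ = -(A : Matrix (Fin n) (Fin n) K)) := by
  obtain ⟨g, rfl⟩ := graph_eq_gam hγ
  refine ⟨g⁻¹, by rw [inv_inv], invol_form hn _ ?_⟩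
  rw [inv_inv]
  have h3 := pow_orderOf_eq_one (gam g)
  rw [hγ2, sq] at h3
  exact h3

lemma gam_order {n : ℕ} {K : Type*} [Field K] (hn : 3 ≤ n) [NeZero n] (A : GL (Fin n) K)
    (hA : (A : Matrix (Fin n) (Fin n) K)ᵀ = A ∨ (A : Matrix (Fin n) (Fin n) K)ᵀ = -(A : Matrix (Fin n) (Fin n) K)) :
    orderOf (gam A⁻¹) = 2 := by
  rcases hA with h | h
  · exact gam_invol hn A 1 (by rw [h]; simp)
  · exact gam_invol hn A (-1) (by rw [h]; simp)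

/-- The fields attached to `PSU_n(q)`. -/
lemma exists_setup {F F₀ : Type*} [Field F] [Fintype F] [Field F₀] [Fintype F₀] {q : ℕ} (hF : Fintype.card F = q ^ 2)
    (hF₀ : Fintype.card F₀ = q) :
    ∃ (p f : ℕ) (_ : Fact p.Prime) (_ : CharP F p) (σ : RingAut F) (ι : F₀ →+* F), Fintype.card F = p ^ f ∧ 1 ≤ f ∧
      (∀ a, σ a = a ^ q) ∧ (∀ a, σ a = a ↔ ∃ b, ι b = a) ∧ (σ : F →+* F) ≠ RingHom.id F ∧ (∀ a, σ (σ a) = a) ∧ orderOf σ = 2 := by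
  classical
  obtain ⟨p, hp⟩ := CharP.exists F₀
  obtain ⟨k, hprime, hcard⟩ := FiniteField.card F₀ p
  haveI : Fact p.Prime := ⟨hprime⟩
  have hq : q = p ^ (k : ℕ) := by rw [← hF₀, hcard]
  have hF' : Fintype.card F = p ^ (2 * (k : ℕ)) := by
    rw [hF, hq, ← pow_mul, mul_comm]
  have hf : 1 ≤ 2 * (k : ℕ) := by
    have := k.pos
    omega
  haveI : CharP F p := charP_card' hF' hf
  let ρh : F →+* F := qFrob hF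
  let σ : F ≃+* F := RingEquiv.ofBijective ρh ⟨ρh.injective, Finite.surjective_of_injective ρh.injective⟩
  have hσ : ∀ a : F, σ a = a ^ q := fun a => qFrob_apply hF a
  have hne : (σ : F →+* F) ≠ RingHom.id F := by
    intro h
    apply qFrob_ne hF
    ext a
    exact congrArg (fun f : F →+* F => f a) h
  have hσ2 : ∀ a, σ (σ a) = a := by
    intro a
    rw [hσ, hσ, ← pow_mul, ← sq, ← hF, FiniteField.pow_card]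
  have hr1 : σ ≠ 1 := by
    intro h
    apply hne
    ext a
    rw [h]
    rfl
  have hr2 : σ ^ 2 = 1 := by
    ext a
    rw [sq]
    exact hσ2 a
  have hr : orderOf σ = 2 := orderOf_eq_prime hr2 hr1
  obtain ⟨ι, hι⟩ := CfsgLib.PSN.exists_embedding hF' hf σ hr (by norm_num) F₀ (by
    rw [hF₀, hq, Nat.mul_div_cancel_left _ (by norm_num)])
  exact ⟨p, 2 * k, inferInstance, inferInstance, σ, ι, hF', hf, hσ, hι, hne, hσ2, hr⟩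

/-- Statement S2707 with `n = 2 * m`. -/
theorem main_2707 {F : Type*} [Field F] [Fintype F] {q : ℕ} (hodd : Odd q) (hF : Fintype.card F = q ^ 2) {m : ℕ} (hm : 2 ≤ m)
    (F₀ : Type*) [Field F₀] [Fintype F₀] (hF₀ : Fintype.card F₀ = q) :
    ∃ (γ₁ γ₂ γ₃ : MulAut (Cfsg.PSU (2 * m) F q)) (a b : F₀), (∀ z₁ z₂ : F₀, z₁ ^ 2 + a * z₁ * z₂ + b * z₂ ^ 2 = 0 → z₁ = 0 ∧ z₂ = 0) ∧ Cfsg.IsGraphAutClassPSU γ₁ ∧ orderOf γ₁ = 2 ∧ Cfsg.IsGraphAutClassPSU γ₂ ∧ orderOf γ₂ = 2 ∧ Cfsg.IsGraphAutClassPSU γ₃ ∧ orderOf γ₃ = 2 ∧ ¬ Cfsg.IsConjUnder (Cfsg.inndiagPSU (2 * m) F q) γ₁ γ₂ ∧ ¬ Cfsg.IsConjUnder (Cfsg.inndiagPSU (2 * m) F q) γ₁ γ₃ ∧ ¬ Cfsg.IsConjUnder (Cfsg.inndiagPSU (2 * m) F q) γ₂ γ₃ ∧ (∀ γ : MulAut (Cfsg.PSU (2 * m) F q), Cfsg.IsGraphAutClassPSU γ → orderOf γ = 2 → Cfsg.IsConjUnder (Cfsg.inndiagPSU (2 * m) F q) γ₁ γ ∨ Cfsg.IsConjUnder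 (Cfsg.inndiagPSU (2 * m) F q) γ₂ γ ∨ Cfsg.IsConjUnder (Cfsg.inndiagPSU (2 * m) F q) γ₃ γ) ∧ Nonempty (↥(Cfsg.inndiagPSU (2 * m) F q ⊓ Subgroup.centralizer {γ₁}) ≃* Cfsg.PGSp m F₀) ∧ Nonempty (↥(Cfsg.inndiagPSU (2 * m) F q ⊓ Subgroup.centralizer {γ₂}) ≃* Cfsg.PGO F₀ (Cfsg.quadFormPlus m F₀)) ∧ Nonempty (↥(Cfsg.inndiagPSU (2 * m) F q ⊓ Subgroup.centralizer {γ₃}) ≃* Cfsg.PGO F₀ (Cfsg.quadFormMinus (m - 1) F₀ a b)) := by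
  classical
  haveI : NeZero (2 * m) := ⟨by omega⟩
  have hn3 : 3 ≤ 2 * m := by omega
  have hn2 : 2 ≤ 2 * m := by omega
  obtain ⟨p, f, hp, hch, σ, ι, hF', hf, hσ, hι, hne, hσ2, hr⟩ := exists_setup (F₀ := F₀) hF hF₀
  obtain ⟨g1, g2, g3, a, b, hab, hg1, ho1, hg2, ho2, hg3, ho3, n12, n13, n23, hex, c1, c2, c3⟩ :=
    main_2700 (F := F₀) (by rw [hF₀]; exact hodd) hm
  obtain ⟨A₁, rfl, hA₁⟩ := graph_rep hn2 hg1 ho1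
  obtain ⟨A₂, rfl, hA₂⟩ := graph_rep hn2 hg2 ho2
  obtain ⟨A₃, rfl, hA₃⟩ := graph_rep hn2 hg3 ho3
  obtain ⟨y₁, h₁, R₁⟩ := exists_rep hF σ hσ ι hι hn2 hne hσ2 A₁ hA₁
  obtain ⟨y₂, h₂, R₂⟩ := exists_rep hF σ hσ ι hι hn2 hne hσ2 A₂ hA₂
  obtain ⟨y₃, h₃, R₃⟩ := exists_rep hF σ hσ ι hι hn2 hne hσ2 A₃ hA₃
  have I₁ := gmU_invol hF σ ι hn3 hne hσ2 hr R₁
  have I₂ := gmU_invol hF σ ι hn3 hne hσ2 hr R₂
  have I₃ := gmU_invol hF σ ι hn3 hne hσ2 hr R₃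
  refine ⟨gmU σ y₁, gmU σ y₂, gmU σ y₃, a, b, hab, I₁.2, I₁.1, I₂.2, I₂.1, I₃.2, I₃.1,
    fun h => n12 ((conj_iff hF σ hσ ι hι hn3 hne hr hσ2 R₁ R₂).1 h),
    fun h => n13 ((conj_iff hF σ hσ ι hι hn3 hne hr hσ2 R₁ R₃).1 h),
    fun h => n23 ((conj_iff hF σ hσ ι hι hn3 hne hr hσ2 R₂ R₃).1 h), ?_, ?_, ?_, ?_⟩
  · intro γ hγ hγ2
    obtain ⟨y, A, h, rfl, R, hA⟩ := exhaust_rep hF σ hσ ι hι hF' hf hn3 hne hσ2 hr hγ hγ2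
    rcases hex _ (gam_isGraph hn3 _) (gam_order hn3 A hA) with h1 | h1 | h1
    · exact Or.inl ((conj_iff hF σ hσ ι hι hn3 hne hr hσ2 R₁ R).2 h1)
    · exact Or.inr (Or.inl ((conj_iff hF σ hσ ι hι hn3 hne hr hσ2 R₂ R).2 h1))
    · exact Or.inr (Or.inr ((conj_iff hF σ hσ ι hι hn3 hne hr hσ2 R₃ R).2 h1))
  · obtain ⟨e⟩ := cent_transfer hF σ hσ ι hι hn3 hne hr hσ2 R₁
    obtain ⟨e'⟩ := c1
    exact ⟨e.trans e'⟩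
  · obtain ⟨e⟩ := cent_transfer hF σ hσ ι hι hn3 hne hr hσ2 R₂
    obtain ⟨e'⟩ := c2
    exact ⟨e.trans e'⟩
  · obtain ⟨e⟩ := cent_transfer hF σ hσ ι hι hn3 hne hr hσ2 R₃
    obtain ⟨e'⟩ := c3
    exact ⟨e.trans e'⟩

end CfsgLib.PUA.GT
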