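/-
The elements of the general unitary group fixed up to scalars by a field automorphism of odd prime order.
-/
import Cfsg.Agent.Lib.PSUAut.Class

set_option autoImplicit false
set_option linter.unusedSimpArgs false
set_option linter.unusedVariables false
set_option linter.unusedSectionVars false
set_option maxHeartbeats 1000000

namespace CfsgLib.PUA

open Module Matrix Cfsg CfsgLib.ClassGeo

variable {F : Type*} [Field F] {n q : ℕ}

local notation "MM" => Matrix (Fin n) (Fin n) F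

section Main

variable [Fintype F] (hF : Fintype.card F = q ^ 2)
variable {F₀ : Type*} [Field F₀] [Fintype F₀] {q₀ : ℕ} (hF₀ : Fintype.card F₀ = q₀ ^ 2) (ι : F₀ →+* F)

/-- Products of elements over the subfield with scalars of norm one. -/
noncomputable def PsiI (hιq : ∀ b, ι b ^ q = ι (b ^ q₀)) : GUt n F₀ q₀ × UU F q →* GUt n F q where
  toFun x := mapI hF hF₀ ι hιq x.1 * guScalar n (x.2 : Fˣ) (show (x.2 : Fˣ) ^ (q + 1) = 1 from MonoidHom.mem_ker.mp x.2.2)
  map_one' := by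
    apply Subtype.ext
    apply Units.ext
    change ((1 : Matrix (Fin n) (Fin n) F₀).map ι) * (((1 : Fˣ) : F) • (1 : MM)) = 1
    simp
  map_mul' a b := by
    apply Subtype.ext
    apply Units.ext
    change ((a.1.1.1 * b.1.1.1).map ι) * ((((a.2.1 * b.2.1 : Fˣ)) : F) • (1 : MM)) =
      ((a.1.1.1.map ι) * (((a.2.1 : Fˣ) : F) • (1 : MM))) * ((b.1.1.1.map ι) * (((b.2.1 : Fˣ) : F) • (1 : MM)))
    rw [Matrix.map_mul, Units.val_mul]
    simp only [mul_smul_comm, smul_mul_assoc, mul_one, one_mul, smul_smul]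
    rw [mul_comm]

lemma PsiI_val (hιq : ∀ b, ι b ^ q = ι (b ^ q₀)) (x : GUt n F₀ q₀ × UU F q) :
    (PsiI hF hF₀ ι hιq x).1.1 = ((x.2.1 : Fˣ) : F) • x.1.1.1.map ι := by
  change (x.1.1.1.map ι) * (((x.2.1 : Fˣ) : F) • (1 : MM)) = _
  simp

include hF in
lemma norm_of_map (σ : RingAut F) (hn : 1 ≤ n) (g : GUt n F q) {c : F} (h : g.1.1.map (σ : F →+* F) = c • g.1.1) : c ^ (q + 1) = 1 := by
  classical
  let i₀ : Fin n := ⟨0, by omega⟩
  have h1 := (mapGU σ g).2 (Pi.single i₀ 1) (Pi.single i₀ 1)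
  have h2 : hermForm n F q ((mapGU σ g).1.1 *ᵥ Pi.single i₀ 1) ((mapGU σ g).1.1 *ᵥ Pi.single i₀ 1) = hermForm n F q (Pi.single i₀ 1) (Pi.single i₀ 1) := h1
  have h3 : (mapGU σ g).1.1 = c • g.1.1 := h
  rw [h3, smul_mulVec, ← stdH_apply n hF, ← stdH_apply n hF, LinearMap.map_smulₛₗ₂, map_smul, stdH_apply, stdH_apply] at h2
  have h4 := g.2 (Pi.single i₀ 1) (Pi.single i₀ 1)
  have h5 : hermForm n F q (g.1.1 *ᵥ Pi.single i₀ 1) (g.1.1 *ᵥ Pi.single i₀ 1) = hermForm n F q (Pi.single i₀ 1) (Pi.single i₀ 1) := h4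
  rw [h5, ← stdH_apply n hF, stdH_single hF n i₀ i₀, if_pos rfl, smul_eq_mul, smul_eq_mul, mul_one, qFrob_apply] at h2
  rw [pow_succ]
  exact h2

include hF hF₀ in
/-- The count in terms of the group over the subfield. -/
theorem card_fix_aux (hn : 1 ≤ n) (σ : RingAut F) {r : ℕ} (hr : orderOf σ = r) (hr0 : 0 < r)
    (hι : ∀ a, σ a = a ↔ ∃ b, ι b = a) (hιq : ∀ b, ι b ^ q = ι (b ^ q₀)) :
    Nat.card {g : GUt n F q // ∃ c : F, c ≠ 0 ∧ g.1.1.map (σ : F →+* F) = c • g.1.1} * (q₀ + 1) = Nat.card (GUt n F₀ q₀) * (q + 1) := by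
  classical
  let Ψ := PsiI (n := n) hF hF₀ ι hιq
  have hrange : ∀ g : GUt n F q, g ∈ Ψ.range ↔ ∃ c : F, c ≠ 0 ∧ g.1.1.map (σ : F →+* F) = c • g.1.1 := by
    intro g
    rw [MonoidHom.mem_range]
    constructor
    · rintro ⟨x, rfl⟩
      have hu0 : ((x.2.1 : Fˣ) : F) ≠ 0 := x.2.1.ne_zero
      refine ⟨σ ((x.2.1 : Fˣ) : F) * ((x.2.1 : Fˣ) : F)⁻¹, mul_ne_zero ((map_ne_zero _).2 hu0) (inv_ne_zero hu0), ?_⟩
      rw [PsiI_val]
      have e : (x.1.1.1.map ι).map (σ : F →+* F) = x.1.1.1.map ι := by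
        ext i j
        exact (hι _).2 ⟨_, rfl⟩
      have e2 : (((x.2.1 : Fˣ) : F) • x.1.1.1.map ι).map (σ : F →+* F) = σ ((x.2.1 : Fˣ) : F) • (x.1.1.1.map ι).map (σ : F →+* F) := by
        ext i j
        simp
      rw [e2, e, smul_smul, mul_assoc, inv_mul_cancel₀ hu0, mul_one]
    · rintro ⟨c, hc0, hc⟩
      have hcn := norm_of_map hF σ hn g hc
      let l : Fˣ := Units.mk0 c hc0
      have hl : l ^ (q + 1) = 1 := by
        apply Units.ext
        rw [Units.val_pow_eq_pow_val, Units.val_mk0, hcn, Units.val_one]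
      have hl' : mapGU σ g = g * guScalar n l hl := by
        apply Subtype.ext
        apply Units.ext
        change g.1.1.map (σ : F →+* F) = g.1.1 * (c • (1 : MM))
        rw [hc, mul_smul_comm, mul_one]
      obtain ⟨u, hu, hfix⟩ := comm_aux hF hF₀ ι hn σ hr hr0 hι hιq g hl hl'
      obtain ⟨g₀, hg₀⟩ := CfsgLib.PSN.descend_GL ι σ hι (g * guScalar n u hu).1 (congrArg Subtype.val hfix)
      have hg₀' : g₀.1.map ι = (g * guScalar n u hu).1.1 := congrArg Units.val hg₀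
      have hmem : g₀ ∈ GU n F₀ q₀ := by
        intro x y
        change hermForm n F₀ q₀ (g₀.1 *ᵥ x) (g₀.1 *ᵥ y) = hermForm n F₀ q₀ x y
        apply ι.injective
        rw [← herm_iota ι hιq, ← herm_iota ι hιq, ← iota_mulVec, ← iota_mulVec, hg₀']
        exact (g * guScalar n u hu).2 _ _
      have hu' : u⁻¹ ^ (q + 1) = 1 := by rw [inv_pow, hu, inv_one]
      refine ⟨(⟨g₀, hmem⟩, ⟨u⁻¹, MonoidHom.mem_ker.mpr hu'⟩), ?_⟩
      apply Subtype.ext
      apply Units.ext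
      rw [PsiI_val]
      change ((u⁻¹ : Fˣ) : F) • (g₀.1.map ι) = g.1.1
      rw [hg₀']
      change ((u⁻¹ : Fˣ) : F) • (g.1.1 * ((u : F) • (1 : MM))) = g.1.1
      rw [mul_smul_comm, mul_one, smul_smul, Units.val_inv_eq_inv_val, inv_mul_cancel₀ u.ne_zero, one_smul]
  have hker : Nat.card Ψ.ker = q₀ + 1 := by
    rw [← card_UU hF₀]
    symm
    refine Nat.card_congr (Equiv.ofBijective (fun a : UU F₀ q₀ => (⟨(guScalar n (a.1 : F₀ˣ) (show (a.1 : F₀ˣ) ^ (q₀ + 1) = 1 from MonoidHom.mem_ker.mp a.2),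
      ⟨Units.map (ι : F₀ →* F) (a.1 : F₀ˣ)⁻¹, ?_⟩), ?_⟩ : Ψ.ker)) ⟨?_, ?_⟩)
    · have h1 : (a.1 : F₀) ^ (q₀ + 1) = 1 := by
        have := congrArg Units.val (MonoidHom.mem_ker.mp a.2)
        simpa using this
      rw [MonoidHom.mem_ker]
      apply Units.ext
      change (ι (((a.1 : F₀ˣ)⁻¹ : F₀ˣ) : F₀)) ^ (q + 1) = 1
      rw [Units.val_inv_eq_inv_val, map_inv₀, inv_pow, pow_succ, hιq, ← map_mul, ← pow_succ, h1, map_one, inv_one]
    · rw [MonoidHom.mem_ker]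
      apply Subtype.ext
      apply Units.ext
      rw [PsiI_val]
      change (ι (((a.1 : F₀ˣ)⁻¹ : F₀ˣ) : F₀)) • (((a.1 : F₀ˣ) : F₀) • (1 : Matrix (Fin n) (Fin n) F₀)).map ι = 1
      have e : (((a.1 : F₀ˣ) : F₀) • (1 : Matrix (Fin n) (Fin n) F₀)).map ι = ι ((a.1 : F₀ˣ) : F₀) • (1 : MM) := by
        ext i j
        by_cases hij : i = j <;> simp [Matrix.one_apply, hij]
      rw [e, smul_smul, ← map_mul, Units.val_inv_eq_inv_val, inv_mul_cancel₀ a.1.ne_zero, map_one, one_smul]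
    · intro a b hab
      have h1 : (((a.1 : F₀ˣ) : F₀) • (1 : Matrix (Fin n) (Fin n) F₀)) = (((b.1 : F₀ˣ) : F₀) • (1 : Matrix (Fin n) (Fin n) F₀)) :=
        congrArg (fun z : Ψ.ker => z.1.1.1.1) hab
      have h2 := congrFun (congrFun h1 ⟨0, by omega⟩) ⟨0, by omega⟩
      simp at h2
      exact Subtype.ext (Units.ext h2)
    · rintro ⟨⟨g₀, u⟩, hx⟩
      have h1 : Ψ (g₀, u) = 1 := hx
      have h2 : ((u.1 : Fˣ) : F) • g₀.1.1.map ι = 1 := by
        rw [← PsiI_val hF hF₀ ι hιq (g₀, u), h1]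
        rfl
      let i₀ : Fin n := ⟨0, by omega⟩
      have hent : ∀ i j, ι (g₀.1.1 i j) = ((u.1 : Fˣ) : F)⁻¹ * (1 : MM) i j := by
        intro i j
        have h3 := congrFun (congrFun h2 i) j
        simp only [Matrix.smul_apply, Matrix.map_apply, smul_eq_mul] at h3
        rw [← h3, inv_mul_cancel_left₀ u.1.ne_zero]
      have h00 : g₀.1.1 i₀ i₀ ≠ 0 := by
        intro h0
        have := hent i₀ i₀
        rw [h0, map_zero, Matrix.one_apply_eq, mul_one] at this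
        exact inv_ne_zero u.1.ne_zero this.symm
      obtain ⟨a, ha⟩ : ∃ a, a = g₀.1.1 i₀ i₀ := ⟨_, rfl⟩
      rw [← ha] at h00
      have hιa : ι a = ((u.1 : Fˣ) : F)⁻¹ := by
        have := hent i₀ i₀
        rwa [Matrix.one_apply_eq, mul_one, ← ha] at this
      have hg₀ : g₀.1.1 = a • (1 : Matrix (Fin n) (Fin n) F₀) := by
        ext i j
        apply ι.injective
        rw [hent i j, ← hιa]
        by_cases hij : i = j
        · subst hij
          simp
        · simp [hij]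
      have hnorm : a ^ (q₀ + 1) = 1 := by
        apply ι.injective
        rw [pow_succ, map_mul, ← hιq, hιa, map_one, ← pow_succ, inv_pow]
        have h4 := congrArg Units.val (MonoidHom.mem_ker.mp u.2)
        have h5 : ((u.1 : Fˣ) : F) ^ (q + 1) = 1 := by simpa using h4
        rw [h5, inv_one]
      have hau : Units.mk0 a h00 ^ (q₀ + 1) = 1 := by
        apply Units.ext
        rw [Units.val_pow_eq_pow_val, Units.val_mk0, hnorm, Units.val_one]
      refine ⟨⟨Units.mk0 a h00, MonoidHom.mem_ker.mpr hau⟩, ?_⟩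
      apply Subtype.ext
      apply Prod.ext
      · apply Subtype.ext
        apply Units.ext
        exact hg₀.symm
      · apply Subtype.ext
        apply Units.ext
        change ι ((Units.mk0 a h00)⁻¹ : F₀ˣ) = _
        rw [Units.val_inv_eq_inv_val, Units.val_mk0, map_inv₀, hιa, inv_inv]
  have h1 : Nat.card (GUt n F₀ q₀ × UU F q) = Nat.card Ψ.range * (q₀ + 1) := by
    rw [Subgroup.card_eq_card_quotient_mul_card_subgroup Ψ.ker, hker, Nat.card_congr (QuotientGroup.quotientKerEquivRange Ψ).toEquiv]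
  rw [Nat.card_prod, card_UU hF] at h1
  rw [h1]
  congr 1
  exact Nat.card_congr (Equiv.subtypeEquivRight hrange).symm

end Main

/-- The main count. -/
theorem card_fix_GU {K : Type*} [Field K] [Fintype K] {q₀ q r n : ℕ} (hr : r.Prime) (hr2 : r ≠ 2) (hn : 1 ≤ n) (hq : q = q₀ ^ r) (hK : Fintype.card K = q ^ 2)
    (σ : K ≃+* K) (hσ : orderOf σ = r) :
    (Nat.card {g : ↥(Cfsg.GU n K q) // ∃ c : K, c ≠ 0 ∧ ((g : GL (Fin n) K) : Matrix (Fin n) (Fin n) K).map σ = c • ((g : GL (Fin n) K) : Matrix (Fin n) (Fin n) K)} : ℤ) =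
      ((q + 1) / (q₀ + 1) : ℕ) * ((q₀ : ℤ) ^ (n * (n - 1) / 2) * ∏ i : Fin n, ((q₀ : ℤ) ^ ((i : ℕ) + 1) - (-1) ^ ((i : ℕ) + 1))) := by
  classical
  have hro : Odd r := hr.odd_of_ne_two hr2
  obtain ⟨p, hcp⟩ := CharP.exists K
  haveI := hcp
  haveI : Fact p.Prime := ⟨CharP.char_is_prime K p⟩
  obtain ⟨e, he1, he⟩ := FiniteField.card K p
  have heq : Fintype.card K = p ^ (e : ℕ) := he
  obtain ⟨hrf, K₀, hK₀, hcard⟩ := CfsgLib.PSN.fixed_subfield heq (by have := e.pos; omega) σ hσ hr.pos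
  haveI : Fintype K₀ := Fintype.ofFinite K₀
  have hK₀c : Fintype.card K₀ = q₀ ^ 2 := by
    rw [← Nat.card_eq_fintype_card, hcard]
    have h1 : (p ^ ((e : ℕ) / r)) ^ r = (q₀ ^ 2) ^ r := by
      rw [← pow_mul, Nat.div_mul_cancel hrf, ← heq, hK, hq, ← pow_mul, ← pow_mul, mul_comm]
    exact Nat.pow_left_injective (n := r) (by have := hr.two_le; omega) h1
  have hιq : ∀ b : K₀, (K₀.subtype b) ^ q = K₀.subtype (b ^ q₀) := by
    have h2 : ∀ b : K₀, b ^ (q₀ ^ 2) = b := by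
      intro b
      rw [← hK₀c, FiniteField.pow_card]
    have hpow2 : ∀ (t : ℕ) (a : K₀), a ^ (q₀ ^ (2 * t)) = a := by
      intro t a
      induction t with
      | zero => simp
      | succ t ih =>
        rw [show 2 * (t + 1) = 2 * t + 2 by ring, pow_add, pow_mul, ih, h2]
    obtain ⟨t, ht⟩ := hro
    intro b
    rw [← map_pow]
    congr 1
    rw [hq, ht, pow_succ, pow_mul, hpow2]
  have hι : ∀ a, σ a = a ↔ ∃ b, K₀.subtype b = a := by
    intro a
    constructor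
    · intro h
      exact ⟨⟨a, (hK₀ a).2 h⟩, rfl⟩
    · rintro ⟨b, rfl⟩
      exact (hK₀ _).1 b.2
  have h1 := card_fix_aux hK hK₀c K₀.subtype hn σ hσ hr.pos hι hιq
  have h2 := card_GU hK₀c n
  have hdvd : q₀ + 1 ∣ q + 1 := by
    rw [hq]
    have := hro.nat_add_dvd_pow_add_pow q₀ 1
    simpa using this
  obtain ⟨k, hk⟩ := hdvd
  have hq₀ : 0 < q₀ + 1 := by omega
  have hdiv : (q + 1) / (q₀ + 1) = k := by
    rw [hk]
    exact Nat.mul_div_cancel_left _ hq₀
  have h3 : Nat.card {g : ↥(Cfsg.GU n K q) // ∃ c : K, c ≠ 0 ∧ ((g : GL (Fin n) K) : Matrix (Fin n) (Fin n) K).map σ = c • ((g : GL (Fin n) K) : Matrix (Fin n) (Fin n) K)} = k * Nat.card (Cfsg.GU n K₀ q₀) := by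
    have h4 := h1
    rw [hk] at h4
    apply Nat.eq_of_mul_eq_mul_right hq₀
    calc _ = Nat.card (GUt n K₀ q₀) * ((q₀ + 1) * k) := h4
      _ = _ := by
        ring
  rw [hdiv, h3, h2]
  have hq01 : 1 ≤ q₀ := by
    rcases Nat.eq_zero_or_pos q₀ with h0 | h0
    · subst h0
      have := Fintype.one_lt_card (α := K₀)
      rw [hK₀c] at this
      simp at this
    · exact h0
  rw [Nat.cast_mul, Nat.cast_mul, Nat.cast_pow, Nat.cast_prod]
  congr 2
  rw [← Fin.prod_univ_eq_prod_range (fun i => (((if Even i then q₀ ^ (i + 1) + 1 else q₀ ^ (i + 1) - 1 : ℕ) : ℤ))) n]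
  refine Finset.prod_congr rfl fun i _ => ?_
  by_cases hi : Even (i : ℕ)
  · have h5 : ((-1 : ℤ)) ^ ((i : ℕ) + 1) = -1 := by
      rw [pow_succ, hi.neg_one_pow]
      norm_num
    rw [if_pos hi, h5]
    push_cast
    ring
  · have hio : Odd (i : ℕ) := Nat.not_even_iff_odd.mp hi
    have h5 : ((-1 : ℤ)) ^ ((i : ℕ) + 1) = 1 := by
      rw [pow_succ, hio.neg_one_pow]
      norm_num
    rw [if_neg hi, h5, Nat.cast_sub (Nat.one_le_pow _ _ hq01)]
    push_cast
    ring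

end CfsgLib.PUA
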