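/-
Involutory graph automorphisms of `PSU_{2m}(q)`, `q` even, from those of `PSL_{2m}(q)`.
-/
import Mathlib
import Cfsg.Agent.Lib.PSUAut.GraphInvols
import Cfsg.Agent.Lib.PSLn.GraphEven

set_option autoImplicit false
set_option linter.unusedSimpArgs false
set_option linter.unusedVariables false
set_option linter.unusedSectionVars false
set_option maxHeartbeats 1000000

namespace CfsgLib.PUA.GT

open Module Matrix Cfsg CfsgLib.ClassGeo CfsgLib.PUA CfsgLib.PUA.GC CfsgLib.PSN.GI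

/-- Statement S2708 with `n = 2 * m`. -/
theorem main_2708 {F : Type*} [Field F] [Fintype F] [CharP F 2] {q : ℕ} (hF : Fintype.card F = q ^ 2) {m : ℕ} (hm : 2 ≤ m)
    (F₀ : Type*) [Field F₀] [Fintype F₀] (hF₀ : Fintype.card F₀ = q) :
    ∃ (γ₁ γ₃ : MulAut (Cfsg.PSU (2 * m) F q)) (t : ↥(Matrix.symplecticGroup (Fin m) F₀)),
      Cfsg.IsTransvection (t : Matrix (Fin m ⊕ Fin m) (Fin m ⊕ Fin m) F₀) ∧ Cfsg.IsGraphAutClassPSU γ₁ ∧ orderOf γ₁ = 2 ∧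
      Cfsg.IsGraphAutClassPSU γ₃ ∧ orderOf γ₃ = 2 ∧ ¬ Cfsg.IsConjUnder (Cfsg.inndiagPSU (2 * m) F q) γ₁ γ₃ ∧
      (∀ γ : MulAut (Cfsg.PSU (2 * m) F q), Cfsg.IsGraphAutClassPSU γ → orderOf γ = 2 →
        Cfsg.IsConjUnder (Cfsg.inndiagPSU (2 * m) F q) γ₁ γ ∨ Cfsg.IsConjUnder (Cfsg.inndiagPSU (2 * m) F q) γ₃ γ) ∧
      Nonempty (↥(Cfsg.inndiagPSU (2 * m) F q ⊓ Subgroup.centralizer {γ₁}) ≃* ↥(Matrix.symplecticGroup (Fin m) F₀)) ∧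
      Nonempty (↥(Cfsg.inndiagPSU (2 * m) F q ⊓ Subgroup.centralizer {γ₃}) ≃*
        ↥(Subgroup.centralizer ({t} : Set ↥(Matrix.symplecticGroup (Fin m) F₀)))) := by
  classical
  haveI : NeZero (2 * m) := ⟨by omega⟩
  have hn3 : 3 ≤ 2 * m := by omega
  have hn2 : 2 ≤ 2 * m := by omega
  have h2F : CharP F 2 := inferInstance
  obtain ⟨p, f, hp, hch, σ, ι, hF', hf, hσ, hι, hne, hσ2, hr⟩ := exists_setup (F₀ := F₀) hF hF₀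
  haveI : CharP F₀ 2 := @RingHom.charP F₀ F _ _ ι ι.injective 2 h2F
  obtain ⟨g1, g3, t, ht, hg1, ho1, hg3, ho3, n13, hex, c1, c3⟩ := CfsgLib.PSN.GE.main_2701 (F := F₀) hm
  obtain ⟨A₁, rfl, hA₁⟩ := graph_rep hn2 hg1 ho1
  obtain ⟨A₃, rfl, hA₃⟩ := graph_rep hn2 hg3 ho3
  obtain ⟨y₁, h₁, R₁⟩ := exists_rep hF σ hσ ι hι hn2 hne hσ2 A₁ hA₁
  obtain ⟨y₃, h₃, R₃⟩ := exists_rep hF σ hσ ι hι hn2 hne hσ2 A₃ hA₃
  have I₁ := gmU_invol hF σ ι hn3 hne hσ2 hr R₁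
  have I₃ := gmU_invol hF σ ι hn3 hne hσ2 hr R₃
  refine ⟨gmU σ y₁, gmU σ y₃, t, ht, I₁.2, I₁.1, I₃.2, I₃.1,
    fun h => n13 ((conj_iff hF σ hσ ι hι hn3 hne hr hσ2 R₁ R₃).1 h), ?_, ?_, ?_⟩
  · intro γ hγ hγ2
    obtain ⟨y, A, h, rfl, R, hA⟩ := exhaust_rep hF σ hσ ι hι hF' hf hn3 hne hσ2 hr hγ hγ2
    rcases hex _ (gam_isGraph hn3 _) (gam_order hn3 A hA) with h1 | h1
    · exact Or.inl ((conj_iff hF σ hσ ι hι hn3 hne hr hσ2 R₁ R).2 h1)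
    · exact Or.inr ((conj_iff hF σ hσ ι hι hn3 hne hr hσ2 R₃ R).2 h1)
  · obtain ⟨e⟩ := cent_transfer hF σ hσ ι hι hn3 hne hr hσ2 R₁
    obtain ⟨e'⟩ := c1
    exact ⟨e.trans e'⟩
  · obtain ⟨e⟩ := cent_transfer hF σ hσ ι hι hn3 hne hr hσ2 R₃
    obtain ⟨e'⟩ := c3
    exact ⟨e.trans e'⟩

end CfsgLib.PUA.GT
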