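/-
Involutory graph automorphisms of `PSU_n(q)`, `n` odd, from those of `PSL_n(q)`.
-/
import Mathlib
import Cfsg.Agent.Lib.PSUAut.GraphInvols
import Cfsg.Agent.Lib.PSLn.GraphOdd2

set_option autoImplicit false
set_option linter.unusedSimpArgs false
set_option linter.unusedVariables false
set_option linter.unusedSectionVars false
set_option maxHeartbeats 1000000

namespace CfsgLib.PUA.GT

open Module Matrix Cfsg CfsgLib.ClassGeo CfsgLib.PUA CfsgLib.PUA.GC CfsgLib.PSN.GI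

/-- Statement S2706 with `n = 2 * m + 1`. -/
theorem main_2706 {F : Type*} [Field F] [Fintype F] {q : ℕ} (hF : Fintype.card F = q ^ 2) {m : ℕ} (hn : 3 ≤ 2 * m + 1)
    (F₀ : Type*) [Field F₀] [Fintype F₀] (hF₀ : Fintype.card F₀ = q)
    (γ γ' : MulAut (Cfsg.PSU (2 * m + 1) F q)) (hγ : Cfsg.IsGraphAutClassPSU γ) (hγ2 : orderOf γ = 2)
    (hγ' : Cfsg.IsGraphAutClassPSU γ') (hγ'2 : orderOf γ' = 2) :
    Nonempty (↥(Cfsg.inndiagPSU (2 * m + 1) F q ⊓ Subgroup.centralizer {γ}) ≃* Cfsg.PGO F₀ (Cfsg.quadFormOdd m F₀)) ∧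
      Cfsg.IsConjUnder (Cfsg.inndiagPSU (2 * m + 1) F q) γ γ' := by
  classical
  haveI : NeZero (2 * m + 1) := ⟨by omega⟩
  obtain ⟨p, f, hp, hch, σ, ι, hF', hf, hσ, hι, hne, hσ2, hr⟩ := exists_setup (F₀ := F₀) hF hF₀
  obtain ⟨y, A, h, rfl, R, hA⟩ := exhaust_rep hF σ hσ ι hι hF' hf hn hne hσ2 hr hγ hγ2
  obtain ⟨y', A', h', rfl, R', hA'⟩ := exhaust_rep hF σ hσ ι hι hF' hf hn hne hσ2 hr hγ' hγ'2
  obtain ⟨⟨e'⟩, hc⟩ := CfsgLib.PSN.GO.main_2699 hn (gam A⁻¹) (gam A'⁻¹) (gam_isGraph hn _) (gam_order hn A hA)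
    (gam_isGraph hn _) (gam_order hn A' hA')
  obtain ⟨e⟩ := cent_transfer hF σ hσ ι hι hn hne hr hσ2 R
  exact ⟨⟨e.trans e'⟩, (conj_iff hF σ hσ ι hι hn hne hr hσ2 R R').2 hc⟩

end CfsgLib.PUA.GT
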