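/-
Conjugacy of transvections in the special unitary group.
-/
import Cfsg.Agent.Lib.PSUAut.Class

set_option autoImplicit false
set_option linter.unusedSimpArgs false
set_option linter.unusedVariables false
set_option linter.unusedSectionVars false
set_option maxHeartbeats 1000000

namespace CfsgLib.PUA

open Module Matrix Cfsg CfsgLib.ClassGeo

variable {F : Type*} [Field F] {n q : ℕ}

local notation "MM" => Matrix (Fin n) (Fin n) F

section Main

variable [Fintype F] (hF : Fintype.card F = q ^ 2)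

include hF in
/-- Normal form of a transvection of the special unitary group. -/
lemma trans_form (t : SUt n F q) (hr : (t.1.1 - 1).rank = 1) (hsq : (t.1.1 - 1) * (t.1.1 - 1) = 0) :
    ∃ (v : Fin n → F) (a : F), v ≠ 0 ∧ stdH n hF v v = 0 ∧ a ≠ 0 ∧ a + qFrob hF a = 0 ∧ IsT (stdH n hF) v a (suEquiv hF n t).1 := by
  classical
  have h := stdH_hform n hF
  have hf := h.toF
  obtain ⟨M, hM⟩ : ∃ M : MM, M = t.1.1 - 1 := ⟨_, rfl⟩
  rw [← hM] at hr hsq
  have htx : ∀ x, t.1.1 *ᵥ x = x + M *ᵥ x := by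
    intro x
    rw [hM, sub_mulVec, one_mulVec]
    abel
  have hr' : finrank F (LinearMap.range M.mulVecLin) = 1 := hr
  obtain ⟨⟨v, x₀, hx₀⟩, hv0, hall⟩ := finrank_eq_one_iff'.1 hr'
  have hx₀' : M *ᵥ x₀ = v := hx₀
  have hv0' : v ≠ 0 := fun e => hv0 (Subtype.ext e)
  have hex : ∀ x, ∃ c : F, M *ᵥ x = c • v := by
    intro x
    obtain ⟨c, hc⟩ := hall ⟨M *ᵥ x, x, rfl⟩
    exact ⟨c, (congrArg Subtype.val hc).symm⟩
  choose f' hf' using hex
  have hfx₀ : f' x₀ = 1 := by
    have e := hf' x₀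
    rw [hx₀'] at e
    have e2 : (f' x₀ - 1) • v = 0 := by
      rw [sub_smul, one_smul, ← e, sub_self]
    rcases smul_eq_zero.mp e2 with e3 | e3
    · exact sub_eq_zero.mp e3
    · exact absurd e3 hv0'
  have hfv : f' v = 0 := by
    have e := hf' v
    rw [← hx₀', mulVec_mulVec, hsq, zero_mulVec] at e
    rw [hx₀'] at e
    rcases smul_eq_zero.mp e.symm with e3 | e3
    · exact e3
    · exact absurd e3 hv0'
  have hpres : ∀ x y, stdH n hF (t.1.1 *ᵥ x) (t.1.1 *ᵥ y) = stdH n hF x y := gu_pres hF (suToGU n t)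
  have hdag : ∀ x y, qFrob hF (f' x) * stdH n hF v y + f' y * stdH n hF x v + qFrob hF (f' x) * f' y * stdH n hF v v = 0 := by
    intro x y
    have e := hpres x y
    rw [htx, htx, hf', hf'] at e
    simp only [map_add, LinearMap.add_apply, LinearMap.map_smulₛₗ₂, map_smul, smul_eq_mul] at e
    linear_combination e
  have hvv : stdH n hF v v = 0 := by
    have e := hdag x₀ v
    rw [hfv, hfx₀, map_one] at e
    linear_combination e
  have hxv : stdH n hF x₀ v ≠ 0 := by
    intro h0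
    apply hv0'
    apply h.sep
    intro y
    have e := hdag x₀ y
    rw [hfx₀, map_one, h0, hvv] at e
    linear_combination e
  obtain ⟨a, ha⟩ : ∃ a, a = -(stdH n hF x₀ v)⁻¹ := ⟨_, rfl⟩
  have hfy : ∀ y, f' y = a * stdH n hF v y := by
    intro y
    have e := hdag x₀ y
    rw [hfx₀, map_one, hvv] at e
    rw [ha]
    field_simp
    linear_combination e
  have ha0 : a ≠ 0 := by
    rw [ha]
    exact neg_ne_zero.mpr (inv_ne_zero hxv)
  have hT : IsT (stdH n hF) v a (suEquiv hF n t).1 := by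
    intro y
    rw [suEquiv_act, htx, hf', hfy]
  obtain ⟨y₁, hy₁⟩ := exists_one h hv0'
  exact ⟨v, a, hv0', hvv, ha0, IsT.trace hf hvv hT (gm_iso _) hy₁, hT⟩

include hF in
/-- The unitary group is transitive on nonzero isotropic vectors. -/
lemma exists_vec_map {x y : Fin n → F} (hx : x ≠ 0) (hxx : stdH n hF x x = 0) (hyy : stdH n hF y y = 0) (hy : y ≠ 0) :
    ∃ g : GUt n F q, g.1.1 *ᵥ x = y := by
  classical
  have h := stdH_hform n hF
  have hq2 := qfrob_two_le hF
  let W : Submodule F (Fin n → F) := Submodule.span F {x}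
  let e : F ≃ₗ[F] W := LinearEquiv.toSpanNonzeroSingleton F (Fin n → F) x hx
  let f₀ : W →ₗ[F] (Fin n → F) := (LinearMap.toSpanSingleton F (Fin n → F) y) ∘ₗ (e.symm : W →ₗ[F] F)
  have hex : ∀ u : W, (u : Fin n → F) = e.symm u • x := by
    intro u
    have h1 := congrArg Subtype.val (e.apply_symm_apply u)
    rw [← h1]
    exact congrArg Subtype.val (LinearEquiv.toSpanNonzeroSingleton_apply F (Fin n → F) x hx (e.symm u))
  have hfu : ∀ u : W, f₀ u = e.symm u • y := fun u => rfl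
  have hxW : ∀ u : W, e.symm u = 0 → u = 0 := by
    intro u hu
    exact e.symm.map_eq_zero_iff.mp hu
  obtain ⟨g, hg, hgφ⟩ := (HForm.toEps h).witt W f₀ (by
    intro a b hab
    rw [hfu, hfu] at hab
    have e2 : (e.symm a - e.symm b) • y = 0 := by
      rw [sub_smul, hab, sub_self]
    rcases smul_eq_zero.mp e2 with e3 | e3
    · exact e.symm.injective (sub_eq_zero.mp e3)
    · exact absurd e3 hy) (by
    intro u v
    rw [hfu, hfu, hex u, hex v]
    simp only [LinearMap.map_smulₛₗ₂, map_smul, smul_eq_mul, hxx, hyy])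
  have hg'' : ∀ a b, stdH n hF (g a) (g b) = stdH n hF a b := hg
  have hmem : glLin.symm g ∈ GU n F q := by
    intro u v
    change hermForm n F q ((glLin.symm g : GL (Fin n) F).1 *ᵥ u) ((glLin.symm g : GL (Fin n) F).1 *ᵥ v) = _
    rw [glLin_symm_mulVec, glLin_symm_mulVec, ← stdH_apply n hF, ← stdH_apply n hF]
    exact hg'' v u
  refine ⟨⟨glLin.symm g, hmem⟩, ?_⟩
  change (glLin.symm g : GL (Fin n) F).1 *ᵥ x = y
  rw [glLin_symm_mulVec]
  have hxw : x ∈ W := Submodule.mem_span_singleton_self x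
  have h1 := hgφ ⟨x, hxw⟩
  have h2 : f₀ ⟨x, hxw⟩ = y := by
    rw [hfu]
    have h3 : e.symm ⟨x, hxw⟩ = 1 := by
      apply e.injective
      rw [e.apply_symm_apply]
      apply Subtype.ext
      change x = (LinearEquiv.toSpanNonzeroSingleton F (Fin n → F) x hx 1 : Fin n → F)
      rw [LinearEquiv.toSpanNonzeroSingleton_one]
    rw [h3, one_smul]
  rw [← h2]
  exact h1

include hF in
/-- Diagonal elements with a given determinant fixing the coordinate hyperplane. -/
lemma exists_diag (i₀ : Fin n) (c : Fˣ) (hc : c ^ (q + 1) = 1) :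
    ∃ g : GUt n F q, guDet n g = c ∧ ∀ x : Fin n → F, x i₀ = 0 → g.1.1 *ᵥ x = x := by
  classical
  have hq2 := qfrob_two_le hF
  let d : Fin n → F := Function.update 1 i₀ (c : F)
  have hd : ∀ i, d i ^ (q + 1) = 1 := by
    intro i
    by_cases h : i = i₀
    · simp only [d, h, Function.update_self]
      rw [← Units.val_pow_eq_pow_val, hc, Units.val_one]
    · simp [d, h]
  have hdet : (Matrix.diagonal d).det = c := by
    rw [Matrix.det_diagonal]
    rw [Finset.prod_eq_single i₀]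
    · simp [d]
    · intro b _ hb
      simp [d, hb]
    · simp
  refine ⟨⟨Matrix.GeneralLinearGroup.mkOfDetNeZero (Matrix.diagonal d) (by rw [hdet]; exact c.ne_zero), ?_⟩, ?_, ?_⟩
  · intro u v
    change hermForm n F q ((Matrix.diagonal d) *ᵥ u) ((Matrix.diagonal d) *ᵥ v) = _
    simp only [hermForm, Matrix.mulVec_diagonal, mul_pow]
    refine Finset.sum_congr rfl fun i _ => ?_
    linear_combination (u i * v i ^ q) * hd i
  · apply Units.ext
    rw [guDet_apply]
    exact hdet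
  · intro x hx
    change (Matrix.diagonal d) *ᵥ x = x
    funext i
    rw [Matrix.mulVec_diagonal]
    by_cases h : i = i₀
    · subst h
      rw [hx, mul_zero]
    · simp [d, h]

include hF in
/-- Any two transvections of the special unitary group are conjugate. -/
theorem su_trans_conj (hn : 3 ≤ n) (s t : SUt n F q) (hs1 : (s.1.1 - 1).rank = 1) (hs2 : (s.1.1 - 1) * (s.1.1 - 1) = 0)
    (ht1 : (t.1.1 - 1).rank = 1) (ht2 : (t.1.1 - 1) * (t.1.1 - 1) = 0) : IsConj s t := by
  classical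
  have h := stdH_hform n hF
  have hf := h.toF
  obtain ⟨v, a, hv0, hvv, ha0, ha, hsT⟩ := trans_form hF s hs1 hs2
  obtain ⟨w, b, hw0, hww, hb0, hb, htT⟩ := trans_form hF t ht1 ht2
  have hσa : qFrob hF a = -a := by linear_combination ha
  have hσb : qFrob hF b = -b := by linear_combination hb
  have hfix : qFrob hF (b / a) = b / a := by
    rw [map_div₀, hσa, hσb, neg_div_neg_eq]
  obtain ⟨c, hc⟩ := herm_norm_surj (qFrob hF) (qFrob_ne hF) (qFrob_qFrob hF) (b / a) (div_ne_zero hb0 ha0) hfix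
  have hc0 : c ≠ 0 := by
    rintro rfl
    rw [zero_mul] at hc
    exact div_ne_zero hb0 ha0 hc.symm
  have hcw0 : c • w ≠ 0 := smul_ne_zero hc0 hw0
  have hcww : stdH n hF (c • w) (c • w) = 0 := by
    simp only [LinearMap.map_smulₛₗ₂, map_smul, smul_eq_mul, hww, mul_zero]
  obtain ⟨g₀, hg₀⟩ := exists_vec_map hF hv0 hvv hcww hcw0
  -- the auxiliary isotropic vector
  let i₀ : Fin n := ⟨0, by omega⟩
  let i₁ : Fin n := ⟨1, by omega⟩
  let i₂ : Fin n := ⟨2, by omega⟩
  have h01 : i₀ ≠ i₁ := by simp [i₀, i₁, Fin.ext_iff]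
  have h02 : i₀ ≠ i₂ := by simp [i₀, i₂, Fin.ext_iff]
  have h12 : i₁ ≠ i₂ := by simp [i₁, i₂, Fin.ext_iff]
  obtain ⟨α, hα⟩ := herm_norm_surj (qFrob hF) (qFrob_ne hF) (qFrob_qFrob hF) (-1 : F) (by simp) (by simp)
  obtain ⟨w₀, hw₀⟩ : ∃ w₀ : Fin n → F, w₀ = Pi.single i₁ 1 + α • Pi.single i₂ 1 := ⟨_, rfl⟩
  have hw₀i : w₀ i₀ = 0 := by
    rw [hw₀]
    simp [Pi.single_apply, h01, h02]
  have hw₀1 : w₀ i₁ = 1 := by
    rw [hw₀]
    simp [Pi.single_apply, h12]
  have hw₀0 : w₀ ≠ 0 := by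
    intro h0
    rw [h0] at hw₀1
    simp at hw₀1
  have hw₀w : stdH n hF w₀ w₀ = 0 := by
    rw [hw₀]
    simp only [map_add, LinearMap.add_apply, LinearMap.map_smulₛₗ₂, map_smul, smul_eq_mul, stdH_single hF n, if_true, if_neg h12, if_neg h12.symm]
    linear_combination hα
  obtain ⟨g₁, hg₁⟩ := exists_vec_map hF hw₀0 hw₀w hww hw0
  have hδ : (guDet n g₀)⁻¹ ^ (q + 1) = 1 := by
    rw [inv_pow]
    have : guDet n g₀ ^ (q + 1) = 1 := by
      apply Units.ext
      rw [Units.val_pow_eq_pow_val, guDet_apply]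
      exact det_norm_of_isom hF n _ g₀.2
    rw [this, inv_one]
  obtain ⟨R, hRd, hRx⟩ := exists_diag hF i₀ _ hδ
  let g : GUt n F q := g₁ * R * g₁⁻¹ * g₀
  have hgd : guDet n g = 1 := by
    simp only [g, map_mul, map_inv, hRd]
    rw [mul_comm (guDet n g₁) _, mul_inv_cancel_right, inv_mul_cancel]
  have hgv : g.1.1 *ᵥ v = c • w := by
    have e1 : g.1.1 = g₁.1.1 * R.1.1 * (g₁⁻¹).1.1 * g₀.1.1 := rfl
    have e2 : (g₁⁻¹).1.1 *ᵥ w = w₀ := by
      rw [← hg₁]
      exact gu_inv_mul g₁ w₀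
    rw [e1, ← mulVec_mulVec, hg₀, ← mulVec_mulVec, mulVec_smul, e2, ← mulVec_mulVec, mulVec_smul, hRx _ hw₀i, mulVec_smul, hg₁]
  have hdet : g.1.1.det = 1 := by
    rw [← guDet_apply, hgd]
    rfl
  let s₀ : SUt n F q := ⟨⟨g.1.1, hdet⟩, g.2⟩
  have hgs : g = suToGU n s₀ := by
    apply Subtype.ext
    apply Units.ext
    rfl
  have h1 := conj_isT hF g s hsT
  rw [hgv] at h1
  have h2 : suEquiv hF n (conjH g s) = suEquiv hF n t := by
    apply gm_ext
    intro x
    rw [h1 x, htT x]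
    congr 1
    simp only [LinearMap.map_smulₛₗ₂, LinearMap.smul_apply, smul_eq_mul, smul_smul]
    congr 1
    have e3 : a * (c * qFrob hF c) = b := by
      rw [hc]
      field_simp
    linear_combination (stdH n hF w x) * e3
  have h3 : conjH g s = t := (suEquiv hF n).injective h2
  rw [isConj_iff]
  refine ⟨s₀, ?_⟩
  rw [← h3, hgs]
  apply su_ext
  rw [conjH_val]
  have e : (((suToGU n s₀).1)⁻¹).1 = (s₀⁻¹).1.1 := by
    have e1 : (suToGU n s₀).1 = Matrix.SpecialLinearGroup.toGL s₀.1 := rfl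
    rw [e1, ← map_inv]
    rfl
  rw [e]
  rfl

end Main

end CfsgLib.PUA
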